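import Mathlib
import Cfsg.Agent.H06.J0

/-! Part E of S5566: the elementary abelian subgroup of order `2¹¹`. -/

set_option autoImplicit false
set_option linter.unusedSectionVars false
open Cfsg BG Subgroup H01.XS H01.XF Cfsg.Agent.H06.J
open H01.XT hiding Hy QS

namespace H26.JE
universe u
variable {G : Type u} [Group G] [Finite G] {z : G} {Q : Subgroup G}
  {V : Type u} [AddCommGroup V] [Module (ZMod 2) V] [Finite V] {Γ : Type u} [Group Γ] [Finite Γ]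
  {T : Γ → V →+ V} {d : Γ} {M K Y : Subgroup Γ} {β : V →+ V →+ ZMod 2} {q : V → ZMod 2} {ν : G → V}
  {f : C_[z] →* Γ} {π : G → Γ} {B : AddSubgroup V}

theorem mul (s : Bj z Q f π ν T d M β q) (x : G) (i : x ∈ C_[z]) (y : G) (j : y ∈ C_[z]) : π (x * y) = π x * π y :=
  (s.pf (⟨x, i⟩ * ⟨y, j⟩)).symm.trans ((map_mul f _ _).trans (by rw [s.pf, s.pf]))

theorem inv (s : Bj z Q f π ν T d M β q) (x : G) (i : x ∈ C_[z]) : π x⁻¹ = (π x)⁻¹ :=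
  (s.pf ⟨x, i⟩⁻¹).symm.trans ((map_inv f _).trans (by rw [s.pf]))

theorem ω2 (s : Bj z Q f π ν T d M β q) (v : V) : T d (T d v) = T d v + v := lc (s.gm.hf v)

theorem cnt (s : Bj z Q f π ν T d M β q) {U : Subgroup G} (l : U ≤ C_[z]) :
    Nat.card ↥(Q ⊓ U) * Nat.card ((U.subgroupOf C_[z]).map f) = Nat.card U := by
  have a1 := card_inf_mul_relIndex f.ker (U.subgroupOf C_[z])
  rwa [relIndex_ker, show f.ker ⊓ U.subgroupOf C_[z] = (Q ⊓ U).subgroupOf C_[z] from Subgroup.ext fun x =>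
    ⟨fun i => ⟨(s.ker _ x.2).1 ((s.pf x).symm.trans i.1), i.2⟩, fun i => ⟨(s.pf x).trans ((s.ker _ x.2).2 i.1), i.2⟩⟩,
    Nat.card_congr (subgroupOfEquivOfLe (inf_le_right.trans l)).toEquiv,
    Nat.card_congr (subgroupOfEquivOfLe l).toEquiv] at a1

theorem exδ (s : Bj z Q f π ν T d M β q) : ∃ δ ∈ C_[z], π δ = d ∧ δ ^ 3 = 1 := by
  obtain ⟨g, i, e⟩ := s.sur d
  have l := s.md.lx
  have e3 : π (g * (g * g)) = 1 := by rw [mul s _ i _ (mul_mem i i), mul s _ i _ i, e, s.gm.d3]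
  have m := (s.ker _ (mul_mem i (mul_mem i i))).1 e3
  refine ⟨g * (g * g) * g, mul_mem (mul_mem i (mul_mem i i)) i, by rw [mul s _ (mul_mem i (mul_mem i i)) _ i, e3, e, one_mul], ?_⟩
  rw [show (g * (g * g) * g) ^ 3 = (g * (g * g)) ^ 2 * (g * (g * g)) ^ 2 by simp only [pow_succ, pow_zero, one_mul, mul_assoc]]
  rcases l.sq m with k | k <;> rw [k]
  exacts [one_mul _, l.zz]

theorem cq (s : Bj z Q f π ν T d M β q) {δ x : G} (i : δ ∈ C_[z]) (e : π δ = d)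
    (j : x ∈ Q) (k : x ∈ C_[δ]) : x = 1 ∨ x = z := by
  refine (s.md.ker x j).1 ?_
  have a1 := s.act δ i x j
  rw [← mem_cent1.1 k, mul_inv_cancel_right, e] at a1
  have := s.gm.hf (ν x)
  rw [a1, a1] at this
  exact lc this

theorem su (s : Bj z Q f π ν T d M β q) {δ : G} (i : δ ∈ C_[z]) (e : π δ = d)
    (o : δ ^ 3 = 1) : ∀ m ∈ M, ∃ x ∈ C_[z] ⊓ C_[δ], π x = m := fun m j => by
  have l := s.md.lx
  obtain ⟨g, k, rfl⟩ := s.sur m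
  have c1 : g * δ * g⁻¹ * δ⁻¹ ∈ Q := (s.ker _ (mul_mem (mul_mem (mul_mem k i) (inv_mem k)) (inv_mem i))).1 (by
    rw [mul s _ (mul_mem (mul_mem k i) (inv_mem k)) _ (inv_mem i), mul s _ (mul_mem k i) _ (inv_mem k), mul s _ k _ i,
      inv s _ k, inv s _ i, e, s.gm.Md _ j]; group)
  obtain ⟨r, rQ, er⟩ := s.md.sur (T d (ν (g * δ * g⁻¹ * δ⁻¹)))
  have c2 : δ * r⁻¹ * δ⁻¹ ∈ Q := l.cE i (inv_mem rQ)
  have c3 : ν (r * (δ * r⁻¹ * δ⁻¹)) = ν (g * δ * g⁻¹ * δ⁻¹) := by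
    rw [s.md.mul _ rQ _ c2, ← s.act δ i _ (inv_mem rQ), s.md.inv rQ, er, e, ω2 s]; exact lc0
  have c4 : r * δ * r⁻¹ = g * δ * g⁻¹ := by
    rcases s.md.eq (mul_mem rQ c2) c1 c3 with c | c
    · exact mul_right_cancel (b := δ⁻¹) (by rw [← c]; group)
    · exfalso
      have c5 : r * δ * r⁻¹ = z * (g * δ * g⁻¹) := mul_right_cancel (b := δ⁻¹) (by rw [mul_assoc z, ← c]; group)
      have c6 : Commute z (g * δ * g⁻¹) := (mem_cent1.1 (mul_mem (mul_mem k i) (inv_mem k))).symm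
      have c7 := congrArg (· ^ 3) c5
      simp only [conj_pow, c6.mul_pow, o, mul_one, mul_inv_cancel] at c7
      rw [pow_three, l.zz, mul_one] at c7
      exact l.z1 c7.symm
  refine ⟨r⁻¹ * g, mem_inf.2 ⟨mul_mem (inv_mem (l.le rQ)) k, mem_cent1.2 ?_⟩, by
    rw [mul s _ (inv_mem (l.le rQ)) _ k, (s.ker _ (inv_mem (l.le rQ))).2 (inv_mem rQ), one_mul]⟩
  rw [show r⁻¹ * g * δ = r⁻¹ * (g * δ * g⁻¹) * g by group, ← c4]; group

theorem ex4 (c : Nat.card Y = 16) (a b e g : Γ) : ∃ y ∈ Y, y ≠ a ∧ y ≠ b ∧ y ≠ e ∧ y ≠ g := by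
  by_contra h
  have h1 : (Y : Set Γ) ⊆ {a, b, e, g} := fun y hy => by
    by_contra n
    simp only [Set.mem_insert_iff, Set.mem_singleton_iff, not_or] at n
    exact h ⟨y, hy, n⟩
  have h2 := Set.ncard_le_ncard h1 (Set.toFinite _)
  have h3 : (Y : Set Γ).ncard = 16 := (Nat.card_coe_set_eq _).symm.trans c
  have h4 := Set.ncard_insert_le a ({b, e, g} : Set Γ)
  have h5 := Set.ncard_insert_le b ({e, g} : Set Γ)
  have h6 := Set.ncard_insert_le e ({g} : Set Γ)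
  rw [Set.ncard_singleton] at h6
  omega

theorem sq1 (s : Bj z Q f π ν T d M β q) (x : Hx d K Y) (KM : K ≤ M) {δ : G} (δz : δ ∈ C_[z]) (δd : π δ = d)
    (δ3 : δ ^ 3 = 1) {c : G} (i : c ∈ C_[z] ⊓ C_[δ]) (j : π c ∈ Y) : c * c = 1 := by
  have l := s.md.lx
  have k1 : ∀ c ∈ C_[z] ⊓ C_[δ], π c = 1 → c = 1 ∨ c = z := fun c i e => cq s δz δd ((s.ker _ i.1).1 e) i.2
  refine (k1 _ (mul_mem i i) (by rw [mul s _ i.1 _ i.1]; exact x.Y2 _ j)).elim id fun e => ?_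
  exfalso
  have n : π c ≠ 1 := fun o => by
    rcases k1 c i o with r | r <;> rw [r] at e
    exacts [l.z1 (by simpa using e.symm), l.z1 (e.symm.trans l.zz)]
  have all : ∀ c' ∈ C_[z] ⊓ C_[δ], π c' ∈ Y → π c' ≠ 1 → c' * c' = z := fun c' i' j' n' => by
    obtain ⟨k, kK, ek⟩ := x.tr _ j _ j' n n'
    obtain ⟨κ, iκ, rfl⟩ := su s δz δd δ3 k (KM kK)
    have m : κ * c * κ⁻¹ ∈ C_[z] ⊓ C_[δ] := mul_mem (mul_mem iκ i) (inv_mem iκ)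
    have e2 : κ * c * κ⁻¹ * (κ * c * κ⁻¹) = z := by
      rw [conj_mul, e, mem_cent1.1 iκ.1, mul_inv_cancel_right]
    have e3 := k1 _ (mul_mem i' (inv_mem m)) (by
      rw [mul s _ i'.1 _ (inv_mem m.1), inv s _ m.1, mul s _ (mul_mem iκ.1 i.1) _ (inv_mem iκ.1), mul s _ iκ.1 _ i.1,
        inv s _ iκ.1, ek, mul_inv_cancel])
    generalize κ * c * κ⁻¹ = w at m e2 e3
    rcases e3 with r | r
    · rw [mul_inv_eq_one.1 r, e2]
    · rw [mul_inv_eq_iff_eq_mul.1 r, mul_assoc z, ← mul_assoc w, mem_cent1.1 m.1, mul_assoc z, e2, l.zz, mul_one]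
  have ne : ∀ a ∈ Y, ∀ b ∈ Y, a ≠ b → a * b ≠ 1 := fun a ha b hb n o =>
    n (mul_left_cancel (a := a) ((x.Y2 a ha).trans o.symm))
  have anti : ∀ a ∈ C_[z] ⊓ C_[δ], ∀ b ∈ C_[z] ⊓ C_[δ], π a ∈ Y → π b ∈ Y → π a ≠ 1 → π b ≠ 1 → π a ≠ π b →
      a * b = z * (b * a) := fun a ia b ib ja jb na nb nab => by
    have e1 := all a ia ja na
    have e2 := all b ib jb nb
    have e3 := all _ (mul_mem ia ib) (by rw [mul s _ ia.1 _ ib.1]; exact mul_mem ja jb)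
      (by rw [mul s _ ia.1 _ ib.1]; exact ne _ ja _ jb nab)
    have e4 : a * (a * b * (a * b)) * b = a * a * (b * a) * (b * b) := by simp only [mul_assoc]
    rw [e3, e1, e2, mem_cent1.1 ia.1, mul_assoc z, mul_assoc z, mem_cent1.1 (mul_mem ib.1 ia.1)] at e4
    exact mul_left_cancel e4
  obtain ⟨y2, m2, n2, n2', -⟩ := ex4 x.cY 1 (π c) 1 1
  obtain ⟨y3, m3, n3, n3', n3'', n4⟩ := ex4 x.cY 1 (π c) y2 (π c * y2)
  obtain ⟨b, ib, rfl⟩ := su s δz δd δ3 y2 (KM (x.YK m2))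
  obtain ⟨a, ia, rfl⟩ := su s δz δd δ3 y3 (KM (x.YK m3))
  have e1 := anti a ia c i m3 j n3 n n3'
  have e2 := anti a ia b ib m3 m2 n3 n2 n3''
  have e0 := mul s _ i.1 _ ib.1
  have e3 := anti a ia _ (mul_mem i ib) m3 (e0 ▸ mul_mem j m2) n3 (e0 ▸ ne _ j _ m2 n2'.symm) (e0 ▸ n4)
  rw [← mul_assoc, e1, mul_assoc z, mul_assoc c a, e2, ← mul_assoc c z, mem_cent1.1 i.1, mul_assoc z, mul_assoc c b] at e3
  exact l.z1 (by simpa using mul_left_cancel e3)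

theorem e : EStmt.{u} := by
  intro G _ _ z Q V _ _ _ Γ _ _ f π ν T d M K Y β q B s x KM k
  have l := s.md.lx
  have βB : ∀ u ∈ B, ∀ v ∈ B, β u v = 0 := fun u i v j => by
    have := s.gm.pol u v
    rw [k.qB _ (add_mem i j), k.qB u i, k.qB v j, zero_add, zero_add] at this
    exact this.symm
  have mB : ∀ {W : AddSubgroup V} {x : G}, x ∈ s.md.pull W ↔ x ∈ Q ∧ ν x ∈ W := Iff.rfl
  have zL : ∀ W : AddSubgroup V, z ∈ s.md.pull W := fun W => mB.2 ⟨l.aes.mem, s.md.zz ▸ zero_mem W⟩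
  have BA : s.md.pull B ≤ C_(s.md.pull B) := fun x i => mem_cent.2 fun y j => ((s.b y j.1 x i.1).1 (βB _ j.2 _ i.2)).eq
  have AQ : C_(s.md.pull B) ⊓ Q = s.md.pull B := le_antisymm (fun x i => mB.2 ⟨i.2, s.gm.toQF.perp βB
    (by rw [k.cB]; norm_num) fun u j => by
      obtain ⟨y, o, rfl⟩ := s.md.sur u
      exact (s.b x i.2 y o).2 (show Commute y x from mem_cent.1 i.1 y (mB.2 ⟨o, j⟩)).symm⟩) fun x i => ⟨BA i, i.1⟩
  have Az : C_(s.md.pull B) ≤ C_[z] := fun g i => cent_le_cent1 (zL B) i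
  have yb : ∀ g ∈ C_[z], π g ∈ Y → ∀ b ∈ s.md.pull B, g * b * g⁻¹ = b ∨ g * b * g⁻¹ = z * b := fun g i j b o =>
    s.md.eq (l.cE i o.1) o.1 ((s.act g i b o.1).symm.trans ((k.mB _).1 o.2 _ j))
  obtain ⟨δ, δz, δd, δ3⟩ := exδ s
  have lift : ∀ y ∈ Y, ∃ c ∈ C_(s.md.pull B), c ∈ C_[δ] ∧ π c = y := fun y i => by
    obtain ⟨c, j, rfl⟩ := su s δz δd δ3 y (KM (x.YK i))
    refine ⟨c, mem_cent.2 fun b o => ?_, j.2, rfl⟩
    obtain ⟨r, rQ, er⟩ := s.md.sur (T d (ν b))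
    have rB : r ∈ s.md.pull B := mB.2 ⟨rQ, er ▸ k.Bω _ o.2⟩
    have r2 := l.cE δz rQ
    have e1 : ν b = ν (r * (δ * r * δ⁻¹)) := by
      rw [s.md.mul _ rQ _ r2, ← s.act δ δz r rQ, δd, er, ω2 s]; exact lc0
    have cδ : c * δ = δ * c := mem_cent1.1 j.2
    have cz : c * z = z * c := mem_cent1.1 j.1
    have e2 : c * (r * (δ * r * δ⁻¹)) * c⁻¹ = r * (δ * r * δ⁻¹) := by
      rw [show c * (r * (δ * r * δ⁻¹)) * c⁻¹ = c * r * c⁻¹ * ((c * δ) * r * (c * δ)⁻¹) by group, cδ,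
        show δ * c * r * (δ * c)⁻¹ = δ * (c * r * c⁻¹) * δ⁻¹ by group]
      rcases yb c j.1 i r rB with e | e <;> rw [e]
      rw [← mul_assoc δ, mem_cent1.1 δz, mul_assoc z δ, mul_assoc z (δ * r), ← mul_assoc (z * r), mul_assoc z r,
        mem_cent1.1 (l.le rQ), ← mul_assoc z, l.zz, one_mul]
    have e3 := mul_inv_eq_iff_eq_mul.1 e2
    rcases s.md.eq o.1 (mul_mem rQ r2) e1 with e | e <;> rw [e]
    · exact e3.symm
    · rw [mul_assoc z, ← e3, ← mul_assoc, ← cz, mul_assoc]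
  have mf : ∀ {U : Subgroup G} {y : Γ}, U ≤ C_[z] → (y ∈ (U.subgroupOf C_[z]).map f ↔ ∃ x ∈ U, π x = y) := fun l0 =>
    ⟨fun ⟨x, i, e⟩ => ⟨x, i, (s.pf x).symm.trans e⟩, fun ⟨x, i, e⟩ => ⟨⟨x, l0 i⟩, i, (s.pf _).trans e⟩⟩
  obtain ⟨A, mA⟩ : ∃ A : Subgroup G, ∀ g, g ∈ A ↔ g ∈ C_(s.md.pull B) ∧ π g ∈ Y :=
    ⟨C_(s.md.pull B) ⊓ (Y.comap f).map C_[z].subtype, fun g => ⟨fun ⟨i, ⟨w, j, e⟩⟩ => ⟨i, by
      rw [← e]; exact (s.pf w) ▸ j⟩, fun ⟨i, j⟩ => ⟨i, ⟨g, Az i⟩, (mem_comap.2 ((s.pf ⟨g, Az i⟩).symm ▸ j)), rfl⟩⟩⟩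
  have A1 : A ≤ C_[z] := fun g i => Az ((mA g).1 i).1
  have eY : (A.subgroupOf C_[z]).map f = Y := Subgroup.ext fun y => (mf A1).trans
    ⟨by rintro ⟨x, i, rfl⟩; exact ((mA x).1 i).2, fun i => by
      obtain ⟨c, j, -, rfl⟩ := lift y i
      exact ⟨c, (mA c).2 ⟨j, i⟩, rfl⟩⟩
  have QA : Q ⊓ A = s.md.pull B := le_antisymm (fun g i => AQ.le ⟨((mA g).1 i.2).1, i.1⟩) fun g i =>
    ⟨i.1, (mA g).2 ⟨BA i, by rw [(s.ker _ (l.le i.1)).2 i.1]; exact one_mem _⟩⟩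
  refine ⟨A, A1, fun g i => ?_, by rw [← cnt s A1, eY, QA, s.md.card_pull, k.cB, x.cY], fun g i => ((mA g).1 i).2,
    fun g _ j i => (mA g).2 ⟨i, j⟩⟩
  obtain ⟨i, iY⟩ := (mA g).1 i
  obtain ⟨c, j, j', e⟩ := lift _ iY
  have b : g * c⁻¹ ∈ s.md.pull B := AQ.le (mem_inf.2 ⟨mul_mem i (inv_mem j), (s.ker _ (mul_mem (Az i) (inv_mem (Az j)))).1 (by
    rw [mul s _ (Az i) _ (inv_mem (Az j)), inv s _ (Az j), e, mul_inv_cancel])⟩)
  have e1 : g * g = g * c⁻¹ * (g * c⁻¹) * (c * c) := by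
    rw [show g * c⁻¹ * (g * c⁻¹) * (c * c) = g * c⁻¹ * (g * c⁻¹ * c) * c by group, mem_cent.1 j _ b]; group
  rw [e1, (s.sq _ b.1).1 (k.qB _ b.2), one_mul]
  exact sq1 s x KM δz δd δ3 ⟨Az j, j'⟩ (e ▸ iY)

end H26.JE
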