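import Mathlib
import Cfsg.Agent.H23.K0
import Cfsg.Agent.H26.JE
import Cfsg.Agent.H06.JZ

/-! Part X of S5567: first consequences of the configuration. -/

set_option autoImplicit false
set_option linter.unusedSectionVars false
open Cfsg BG Subgroup H01.XS H01.XF Cfsg.Agent.H06.J Cfsg.Agent.H23.K
open H01.XT hiding Hy QS

namespace H26.KX
universe u
variable {G : Type u} [Group G] [Finite G] {z : G} {Q : Subgroup G}
  {V : Type u} [AddCommGroup V] [Module (ZMod 2) V] [Finite V] {Γ : Type u} [Group Γ] [Finite Γ]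
  {T : Γ → V →+ V} {d : Γ} {M K Y : Subgroup Γ} {β : V →+ V →+ ZMod 2} {q : V → ZMod 2} {ν : G → V}
  {f : C_[z] →* Γ} {π : G → Γ} {B : AddSubgroup V}

theorem cz (s : Bj z Q f π ν T d M β q) {δ c : G} (i : δ ∈ C_[z]) (e : π δ = d) (j : c ∈ C_[z])
    (k : c ∈ C_[δ]) {r : G} (m : r ∈ Q) (fx : T (π c) (ν r) = ν r) : c * r * c⁻¹ = r := by
  have l := s.md.lx
  rw [s.act c j r m] at fx
  refine (s.md.eq (l.cE j m) m fx).resolve_right fun o => l.z1 ?_
  have st : ∀ r, c * r * c⁻¹ = z * r → c * (δ * r * δ⁻¹) * c⁻¹ = z * (δ * r * δ⁻¹) := fun r o => by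
    calc _ = (c * δ) * r * (c * δ)⁻¹ := by group
      _ = δ * (c * r * c⁻¹) * δ⁻¹ := by rw [mem_cent1.1 k]; group
      _ = _ := by rw [o, ← mul_assoc δ, mem_cent1.1 i]; group
  have o1 := st _ o
  have o2 := st _ o1
  have m1 := l.cE i m
  have m2 := l.cE i m1
  have n0 : ν (r * (δ * r * δ⁻¹) * (δ * (δ * r * δ⁻¹) * δ⁻¹)) = 0 := by
    rw [s.md.mul _ (mul_mem m m1) _ m2, s.md.mul _ m _ m1, ← s.act δ i _ m1, ← s.act δ i _ m, e]; exact s.gm.hf _
  have m3 := mul_mem (mul_mem m m1) m2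
  generalize δ * (δ * r * δ⁻¹) * δ⁻¹ = r2 at *
  generalize δ * r * δ⁻¹ = r1 at *
  have : c * (r * r1 * r2) * c⁻¹ = z * (r * r1 * r2) := by
    rw [← conj_mul, ← conj_mul, o, o1, o2]
    calc _ = z * (r * z) * (r1 * z) * r2 := by group
      _ = z * (z * r) * (z * r1) * r2 := by rw [mem_cent1.1 (l.le m), mem_cent1.1 (l.le m1)]
      _ = z * z * (r * z) * r1 * r2 := by group
      _ = _ := by rw [l.zz, mem_cent1.1 (l.le m)]; group
  rcases (s.md.ker _ m3).1 n0 with e | e <;> rw [e] at this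
  · simpa using this.symm
  · rw [mem_cent1.1 j, mul_inv_cancel_right, l.zz] at this; exact this

/-- the stabiliser of `B` -/
def St (g : Gj T d M β q) (B : AddSubgroup V) : Subgroup Γ where
  carrier := {x | ∀ v ∈ B, T x v ∈ B}
  one_mem' := fun v i => (g.one v).symm ▸ i
  mul_mem' := fun {a b} i j v o => (g.mul a b v).symm ▸ i _ (j v o)
  inv_mem' := fun {a} i => by
    have h : ∀ n : ℕ, ∀ v ∈ B, T (a ^ n) v ∈ B := fun n => by
      induction n with
      | zero => exact fun v o => by rw [pow_zero, g.one]; exact o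
      | succ n ih => exact fun v o => by rw [pow_succ, g.mul]; exact ih _ (i v o)
    rw [show a⁻¹ = a ^ (orderOf a - 1) from (eq_inv_of_mul_eq_one_left (by
      rw [← pow_succ, Nat.sub_add_cancel (orderOf_pos a), pow_orderOf_eq_one])).symm]
    exact h _

/-- the pointwise stabiliser of `B` -/
def Fx (g : Gj T d M β q) (B : AddSubgroup V) : Subgroup Γ where
  carrier := {x | ∀ v ∈ B, T x v = v}
  one_mem' := fun v _ => g.one v
  mul_mem' := fun {a b} i j v o => by rw [g.mul, j v o, i v o]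
  inv_mem' := fun {a} i v o => by
    conv_lhs => rw [← i v o]
    rw [← g.mul, inv_mul_cancel, g.one]

theorem cjF (g : Gj T d M β q) {a x : Γ} (i : a ∈ St g B) (j : x ∈ Fx g B) : a * x * a⁻¹ ∈ Fx g B := fun v o => by
  rw [g.mul, g.mul, j _ (inv_mem i v o), ← g.mul, mul_inv_cancel, g.one]

theorem iso (g : Gj T d M β q) (p : Pj T d K Y q B) : ∀ u ∈ B, ∀ v ∈ B, β u v = 0 := fun u i v j => by
  have := g.pol u v
  rw [p.qB _ (add_mem i j), p.qB u i, p.qB v j, zero_add, zero_add] at this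
  exact this.symm

theorem cK (g : Gj T d M β q) (h : Hk d M K Y) : Nat.card K = 17280 ∧ Nat.card M = 1330560 := by
  have a1 := M.card_mul_index
  have a2 := card_mul_relIndex h.KM
  rw [g.Mi, g.cΓ] at a1
  rw [h.iK] at a2
  omega

theorem fB (g : Gj T d M β q) (h : Hk d M K Y) (p : Pj T d K Y q B) (u : Pu T M K Y β B) : Fx g B ≤ Y := by
  have sq : ∀ x ∈ Fx g B, x * x = 1 := fun x i => g.fai _ fun v => by
    have m : T x v + v ∈ B := g.toQF.perp (iso g p) (by rw [p.cB]; norm_num) fun w o => by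
      rw [map_add, AddMonoidHom.add_apply]
      have := g.toQF.inv (g.qT x) v w
      rw [i w o] at this
      rw [this]; exact CharTwo.add_self_eq_zero _
    have := i _ m
    rw [map_add] at this
    rw [g.mul]; exact lc this
  refine fun x i => u.fx x (sq x i) (fun xM => ?_) i
  have n : K ≤ N_(Fx g B ⊓ M) := norm_inf (le_norm_iff.2 fun a ha y hy => cjF g (p.KB a ha) hy) (norm_of_le h.KM)
  rcases h.mx (Fx g B ⊓ M ⊔ K) le_sup_right (sup_le inf_le_right h.KM) with e | e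
  · exact e.le (mem_sup_left ⟨i, xM⟩)
  · exfalso
    have a := card_sup_mul n
    have pg : IsPGroup 2 ↥(Fx g B ⊓ M) := fun y => ⟨1, Subtype.ext (by simpa [pow_two] using sq _ y.2.1)⟩
    obtain ⟨k, hk⟩ := IsPGroup.iff_card.1 pg
    rw [e, (cK g h).1, (cK g h).2, hk] at a
    have : 7 ∣ 2 ^ k := ⟨11 * Nat.card ↥(Fx g B ⊓ M ⊓ K), by omega⟩
    exact absurd ((by norm_num : Nat.Prime 7).dvd_of_dvd_pow this) (by norm_num)

theorem sK (g : Gj T d M β q) (h : Hk d M K Y) (p : Pj T d K Y q B) (u : Pu T M K Y β B) : M ⊓ St g B = K := by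
  refine (h.mx _ (le_inf h.KM (show K ≤ St g B from p.KB)) inf_le_left).resolve_right fun e => ?_
  obtain ⟨a, ha, y, hy, n⟩ := h.nY
  exact n (fB g h p u (cjF g (e.ge ha).2 fun v o => (p.mB v).1 o y hy))

theorem cS (g : Gj T d M β q) (h : Hk d M K Y) (p : Pj T d K Y q B) (u : Pu T M K Y β B) :
    Nat.card (St g B) = 34560 := by
  obtain ⟨S, YS, SK⟩ := syl g.cΓ g.Mi h.KM h.iK h.hx.YK h.hx.cY
  have nM : M.Normal := normal_of_index_eq_two g.Mi
  have cS : Nat.card S = 256 := by rw [S.card_eq_multiplicity, g.cΓ]; decide +kernel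
  obtain ⟨a, aS, aM⟩ : ∃ a ∈ (S : Subgroup Γ), a ∉ M := by
    by_contra! k
    have := card_dvd_of_le (show (S : Subgroup Γ) ≤ M from k)
    rw [show Nat.card (S : Subgroup Γ) = 256 from cS, (cK g h).2] at this
    exact absurd this (by norm_num)
  have inj : Function.Injective (T a) := fun v w e => by
    rw [← g.one v, ← g.one w, ← inv_mul_cancel a, g.mul, g.mul, e]
  have e : B.map (T a) = B := u.un (cj a Y) (fun y i => SK ⟨by
      obtain ⟨w, o, rfl⟩ := mem_cj'.1 i.1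
      exact (S : Subgroup Γ).mul_mem ((S : Subgroup Γ).mul_mem aS (YS o)) ((S : Subgroup Γ).inv_mem aS), i.2⟩) (fun y i => by
      obtain ⟨w, o, rfl⟩ := mem_cj'.1 i
      rw [conj_mul, h.hx.Y2 w o]; simp) _ (by
      rintro _ ⟨v, i, rfl⟩ _ ⟨w, j, rfl⟩
      rw [g.toQF.inv (g.qT a)]; exact iso g p v i w j) (by
      rintro y i _ ⟨v, j, rfl⟩
      obtain ⟨w, o, rfl⟩ := mem_cj'.1 i
      rw [← g.mul, inv_mul_cancel_right, g.mul, (p.mB v).1 j w o]) (by
      rw [BG.card_cj, h.hx.cY, AddSubgroup.card_map_of_injective inj, p.cB])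
  have aB : a ∈ St g B := fun v o => e.le ⟨v, o, rfl⟩
  have a1 := card_inf_mul_relIndex M (St g B)
  rw [sK g h p u, (cK g h).1] at a1
  have a2 : M.relIndex (St g B) ∣ 2 := g.Mi ▸ relIndex_dvd_index_of_normal M _
  rcases (Nat.dvd_prime Nat.prime_two).1 a2 with r | r
  · exact absurd (relIndex_eq_one.1 r aB) aM
  · rw [r] at a1; omega

theorem x : XStmt.{u} := by
  intro G _ _ z Q V _ _ _ Γ _ _ f π ν T d M β q s K Y B A δ c
  have l := s.md.lx
  have g := s.gm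
  have p := c.pj
  have βB := iso g p
  have mB : ∀ {W : AddSubgroup V} {x : G}, x ∈ s.md.pull W ↔ x ∈ Q ∧ ν x ∈ W := Iff.rfl
  have zL : z ∈ s.md.pull B := mB.2 ⟨l.aes.mem, s.md.zz ▸ zero_mem B⟩
  have BA : s.md.pull B ≤ C_(s.md.pull B) := fun x i => mem_cent.2 fun y j => ((s.b y j.1 x i.1).1 (βB _ j.2 _ i.2)).eq
  have PA : s.md.pull B ≤ A := fun x i => c.mA x (l.le i.1) (by rw [(s.ker _ (l.le i.1)).2 i.1]; exact one_mem _) (BA i)
  have AC : A ≤ C_(s.md.pull B) := fun x i => mem_cent.2 fun y j => cm2 c.A2 (PA j) i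
  have e3 : A ⊓ Q = s.md.pull B := le_antisymm (fun x i => mB.2 ⟨i.2, g.toQF.perp βB
    (by rw [p.cB]; norm_num) fun u j => by
      obtain ⟨y, o, rfl⟩ := s.md.sur u
      exact (s.b x i.2 y o).2 (show Commute y x from mem_cent.1 (AC i.1) y (mB.2 ⟨o, j⟩)).symm⟩) fun x i => ⟨PA i, i.1⟩
  have CA : C_(s.md.pull B) ≤ A := fun x i => by
    have j := cent_le_cent1 zL i
    refine c.mA x j (fB g c.hk p c.pu fun v o => ?_) i
    obtain ⟨y, o', rfl⟩ := s.md.sur v
    rw [s.act x j y o', ← mem_cent.1 i y (mB.2 ⟨o', o⟩), mul_inv_cancel_right]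
  have mN : ∀ x ∈ C_[z], x ∈ N_(A) ↔ ∀ v ∈ B, T (π x) v ∈ B := fun x i => ⟨fun j v o => by
      obtain ⟨y, o', rfl⟩ := s.md.sur v
      rw [s.act x i y o']
      exact (e3.le ⟨(le_norm_iff.1 le_rfl) x j y (PA ⟨o', o⟩), l.cE i o'⟩).2, fun j => by
      rw [le_antisymm AC CA]
      refine norm_le_norm_cent _ (mem_norm_of_cj_le fun y o => ?_)
      obtain ⟨w, o', rfl⟩ := mem_cj'.1 o
      exact ⟨l.cE i o'.1, s.act x i w o'.1 ▸ j _ o'.2⟩⟩
  refine ⟨e3, fun y i => ?_, fun a i => fB g c.hk p c.pu i, fun a i => CA (mem_cent.2 fun y j => (i y (PA j)).symm), mN, ?_,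
    fun a i j r m e => cz s c.δz c.δd i j m e⟩
  · obtain ⟨a, j, rfl⟩ := H26.JE.su s c.δz c.δd c.δ3 y (c.hk.KM (c.hk.hx.YK i))
    exact ⟨a, CA (mem_cent.2 fun b o => (mul_inv_eq_iff_eq_mul.1
      (cz s c.δz c.δd j.1 j.2 o.1 ((p.mB _).1 o.2 _ i))).symm), j.2, rfl⟩
  · have a1 := H26.JE.cnt s (U := N_(A) ⊓ C_[z]) inf_le_right
    have e1 : Q ⊓ (N_(A) ⊓ C_[z]) = Q := inf_eq_left.2 fun x i => ⟨(mN x (l.le i)).2 fun v o => by
      rw [(s.ker _ (l.le i)).2 i, g.one]; exact o, l.le i⟩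
    have e2 : ((N_(A) ⊓ C_[z]).subgroupOf C_[z]).map f = St g B := Subgroup.ext fun y => ⟨by
      rintro ⟨x, i, rfl⟩
      rw [s.pf]; exact (mN x x.2).1 i.1, fun i => by
      obtain ⟨x, j, rfl⟩ := s.sur y
      exact ⟨⟨x, j⟩, ⟨(mN x j).2 i, j⟩, s.pf _⟩⟩
    rw [e1, e2, s.card, cS g c.hk p c.pu] at a1
    rw [← a1]; norm_num

end H26.KX
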