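import Mathlib
import Cfsg.Agent.H26.Bk22
import Cfsg.Agent.H17.Red

/-!
# Blocks for odd `p` and control of transfer

`BM.cen`, `BM.R_le`, `exists_functor`, `tr_false`.
-/

namespace H26
open Cfsg H17 H09 H24 H01 Equiv
open scoped commutatorElement Pointwise BG MatrixGroups

universe u

variable {G : Type*} [Group G] {p n : ℕ} {H T A B D E E' K M N R R' S U C Y Y' W W' : Subgroup G} {a b d e g u v z : G}
  [Finite G] [hp : Fact p.Prime]

theorem BM.cen {F : Type} [Field F] [Fintype F] [CharP F p] (h : BM p H T B M E R Y W)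
    (c : CS F (commutator SL(2, F)) E W (W ⊓ C_(E))) (l : B ≤ C_(c.ln)) (he : e ∈ E) (k : c.ρ e = -1) : e ∈ M := by
  refine h.cjB (h.EH he) (cj_le_iff.mpr fun b hb => ?_)
  obtain ⟨s, f⟩ := h.as_up c l hb
  have f' := ((c.as_ρ he).mul' f (h.JN hb).2).mul' ((c.as_ρ he).inv (h.nW he)) (inv_mem (h.nW he))
  rw [show c.ρ e * up s * (c.ρ e)⁻¹ = up s by simp [k]] at f'
  rw [← mul_inv_cancel_left b (e * b * e⁻¹)]
  exact mul_mem (h.BM' hb) (h.CM' (h.as_C (Subgroup.mem_sup_right hb) (cj_mem_of_N (Subgroup.le_normalizer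
    (Subgroup.mem_sup_left he)) (Subgroup.mem_sup_right hb)) f f' h.LN))

theorem mem_of_sq (h2 : p ≠ 2) (hR : IsPGroup p R) (ha : a ∈ R) (h : a * a ∈ D) : a ∈ D := by
  obtain ⟨k, hk⟩ := isPGroup_iff_mem.mp hR a ha
  exact mem_of_pow_mem_of_coprime (n := 2) (by rwa [pow_two]) (((Nat.coprime_primes Nat.prime_two hp.out).mpr h2.symm).pow_right
    k |>.symm.coprime_dvd_left (orderOf_dvd_of_pow_eq_one hk))

theorem BM.R_le (h : BM p H T B M E R Y W) (h2 : p ≠ 2) (hD : ⁅R, M⁆ ≤ D) : R ≤ D := by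
  obtain ⟨F, _, _, _, f2, ⟨c⟩, -⟩ := h.sl h2
  have m : ∀ {U C t r}, U ≤ R → t ∈ M → C ≤ D → r ∈ U → t * r * t⁻¹ * r ∈ C → r ∈ D := fun a b c d e =>
    mem_of_sq h2 h.pR (a d) (by
      convert mul_mem (hD (Subgroup.commutator_mem_commutator (a d) b)) (c e) using 1
      simp [commutatorElement_def, mul_assoc])
  by_cases k : R = Y
  · obtain ⟨c, l, -⟩ := h.lin c
    obtain ⟨t, t1, -, t3⟩ := h.exists_t f2 c
    have tE := Subgroup.commutator_le_self E t1
    exact fun r hr => m le_rfl (h.cen c l tE t3) bot_le hr (by rw [(h.mi.inv_t h2 c tE t3).2 r (h.eqW k ▸ hr)]; simp)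
  · obtain ⟨F, _, _, _, c, c', t, x⟩ := h.xd k
    have tM := h.cen c x.ln x.mE x.ρt
    refine fun r hr => m le_rfl tM (h.cov.trans (sup_le (fun w hw => m h.WR tM bot_le hw (by rw [x.inv hw]; simp))
      (x.x.der.ge.trans ((Subgroup.commutator_mono le_rfl (h.RT.trans h.TM)).trans hD)))) hr (c'.inv_t x.mE x.ρt' hr)

omit [Finite G] hp in
theorem exists_functor {G : Type u} [Group G] {S C : Subgroup G} (h1 : C ≤ S) (h2 : C ≠ ⊥)
    (h3 : (C.subgroupOf S).Characteristic) : ∃ W, IsCharPFunctor.{u} p W ∧ inducedFunctor W S = C := by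
  classical
  have k : ∀ {Q : Type u} [Group Q] (e f : S ≃* Q), (C.subgroupOf S).map e.toMonoidHom = (C.subgroupOf S).map f.toMonoidHom :=
    fun e f => by
      conv_lhs => rw [← Subgroup.characteristic_iff_map_eq.mp h3 (f.trans e.symm), Subgroup.map_map]
      congr 1; ext; simp
  refine ⟨fun Q _ => if h : Nonempty (S ≃* Q) then (C.subgroupOf S).map h.some.toMonoidHom else ⊤, ⟨fun Q _ _ _ _ => ?_,
    fun Q R _ _ _ _ φ => ?_⟩, ?_⟩ <;> try dsimp only
  · split_ifs with h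
    · rw [Ne, Subgroup.map_eq_bot_iff_of_injective _ h.some.injective, Subgroup.subgroupOf_eq_bot,
        disjoint_iff, inf_eq_left.mpr h1]
      exact h2
    · exact top_ne_bot
  · by_cases h : Nonempty (S ≃* Q)
    · have h' : Nonempty (S ≃* R) := ⟨h.some.trans φ⟩
      rw [dif_pos h, dif_pos h', k h'.some (h.some.trans φ), Subgroup.map_map]; rfl
    · rw [dif_neg h, dif_neg fun h' : Nonempty (S ≃* R) => h ⟨h'.some.trans φ.symm⟩,
        Subgroup.map_top_of_surjective _ φ.surjective]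
  · have h : Nonempty (S ≃* S) := ⟨MulEquiv.refl S⟩
    rw [inducedFunctor, dif_pos h, Subgroup.characteristic_iff_map_eq.mp h3, Subgroup.subgroupOf_map_subtype,
      inf_eq_left.mpr h1]

theorem tr_false {G : Type u} [Group G] [Finite G] (h2 : p ≠ 2) (h : TrMin p G {W | IsCharPFunctor.{u} p W}) : False := by
  obtain ⟨S⟩ : Nonempty (Sylow p G) := inferInstance
  have h0 : (S : Subgroup G) ≠ ⊥ := fun e => h.pCore_ne_bot (eq_bot_iff.mpr ((pCore_le_sylow S).trans e.le))
  obtain ⟨W, hW, -⟩ := exists_functor (p := p) le_rfl h0 (by rw [Subgroup.subgroupOf_self]; infer_instance)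
  have ne := h.ne_pCore S ⟨W, hW⟩
  have nM := h.norm_ne_top S ne
  have x := cx_top h.charP S
  have l : charNormalizersJoin (S : Subgroup G) ≤ _ := iSup_le fun C => h.le_norm S
    (Subgroup.le_normalizer.trans (N_le_of_char C.2.1 C.2.2.2)) fun e => by
      obtain ⟨W, hW, k⟩ := exists_functor (p := p) C.2.1 C.2.2.1 C.2.2.2
      exact h.not_normal S hW (k ▸ Subgroup.normalizer_eq_top_iff.mp e)
  obtain ⟨m, E, ⟨hE, -⟩, n⟩ := x.star_le nM l h0
  have b := SB.bm hE x m
  have RQ := (SB.RQ hE).trans pCoreOf_top.le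
  refine n (le_normalizer_of_commutator_le ((Subgroup.commutator_mono (inf_le_right.trans pCoreOf_top.ge) le_rfl).trans
    (b.QE.trans (b.R_le h2 ((Subgroup.commutator_mono RQ le_rfl).trans (h.comm_le S b.TM nM))))))

end H26
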