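import Mathlib
import Cfsg.Agent.H26.Bk23

/-!
# A characteristic subgroup for pushing up `SL₂(q)` with a non-natural chief factor

`CC.q_le`, `ml_models4`, `XP`, `PF.xp`, `UK`, `uni_H`, `uni`, `uni'`.
-/

namespace H26
open Cfsg H17 H09 H24 H01 Equiv
open scoped commutatorElement Pointwise BG MatrixGroups

universe u

section
variable {G : Type u} [Group G] {p n : ℕ} {H H' S T T' A B D E K M M' N R U C Y W Z : Subgroup G} {a b d e g j t u v z : G}
  [Finite G] [hp : Fact p.Prime]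

theorem CC.q_le (c : CC p H H' S T T' M M' g j U) : T.relIndex S ≤ T'.relIndex S := by
  obtain ⟨n, -, a1, a2⟩ := c.exists_x
  have UT' : U ≤ T' := c.e ▸ c.UT'
  have nH : n ∈ H := c.h.TH (c.Y_le a2)
  refine (relIndex_hom (W := U) (Z := T ⊓ C_(T)) (fun a => ⁅a, n⁆) (fun a ha => comm_symm_mem (c.YS
    (Subgroup.commutator_mem_commutator a2 ha))) fun a ha b hb k => ?_).1.trans ?_
  · by_contra d
    refine a1 (UT' (c.nd' a2 (mul_mem (inv_mem ha) hb) d ((Subgroup.mem_normalizer_iff.mp (c.h.nV (mul_mem (inv_mem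
      (Subgroup.commutator_le_self H (Subgroup.commutator_mem_commutator (c.h.SH ha) nH))) (c.h.SH ha))) _).mpr ?_)))
    convert k using 1
    simp only [commutatorElement_def]; group
  · rw [c.e, relIndex_sup_of_le_normalizer (c.le'.trans (c.k.TH.trans c.k.nV)), ← c.k.idx1, c.k.W_eq]
    exact Subgroup.relIndex_le_of_le_left c.h.WV Subgroup.index_ne_zero_of_finite

theorem ml_models4 {S G₁ G₂ : Type u} [Group S] [Group G₁] [Group G₂] [Finite G₁] [Finite G₂] {i₁ : S →* G₁}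
    {i₂ : S →* G₂} (h₁ : Function.Injective i₁) (h₂ : Function.Injective i₂) (hh : HH p (⊤ : Subgroup S))
    {T₁ T₂ : Subgroup S} {M₁ : Subgroup G₁} {M₂ : Subgroup G₂} (k₁ : PF p ⊤ i₁.range (T₁.map i₁) M₁)
    (k₂ : PF p ⊤ i₂.range (T₂.map i₂) M₂) :
    (T₂ ⊓ C_(T₂) ≤ T₁ ∧ ⁅(T₂ ⊓ C_(T₂)).map i₁, pResidualOf p ⊤⁆ ≤ (T₁ ⊓ C_(T₁)).map i₁) ∨
      ⁅T₁.map i₁, pResidualOf p ⊤⁆ ≤ (T₁ ⊓ C_(T₁)).map i₁ ∨ ⁅T₂.map i₂, pResidualOf p ⊤⁆ ≤ (T₂ ⊓ C_(T₂)).map i₂ ∨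
      ∃ U Y, C2 p ⊤ i₁.range (T₁.map i₁) U Y ((T₁.map i₁).relIndex i₁.range) := by
  obtain ⟨Γ, _, _, j₁, j₂, a₁, a₂, e⟩ := exists_amb i₁ i₂ h₁ h₂
  have e' : ∀ X : Subgroup S, (X.map i₂).map j₂ = (X.map i₁).map j₁ := fun X => by
    rw [Subgroup.map_map, Subgroup.map_map, e]
  rw [MonoidHom.range_eq_map] at k₁ k₂ ⊢
  have l₁ := k₁.map (hh.map h₁) a₁
  have l₂ := k₂.map (hh.map h₂) a₂
  have l₃ := l₂
  rw [e' ⊤] at l₃
  rcases l₁.ml l₃ ((hh.map h₁).map a₁) with b | b | b | b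
  · rw [e' T₂] at b
    simp only [cent_map a₁, cent_map h₁, ← map_pResidualOf, ← Subgroup.map_commutator,
      Subgroup.map_le_map_iff_of_injective a₁, Subgroup.map_le_map_iff_of_injective h₁] at b
    exact Or.inl b
  · simp only [cent_map a₁, cent_map h₁, ← map_pResidualOf, ← Subgroup.map_commutator,
      Subgroup.map_le_map_iff_of_injective a₁] at b
    exact Or.inr (Or.inl b)
  · simp only [cent_map a₂, cent_map h₂, ← map_pResidualOf, ← Subgroup.map_commutator,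
      Subgroup.map_le_map_iff_of_injective a₂] at b
    exact Or.inr (Or.inr (Or.inl b))
  · obtain ⟨g, j, U, c⟩ := b.exists_cc
    have d := c.c2
    rw [le_antisymm c.symm.q_le c.q_le, Subgroup.relIndex_map_map_of_injective _ _ a₁] at d
    exact Or.inr (Or.inr (Or.inr (d.exists_of_map a₁ k₁.pS)))

variable (p S T) in
/-- `N(S)` has no trivial quotient on normal subgroups `R = [R, O^p]` of `T` -/
def XP : Prop := ∀ R D : Subgroup G, R ≤ T → ⊤ ≤ N_(R) → R ≤ ⁅R, pResidualOf p (⊤ : Subgroup G)⁆ → ⁅R, N_(S)⁆ ≤ D → R ≤ D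

theorem PF.xp' {F : Type} [Field F] [Fintype F] [CharP F p] (h : PF p ⊤ S T M) (h2 : p ≠ 2)
    (hF : Fintype.card F = T.relIndex S) (k : ⁅T, pResidualOf p (⊤ : Subgroup G)⁆ ≤ T ⊓ C_(T) ∨
      ∃ U Y, C2 p ⊤ S T U Y (T.relIndex S)) : XP p S T := by
  intro R D RT nR id hD
  have K1 := k.elim h.K1_le fun ⟨_, _, g⟩ => g.K1
  have nd : ¬ p ∣ 2 := fun a => h2 ((Nat.prime_dvd_prime_iff_eq hp.out Nat.prime_two).mp a)
  have f2 : (2 : F) ≠ 0 := fun a => nd ((CharP.cast_eq_zero_iff F p 2).mp (by exact_mod_cast a))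
  obtain ⟨c⟩ := crd_sl (sl2_iff.mp (h.nat hF))
  have kc : ∀ e ∈ (⊤ : Subgroup G), c.ρ e = 1 ↔ e ∈ T := fun e he => (c.ker fa_sl he).trans
    ⟨fun a => K1 ⟨trivial, h.nC trivial, a⟩, fun a u hu => by rw [comm_one_of hu.2 a]; exact one_mem _⟩
  obtain ⟨t, t2, t1⟩ : ∃ t, t * t = 1 ∧ c.ρ t = -1 := by
    obtain ⟨t, a, k⟩ := c.ro (-1) trivial
    obtain ⟨n, hn⟩ := isPGroup_iff_mem.mp h.pT (t * t) ((kc _ trivial).mp (by rw [c.mul t a t a, k]; simp))
    refine ⟨t ^ p ^ n, by rw [← (Commute.refl t).mul_pow, hn], ?_⟩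
    rw [c.ρ_pow a, k, Odd.neg_one_pow ((hp.out.eq_two_or_odd'.resolve_left h2).pow)]
  have ct : ∀ x, ⁅t, x⁆ ∈ T := fun x => (kc _ trivial).mp (c.comm_t trivial t1 trivial)
  obtain ⟨N, eN⟩ : ∃ N : Subgroup G, N = ⁅R, Subgroup.zpowers t ⊔ T⁆ := ⟨_, rfl⟩
  have nN : ⊤ ≤ N_(N) := by
    refine eN ▸ le_normalizer_commutator nR (le_normalizer_of_commutator_le (commutator_sup_le (le_sup_left.trans
      Subgroup.le_normalizer) (le_sup_right.trans Subgroup.le_normalizer) ?_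
      ((commutator_le_of_le_normalizer h.nT).trans le_sup_right)))
    rw [Subgroup.commutator_comm]
    exact comm_zp_le (Subgroup.le_normalizer (Subgroup.mem_sup_left (Subgroup.mem_zpowers t))) fun v _ =>
      Subgroup.mem_sup_right (comm_symm_mem (ct v))
  have sq : ∀ r ∈ R, t * r * t⁻¹ * r ∈ N ⊔ C_((⊤ : Subgroup G)) → r ∈ N ⊔ C_((⊤ : Subgroup G)) := fun r hr k =>
    mem_of_sq h2 (h.pT.to_le RT) hr (by
      rw [show r * r = ⁅r, t⁆ * (t * r * t⁻¹ * r) by simp only [commutatorElement_def]; group]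
      exact mul_mem (Subgroup.mem_sup_left (eN ▸ Subgroup.commutator_mem_commutator hr
        (Subgroup.mem_sup_left (Subgroup.mem_zpowers t)))) k)
  have s1 : ∀ r ∈ R, r ∈ T ⊓ C_(T) → r ∈ N ⊔ C_((⊤ : Subgroup G)) := fun r hr k =>
    sq r hr (Subgroup.mem_sup_right (c.inv_t trivial t1 k).2)
  have s2 : R ≤ N ⊔ C_((⊤ : Subgroup G)) := by
    have l := id.trans (Subgroup.commutator_mono RT le_rfl)
    rcases k with k | ⟨U, Y, g⟩
    · exact fun r hr => s1 r hr (k (l hr))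
    obtain ⟨c'⟩ := h.crd2 hF g
    have t3 : c'.ρ t = -1 := by
      refine SL2.eq_neg_one_of_mul_self f2 (fun k => ?_) (by rw [← c'.mul t trivial t trivial, t2, c'.ρ_one])
      have := (kc t trivial).mpr (h.pCoreOf_eq.le (c'.ker_eq (c.quot (h.pCoreOf_eq.symm ▸ kc)) (fun e he =>
        (c'.ker fa_sl trivial).mpr fun u hu => comm_symm_mem (g.YT' (Subgroup.commutator_mem_commutator hu
          (h.pCoreOf_eq.le he)))) trivial k))
      rw [t1] at this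
      exact f2 (by have := congrArg (fun g : SL(2, F) => g 0 0) this; simp at this; linear_combination -this)
    exact fun r hr => sq r hr (s1 _ (mul_mem (cj_mem_of_N (nR trivial) hr) hr) (c'.inv_t trivial t3 (g.TE (l hr))))
  refine id.trans ((Subgroup.commutator_mono s2 le_top).trans ((commutator_sup_le Subgroup.le_normalizer (le_top.trans nN)
    (commutator_le_of_le_normalizer nN) (cbl le_rfl)).trans (eN.le.trans ((Subgroup.commutator_mono le_rfl (sup_le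
      (Subgroup.zpowers_le.mpr (mem_normalizer_of_cj_le (cj_le_iff.mpr fun s hs => ?_)))
      (h.TS.trans Subgroup.le_normalizer))).trans hD))))
  rw [cj_eq_comm]; exact mul_mem (h.TS (ct s)) hs

theorem PF.xp (h : PF p ⊤ S T M) (h2 : p ≠ 2) (k : ⁅T, pResidualOf p (⊤ : Subgroup G)⁆ ≤ T ⊓ C_(T) ∨
    ∃ U Y, C2 p ⊤ S T U Y (T.relIndex S)) : XP p S T := by
  obtain ⟨m, hm⟩ := h.pS.index (T.subgroupOf S)
  have m0 : m ≠ 0 := fun e => h.one_lt_q.ne' (hm.trans (by rw [e, pow_zero]))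
  have := Fintype.ofFinite (GaloisField p m)
  exact h.xp' (F := GaloisField p m) h2 (by rw [← Nat.card_eq_fintype_card, GaloisField.card p m m0]; exact hm.symm) k

end

/-- `K` is normal in all pushing-up models over `S` -/
def UK (p : ℕ) {S : Type u} [Group S] (K : Subgroup S) : Prop :=
  ∀ (G : Type u) [Group G] [Finite G] (τ : S →* G) (T M : Subgroup G), Function.Injective τ → PUC p ⊤ τ.range T M →
    ¬ ⊤ ≤ C_(τ.range ⊓ C_(τ.range)) → ¬ XP p τ.range T → ⊤ ≤ N_(K.map τ)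

variable {p : ℕ} {S : Type u} [Group S] [Finite S] [hp : Fact p.Prime]

theorem uni_H [Nontrivial S] (h2 : p ≠ 2) (hS : IsPGroup p S) (hh : HH p (⊤ : Subgroup S)) :
    ∃ K : Subgroup S, K ≠ ⊥ ∧ UK p K := by
  let 𝓕 : Set (Subgroup S) := {T | ∃ (G : Type u) (_ : Group G) (_ : Finite G) (τ : S →* G) (M : Subgroup G),
    Function.Injective τ ∧ PF p ⊤ τ.range (T.map τ) M ∧ ¬ XP p τ.range (T.map τ)}
  obtain ⟨N, eN⟩ : ∃ N : Subgroup S, N = (⊤ ⊓ C_((⊤ : Subgroup S))) ⊔ ⨆ T : 𝓕, (T.1 ⊓ C_(T.1)) := ⟨_, rfl⟩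
  have VN : ∀ T ∈ 𝓕, T ⊓ C_(T) ≤ N := fun T a => eN ▸ (le_iSup (fun T : 𝓕 => T.1 ⊓ C_(T.1)) ⟨T, a⟩).trans le_sup_right
  refine ⟨N, fun a => center_ne_bot (hS.to_subgroup ⊤) top_ne_bot (eq_bot_iff.mpr (le_sup_left.trans (eN.ge.trans a.le))),
    fun G _ _ τ T M a b c d => ?_⟩
  obtain ⟨T, -, rfl⟩ := exists_map_of_le (τ.range_eq_map ▸ b.TS)
  have k := b.pf (τ.range_eq_map ▸ hh.map a) c
  have m : (T ⊓ C_(T)).map τ ≤ N.map τ := Subgroup.map_mono (VN T ⟨G, inferInstance, inferInstance, τ, M, a, k, d⟩)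
  have n : ∀ X ≤ N, X.map τ ≤ N_(N.map τ) := fun X c => (Subgroup.map_mono c).trans Subgroup.le_normalizer
  refine k.le_of_res_le ?_ (le_normalizer_of_commutator_le ?_)
  · rw [MonoidHom.range_eq_map, map_le_N_iff a, eN]
    refine le_normalizer_sup Subgroup.le_normalizer_of_normal (le_normalizer_iSup fun T => ?_)
    obtain ⟨G, _, _, τ, M, a, k, -⟩ := T.2
    have n := k.SH.trans k.nV
    rwa [MonoidHom.range_eq_map, cent_map a, map_le_N_iff a] at n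
  conv_lhs => rw [eN, Subgroup.map_sup, Subgroup.map_iSup]
  refine commutator_sup_le (n _ (eN ▸ le_sup_left)) (iSup_le fun T => n _ (VN T T.2)) (le_trans ?_ m)
    (commutator_iSup_le (fun T => n _ (VN T T.2)) fun T₂ => le_trans ?_ m)
  · rw [← cent_map a, ← cent_map a, ← MonoidHom.range_eq_map]
    exact (Subgroup.commutator_mono k.WV le_rfl).trans (commutator_le_of_le_normalizer (le_top.trans k.nV))
  obtain ⟨G₂, _, _, τ₂, M₂, a₂, k₂, d₂⟩ := T₂.2
  rcases ml_models4 a a₂ hh k k₂ with m | m | m | m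
  · exact m.2
  · exact (d (k.xp h2 (Or.inl (cent_map a ▸ m)))).elim
  · exact (d₂ (k₂.xp h2 (Or.inl (cent_map a₂ ▸ m)))).elim
  · exact (d (k.xp h2 (Or.inr m))).elim

theorem uni [Nontrivial S] (h2 : p ≠ 2) (hS : IsPGroup p S) (hJ : ⊤ ≤ C_(centerThompsonOf 0 (⊤ : Subgroup S))) :
    ∃ K : Subgroup S, K ≠ ⊥ ∧ UK p K := by
  have hJ' : ∀ {G : Type u} [Group G] {τ : S →* G}, Function.Injective τ → τ.range ≤ C_(centerThompsonOf 0 τ.range) :=
    fun a => by rwa [MonoidHom.range_eq_map, centerThompsonOf_map _ a.injOn, map_le_cent_iff a]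
  by_cases h3 : ∀ w ∈ (⊤ : Subgroup S) ⊓ C_((⊤ : Subgroup S)), w ^ p = 1
  swap
  · refine ⟨powerClosure p 1 (⊤ ⊓ C_((⊤ : Subgroup S))), fun a => h3 fun w hw => powerClosure_le.mp a.le w hw,
      fun G _ _ τ T M a b _ _ => ?_⟩
    rw [← powerClosure_map, ← cent_map a, ← MonoidHom.range_eq_map]
    refine ((b.ZJ_or (powerClosure_le.mpr fun x hx => pow_mem hx p) (Or.inr le_rfl)).resolve_right fun d => ?_).trans
      (centralizer_le_normalizer _)
    rw [inf_eq_left.mpr (hJ' a)] at d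
    exact b.um.lt.not_ge ((le_inf le_rfl d).trans b.normalizer_le)
  obtain ⟨Q, hQ⟩ := exists_mcli (⊤ : Subgroup S)
  by_cases h4 : ⁅Q, Q⁆ = ⊥
  · exact uni_H h2 hS (hh_of hJ hQ h4 h3)
  refine ⟨_, h4, fun G _ _ τ T M a h hZ _ g hg => ?_⟩
  have hF := h.ff0 hZ (centerThompsonAOf_eq τ.range ▸ hJ' a)
  replace hQ := (mcli_map a).mpr hQ
  rw [← MonoidHom.range_eq_map] at hQ
  obtain ⟨R, h2, h3⟩ : ∃ R, MCLi τ.range R ∧ R ≤ T := by
    by_cases e : Q.map τ ≤ T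
    exacts [⟨_, hQ, e⟩, ⟨_, (h.mcl_step hF hQ e).1, sup_le inf_le_right inf_le_left⟩]
  rw [← cj_eq_iff, Subgroup.map_commutator, hQ.commutator_eq h2, cj_commutator]
  exact (h2.cj_of_le h3 h.TS (h.nT hg)).commutator_eq h2

theorem uni' [Nontrivial S] (h2 : p ≠ 2) (hS : IsPGroup p S) (hJ : ⊤ ≤ C_(centerThompsonOf 0 (⊤ : Subgroup S))) :
    ∃ K : Subgroup S, K ≠ ⊥ ∧ K.Characteristic ∧ UK p K := by
  obtain ⟨K, a, b⟩ := uni h2 hS hJ
  refine ⟨⨆ K : {K : Subgroup S // UK p K}, K, fun c => a (eq_bot_iff.mpr ((le_iSup_of_le ⟨K, b⟩ le_rfl).trans c.le)),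
    Subgroup.characteristic_iff_map_le.mpr fun φ => ?_, fun G _ _ τ T M a b c d => ?_⟩
  · rw [Subgroup.map_iSup]
    refine iSup_le fun K => le_iSup_of_le ⟨K.1.map φ.toMonoidHom, fun G _ _ τ T M a b c d => ?_⟩ le_rfl
    have e : (τ.comp φ.toMonoidHom).range = τ.range := by
      rw [MonoidHom.range_comp, MonoidHom.range_eq_top.mpr φ.surjective, ← MonoidHom.range_eq_map]
    rw [Subgroup.map_map]
    exact K.2 G _ T M (a.comp φ.injective) (e ▸ b) (e ▸ c) (e ▸ d)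
  · rw [Subgroup.map_iSup]
    exact le_normalizer_iSup fun K => K.2 G τ T M a b c d

end H26
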