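import Mathlib
import Cfsg.Agent.H26.Bk24

/-!
# Reduction of minimal parabolic groups to `SL₂(q)`

`sub_pu`, `PMM.off_le'`, `PMM.red`, `hol_core`, `PMin.red`.
-/

namespace H26
open Cfsg H17 H09 H24 H01 Equiv
open scoped commutatorElement Pointwise BG MatrixGroups

universe u

variable {G : Type u} [Group G] {p q n : ℕ} {H P V S T A B D E K L M N R U C X Y W Z : Subgroup G} {a b d e g j t u v z : G}
  [Finite G] [hp : Fact p.Prime]

theorem sub_pu {F : Type} [Field F] [Fintype F] [CharP F p] (ρ : H →* SL(2, F)) (h1 : K ≤ H) (h2 : im ρ K = ⊤)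
    (hS : IsSyl p S K) : ∃ L, S ≤ L ∧ L ≤ K ∧ im ρ L = ⊤ ∧ ∃ M, PU p ⊤ (S.subgroupOf L) (pCore p L) M := by
  obtain ⟨L, -, ⟨a1, a2, a3⟩, a4⟩ := exists_minimal_le_of_wellFoundedLT (fun L => S ≤ L ∧ L ≤ K ∧ im ρ L = ⊤) K
    ⟨hS.le, le_rfl, h2⟩
  obtain ⟨m, -, hm⟩ := FiniteField.card F p
  have hL := a2.trans h1
  let φ : L →* SL(2, F) := ρ.comp (Subgroup.inclusion hL)
  have e1 : ∀ X : Subgroup L, im ρ (X.map L.subtype) = X.map φ := fun X => Subgroup.ext fun x =>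
    ⟨by rintro ⟨y, ⟨z, a, b⟩, rfl⟩; exact ⟨z, a, congrArg ρ (Subtype.ext b)⟩,
      by rintro ⟨y, a, rfl⟩; exact ⟨_, ⟨y, a, rfl⟩, rfl⟩⟩
  have hf : Function.Surjective φ := by rw [← MonoidHom.range_eq_top, MonoidHom.range_eq_map, ← e1, map_top_subtype, a3]
  have s := (hS.mono a1 a2).subgroupOf le_rfl
  rw [Subgroup.subgroupOf_self] at s
  have h1 := s.map φ
  rw [Subgroup.map_top_of_surjective _ hf] at h1
  have u := SL.pu hm
  obtain ⟨y, -, e⟩ := u.syl.exists_cj_eq h1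
  have h2 := u.cj (g := y) trivial
  rw [e] at h2
  have hM : UMax (S.subgroupOf L) ⊤ (cj(y, SL.B F).comap φ) := by
    refine ⟨Subgroup.map_le_iff_le_comap.mp h2.SM, lt_top_iff_ne_top.mpr fun a => h2.um.lt.ne ?_, fun X a b => ?_⟩
    · rw [← Subgroup.map_comap_eq_self_of_surjective hf cj(y, SL.B F), a, Subgroup.map_top_of_surjective _ hf]
    refine Subgroup.map_le_iff_le_comap.mp (h2.um.le_of_not_le (Subgroup.map_mono a) le_top fun d => b.not_ge fun x _ => ?_)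
    have XL := Subgroup.map_subtype_le X
    exact (Subgroup.mem_map_iff_mem L.subtype_injective).mp (a4 (y := X.map L.subtype) ⟨fun z hz => ⟨⟨z, a1 hz⟩, a hz, rfl⟩, XL.trans a2,
      (e1 X).trans (top_le_iff.mp d)⟩ XL x.2)
  exact ⟨L, a1, a2, a3, _, (pu_of_pu s hM φ hf u).1⟩

theorem PMM.off_le' (h : PMM p P V T M) (hY : Y ∈ MOs p q P V) (RT : R ≤ T) (ab : ⁅R, R⁆ ≤ C_(V))
    (off : Nat.card V ≤ mv V R) : R ≤ gn (MOs p q P V) T := by
  obtain ⟨A, B, k, b⟩ := h.exists_bd (MOs.cl h.nV) subset_rfl hY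
  induction' e : Nat.card R using Nat.strong_induction_on with n ih generalizing R
  have h1 := RT.trans h.syl.le
  have pR := h.syl.pg.to_le RT
  by_cases c : R = ⊥
  · exact c ▸ bot_le
  obtain ⟨X, x1, x2, x3, -⟩ := exists_mo ab c off
  have m : X ∈ MOs p (Nat.card X) P V := ⟨x1.trans h1, pR.to_le x1, x2, x3, rfl⟩
  rw [h.card_eq m hY] at m
  obtain ⟨t, d, f⟩ := h.conj k (h.pm.eq_of_not_le (k.DP k.hB) b) m
  obtain ⟨Z, g⟩ := (k.cj' d).gp_of_mem f (x1.trans RT)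
  have cR := (h.comm h1 ab).trans (centralizer_anti x1)
  obtain ⟨s1, s2, s3⟩ := g.split h.syl.le RT pR cR x1
  have i := mv_mul h.el.1 (B := X) ((inf_le_left : R ⊓ N_(Z) ≤ R).trans (cR.trans (centralizer_le_normalizer X)))
  have LP := sup_le (g.DP g.hA) (g.DP g.hB)
  rw [s1, s2, Subgroup.card_bot, one_mul, h.mv_eq m, le_antisymm (sup_le inf_le_left inf_le_left) ((WF.V_eq g.np).ge.trans
    (sup_le (le_sup_of_le_right (le_inf (g.WV LP) (cent_symm' s3))) (le_sup_of_le_left (inf_le_inf_left _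
      (centralizer_anti le_sup_left)))))] at i
  refine s1.ge.trans (sup_le (le_gn m (x1.trans RT)) (ih _ (e ▸ BG.card_lt (inf_lt_left.mpr fun j => x2 (by
    rw [← s2, inf_eq_left.mpr (le_inf x1 (x1.trans j))]))) (inf_le_left.trans RT)
    ((Subgroup.commutator_mono inf_le_left inf_le_left).trans ab) (off.trans (Nat.eq_of_mul_eq_mul_left Nat.card_pos i).ge) rfl))

theorem PMM.red (h : PMM p P V T M) (h2 : p ≠ 2) (hX : X ∈ MOs p q P V) (BT : B ≤ T)
    (hB : B ≤ C_(V ⊓ C_(gn (MOs p q P V) T))) : ∃ H ≤ P, B ≤ H ∧ ¬ H ≤ M ∧ IsSyl p (T ⊓ H) H ∧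
      ∃ (F : Type) (_ : Field F) (_ : Fintype F) (_ : CharP F p) (ρ : H →* SL(2, F)), im ρ H = ⊤ ∧ kr ρ ≤ T := by
  obtain ⟨A, A', k, b⟩ := h.exists_bd (MOs.cl h.nV) subset_rfl hX
  have hq := (k.cases k.hA).resolve_right fun a => h2 a.1
  have AP := k.DP k.hA
  have BP := BT.trans h.syl.le
  have c1 : B ≤ C_(⁅V, A⁆) := hB.trans (centralizer_anti (le_inf (k.WV AP) (cent_symm' (gn_le_iff.mpr fun Y a b =>
    cent_symm' (k.perp k.hA a (k.comm_of_le k.hA a h.syl.pg k.AT b))))))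
  have c2 : B ≤ N_(A) := fun s hs => by
    have m := k.cl _ k.hA _ (BP hs)
    refine cj_eq_iff.mp (k.eq_of_big hq (by_contra fun d => k.nc (k.comm_of_perp k.hA k.hB ?_))
      (k.comm_of_le m k.hA h.syl.pg (cj_le_of_le_of_mem k.AT (BT hs)) k.AT))
    rw [← cj_eq_of_cent (c1 hs), k.cjW (BP hs)]
    exact (Subgroup.commutator_mono le_rfl (le_sSup mem_comp_self)).trans (k.perp_comp m k.hB fun e => d (comp_symm e))
  have c3 : B ≤ C_(A) := by
    obtain ⟨u, u1, u2, u3⟩ := exists_fixmod (K := V ⊓ C_(A)) k.pV (h.syl.pg.to_le BT) (BP.trans h.nV)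
      (le_normalizer_inf (BP.trans h.nV) (le_normalizer_centralizer c2)) (k.VN inf_le_left)
      fun a => k.not_V_le k.hA (a.trans inf_le_right)
    intro s hs a ha
    have m := cj_mem_of_N (c2 hs) ha
    have e : ⁅s * a * s⁻¹, u⁆ = ⁅a, u⁆ := by
      rw [← cj_eq_of' (c1 hs) (k.mem_W ha u1), ← cj_comm, cj_eq_comm s u, k.comm_mul (AP m) (u3 s hs).1 u1,
        comm_one_of (u3 s hs).2 m, one_mul]
    by_contra d
    refine u2 ⟨u1, k.cx k.hA (mul_mem (inv_mem ha) m) (fun f => d ?_) u1 ?_⟩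
    · rw [inv_mul_eq_one] at f; nth_rewrite 1 [f]; group
    · simp only [commutatorElement_def, mul_left_inj] at e
      calc _ = a⁻¹ * (s * a * s⁻¹ * u * (s * a * s⁻¹)⁻¹) * (s * a * s⁻¹) := by group
        _ = _ := by rw [e]; group
  obtain ⟨s1, -, s3⟩ := k.gp.split (R := T ⊓ C_(A)) h.syl.le inf_le_left h.syl.pg.to_inf_left inf_le_right
    (le_inf k.AT (k.self k.hA))
  obtain ⟨R, eR⟩ : ∃ R, R = T ⊓ C_(A) ⊓ N_(A') := ⟨_, rfl⟩
  rw [← eR] at s1 s3
  have RT : R ≤ T := eR ▸ inf_le_left.trans inf_le_left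
  have nK : R ≤ N_(A ⊔ A') := eR ▸ le_normalizer_sup (inf_le_left.trans (inf_le_right.trans (centralizer_le_normalizer _)))
    inf_le_right
  have sA := isSyl_of_not_dvd le_sup_left (k.pD k.hA) (k.np_index k.hA k.hB k.np)
  obtain ⟨m, -, -, F, _, _, hF, ⟨i⟩, c⟩ := k.np_sl2 k.hA k.hB k.np
  obtain ⟨c⟩ := crd_sl (sl2_iff.mp c)
  have KP := sup_le AP (k.DP k.hB)
  generalize hK : A ⊔ A' = K at *
  have n : R ⊔ K ≤ N_(⁅V, K⁆) := sup_le (s3.trans (centralizer_le_normalizer _)) c.n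
  have dec : ∀ x ∈ R ⊔ K, ∃ y ∈ K, c.As x (c.ρ y) ∧ y⁻¹ * x ∈ R := fun x hx => by
    obtain ⟨y, hy, r, hr, rfl⟩ := (mem_sup_of_le_normalizer' nK).mp (sup_comm R K ▸ hx)
    exact ⟨y, hy, (c.as_ρ hy).of_cent (s3 hr), by simpa⟩
  choose! y y1 y2 y3 using dec
  let ρ : ↥(R ⊔ K) →* SL(2, F) := MonoidHom.mk' (fun x => c.ρ (y x)) fun a b =>
    (y2 _ (a * b).2).uniq ((y2 _ a.2).mul' (y2 _ b.2) (n b.2))
  refine ⟨R ⊔ K, sup_le (RT.trans h.syl.le) KP, (le_inf BT c3).trans (s1.ge.trans (sup_le (sA.le.trans le_sup_right) le_sup_left)),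
    fun a => b (le_sup_right.trans (hK.le.trans (le_sup_right.trans a))), ⟨inf_le_right, h.syl.pg.to_inf_left, fun Q q1 q2 q3 =>
      le_antisymm (le_inf ?_ q3) q2⟩, F, _, ‹_›, SL.charP hF, ρ, eq_top_iff.mpr fun g _ => ?_, ?_⟩
  · rw [← inf_eq_left.mpr q3, inf_sup_eq_of_le_normalizer nK ((le_inf RT le_sup_left).trans q2), sA.max _ q1.to_inf_left
      (le_inf ((le_inf k.AT (sA.le.trans le_sup_right)).trans q2) sA.le) inf_le_right]
    exact sup_le RT k.AT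
  · obtain ⟨e, he, rfl⟩ := c.ro g trivial
    exact ⟨⟨e, Subgroup.mem_sup_right he⟩, Subgroup.mem_sup_right he, (y2 _ (Subgroup.mem_sup_right he)).uniq (c.as_ρ he)⟩
  · intro x hx
    obtain ⟨hx, e⟩ := mem_kr.mp hx
    have := (injective_iff_map_eq_one c.hom).mp ((Finite.injective_iff_surjective_of_equiv i.toEquiv).mpr
      (MonoidHom.range_eq_top.mp c.range)) ⟨_, y1 x hx⟩ e
    simpa [show y x = 1 from congrArg Subtype.val this] using RT (y3 x hx)

theorem hol_core (h : PMin p T P M) (nV : P ≤ N_(V)) (hO : pCoreOf p P ≤ C_(V)) (hk : P ⊓ C_(V) ≤ M) :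
    pCoreOf p (im (holA V) P) = ⊥ := by
  rw [← kr_holA] at hk
  have h' := h.to_im (f := holA V) nV hk
  have a := im_inf_pre (pCoreOf_le (p := p) (im (holA V) P))
  have n := le_normalizer_inf Subgroup.le_normalizer (le_normalizer_pre (f := holA V) nV (le_normalizer_pCoreOf (p := p) _))
  have b := (h.syl.inf_of_le inf_le_left n).to_im (f := holA V) (inf_le_left.trans nV)
  rw [a] at b
  rw [b.max _ (isPGroup_pCoreOf _) b.le le_rfl, im_eq_bot_iff (inf_le_left.trans (h.syl.le.trans nV)), kr_holA]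
  exact (le_pCoreOf (inf_le_left.trans h.syl.le) (h.um.le_normalizer_inf h.syl le_rfl (im_le_of nV inf_le_left h.um.lt.le hk
    (a.le.trans (h'.syl.pCoreOf_le.trans h'.um.le))) n) h.syl.pg.to_inf_left).trans hO

theorem PMin.red (pm : PMin p S ⊤ M) (ch : IsCharP p (⊤ : Subgroup G)) (h2 : p ≠ 2) (hZ : C_(S ⊓ C_(S)) ≤ M)
    (hB : N_(baumannSubgroupOf 0 S) ≤ M) : ∃ H, baumannSubgroupOf 0 S ≤ H ∧ pCoreOf p ⊤ ≤ H ∧ ¬ H ≤ M ∧ IsSyl p (S ⊓ H) H ∧
      ∃ (F : Type) (_ : Field F) (_ : Fintype F) (_ : CharP F p) (ρ : H →* SL(2, F)), im ρ H = ⊤ ∧ kr ρ ≤ M := by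
  obtain ⟨Q, eQ⟩ : ∃ Q, Q = pCoreOf p (⊤ : Subgroup G) := ⟨_, rfl⟩
  have QS : Q ≤ S := eQ ▸ pm.syl.pCoreOf_le
  have nQ : ⊤ ≤ N_(Q) := eQ ▸ le_normalizer_pCoreOf _
  have el : IsElementaryAbelian p (omegaOneCenter p Q) := omegaZ_elemAb _
  have OV : Q ≤ C_(omegaOneCenter p Q) := le_centralizer_omegaZ _
  have VO : omegaOneCenter p Q ≤ Q := omegaZ_le _
  have nV : ⊤ ≤ N_(omegaOneCenter p Q) := le_normalizer_omegaZ nQ
  have cM : C_(omegaOneCenter p Q) ≤ M := (pm.res_le_or le_top (le_top.trans (le_normalizer_centralizer nV))).resolve_left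
    fun a => pm.not_res_le (le_trans (pResidualOf_le_iff.mpr fun x _ c => centralizer_anti (le_inf (eQ ▸ ch.center_le_pCoreOf
      pm.syl) (inf_le_right.trans (centralizer_anti QS))) (mem_centralizer_of_omegaOne h2 (pm.syl.pg.to_le (inf_le_left.trans QS))
      (le_normalizer_center nQ trivial) c (a (mem_pResidualOf trivial c)))) hZ)
  generalize omegaOneCenter p Q = V at *
  have N : ∀ {X : Subgroup G}, X ≤ N_(V) := fun {X} => le_top.trans nV
  have nC := le_normalizer_centralizer nV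
  have SC : S ⊓ C_(V) ≤ Q := eQ ▸ pm.inf_le_pCoreOf (SubN.of_normal le_top nC) cM
  have e0 : ∀ X ≤ V, IsElementaryAbelian 0 X := fun X a => ⟨(elemAb_mono el a).1, fun _ _ => pow_zero _⟩
  have bc := fun X (a : X ≤ V) => bm_le_C (e0 X a) (a.trans (VO.trans QS))
  obtain ⟨A, a1, a2⟩ := PUC.exists_A (n := 0) (S := S) (T := C_(V)) fun a => pm.um.lt.not_ge (le_trans (by
    have l := (le_inf (bm_le _) (bc V le_rfl (cent_symm' a))).trans SC
    have := centerThompsonOf_eq_of_le ((J_le_bm (p := 0) S).trans l) QS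
    rw [le_antisymm (le_inf l (this ▸ inf_le_right)) (le_inf ((bm_le _).trans QS) (this ▸ inf_le_right)) (b := baumannSubgroupOf 0 Q)]
    exact nQ.trans (N_le_N_bm Q)) hB)
  have off : ∀ A ∈ maxAb 0 S, ⁅im (holA V) A, im (holA V) A⁆ ≤ C_(im (holV V) V) ∧
      Nat.card (im (holV V) V) ≤ H01.mv (im (holV V) V) (im (holA V) A) := fun A a => ⟨by
      rw [← im_commutator N N, commutator_eq_bot_iff'.mpr (isMulCommutative_iff_le.mp a.2.1.1), im_bot]; exact bot_le,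
      hol_off N (maxAb_off a (e0 V le_rfl) (VO.trans QS))⟩
  have pA := isPGroup_im (f := holA V) (pm.syl.pg.to_le a1.1)
  have nA : im (holA V) A ≠ ⊥ := by rwa [Ne, im_eq_bot_iff N, kr_holA]
  have hk : ⊤ ⊓ kr (holA V) ≤ M := kr_holA (V := V) ▸ inf_le_right.trans cM
  have zz : ⊤ ⊓ C_(V ⊓ C_(S)) ≤ M := pm.um.le_of_not_le (le_inf le_top (cent_symm' inf_le_right)) le_top fun a =>
    (pm.to_im (f := holA V) nV hk).not_cent (hol_core pm nV (eQ ▸ OV) (inf_le_right.trans cM)) (isElementaryAbelian_im el)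
      (holA_le_normalizer nV) (hol_faithful _) (im_mono le_top) pA (off A a1).1 nA (off A a1).2 (by
        rw [hol_inf_centralizer N]; exact cent_symm' ((holA_le_centralizer_iff N inf_le_left).mpr (a.trans inf_le_right)))
  have h := hol_pmm pm el nV (eQ ▸ OV) zz
  obtain ⟨X, -, x2⟩ := exists_mos (im_mono le_top) pA (off A a1).1 nA (off A a1).2
  obtain ⟨H, h1, h3, h4, h5, F, _, _, _, ρ, r1, r2⟩ := h.red h2 x2 (im_mono (bm_le (p := 0) S)) (by
    refine le_trans ?_ (centralizer_anti (inf_le_inf_left _ (centralizer_anti (A := im (holA V) (thompsonSubgroupOf 0 S))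
      ((im_le_iff N).mpr (thompsonOf_le_iff.mpr fun A a => (im_le_iff N).mp (h.off_le' x2 (im_mono a.1) (off A a).1
        (off A a).2))))))
    rw [hol_inf_centralizer N, holA_le_centralizer_iff N inf_le_left]
    exact bc _ inf_le_left inf_le_right)
  have kH := kr_le_pre (f := holA V) H
  have i := im_pre h1
  let φ : pre (holA V) H →* H := ((holA V).comp (Subgroup.inclusion N)).codRestrict _ fun x => (mem_pre.mp x.2).2
  have kM := (le_inf le_top le_rfl).trans hk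
  refine ⟨pre (holA V) H, (im_le_iff N).mp h3, eQ.ge.trans (OV.trans (kr_holA.ge.trans kH)), fun a => h4 (i.ge.trans (im_mono a)),
    ⟨inf_le_right, pm.syl.pg.to_inf_left, fun R q1 q2 q3 => le_antisymm (le_inf ?_ q3) q2⟩, F, _, ‹_›, ‹_›, ρ.comp φ,
    eq_top_iff.mpr fun g _ => ?_, fun x hx => ?_⟩
  · have e := h5.max _ (isPGroup_im q1) (by rw [← i, inf_comm, ← im_inf_of_kr_le kH, inf_comm]; exact im_mono q2)
      ((im_le_iff N).mpr q3)
    have l := (im_le_im_iff N N).mp (e.le.trans (by rw [← i, inf_comm, ← im_inf_of_kr_le kH, inf_comm]))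
    rw [← inf_eq_left.mpr l, inf_sup_eq_of_le_normalizer (N.trans le_normalizer_kr) q2, ((pm.syl.inf_of_le le_top
      (N.trans le_normalizer_kr)).max _ q1.to_inf_left (le_inf ((inf_le_inf_left _ kH).trans q2) inf_le_right) inf_le_right)]
    exact sup_le inf_le_left inf_le_left
  · obtain ⟨⟨x, hx⟩, -, rfl⟩ := r1.ge (Subgroup.mem_top g)
    obtain ⟨y, -, rfl⟩ := h1 hx
    exact ⟨⟨y, coe_mem_pre.mpr hx⟩, coe_mem_pre.mpr hx, rfl⟩
  · obtain ⟨hx, e⟩ := mem_kr.mp hx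
    refine sup_le pm.um.le kM ((pre_im N).le (mem_pre.mpr ⟨N (Subgroup.mem_top x), r2 (mem_kr.mpr ⟨(φ ⟨x, hx⟩).2, e⟩)⟩))

end H26
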