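import Mathlib
import Cfsg.Agent.H26.Bk25

/-!
# Control of transfer by `Z(S)` and a characteristic subgroup `K(S)`

`XP.amb`, `Mod`, `uk_normal`, `TK`, `ZF`, `char_tk`, `char_center`, `tr_false2`, `focal_two`.
-/

namespace H26
open Cfsg H17 H09 H24 H01 Equiv
open scoped commutatorElement Pointwise BG MatrixGroups

universe u

section
variable {G : Type u} [Group G] {p : ℕ} {H S T B D K L M R : Subgroup G} [Finite G] [hp : Fact p.Prime]

theorem XP.amb (h : XP p (B.subgroupOf L) (pCore p L)) (BL : B ≤ L) (h1 : R ≤ pCoreOf p L) (h2 : L ≤ N_(R))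
    (h3 : R ≤ ⁅R, pResidualOf p L⁆) (h4 : ⁅R, L ⊓ N_(B)⁆ ≤ D) : R ≤ D := by
  have RL := h1.trans (pCoreOf_le L)
  have i := L.subtype_injective
  refine fun r hr => h (R.subgroupOf L) (D.subgroupOf L) (fun x hx => (Subgroup.mem_map_iff_mem i).mp (h1 hx))
    ((Subgroup.subgroupOf_self L).ge.trans (subgroupOf_le_normalizer h2)) ?_ ?_ (show ⟨r, RL hr⟩ ∈ _ from hr)
  · rwa [← Subgroup.map_le_map_iff_of_injective i, Subgroup.map_commutator, map_pResidualOf, map_top_subtype,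
      Subgroup.map_subgroupOf_eq_of_le RL]
  · refine Subgroup.map_le_iff_le_comap.mp ?_
    rwa [ Subgroup.map_commutator, map_subtype_normalizer,
      Subgroup.map_subgroupOf_eq_of_le RL, Subgroup.map_subgroupOf_eq_of_le BL]

variable (p S) in
/-- configurations arising from minimal counterexamples to control of transfer -/
def Mod : Prop := ∃ M D : Subgroup G, PMin p S ⊤ M ∧ IsCharP p (⊤ : Subgroup G) ∧ C_(S ⊓ C_(S)) ≤ M ∧ D ≤ pCoreOf p ⊤ ∧
  ⁅pCoreOf p (⊤ : Subgroup G), M⁆ ≤ D ∧ N_(D) ≤ M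

theorem uk_normal {B₀ : Type u} [Group B₀] {K : Subgroup B₀} (h2 : p ≠ 2) (hK : K.Characteristic) (uk : UK p K) {σ : B₀ →* G}
    (hσ : Function.Injective σ) (hr : σ.range = baumannSubgroupOf 0 S) (h : Mod p S) : ⊤ ≤ N_(K.map σ) := by
  obtain ⟨M, D, pm, ch, hZ, DQ, QM, ND⟩ := h
  by_contra c
  have n1 : N_(σ.range) ≤ N_(K.map σ) := N_le_of_char (Subgroup.map_le_range _ _) (by
    convert char_comap (MonoidHom.ofInjective hσ).symm hK using 1
    ext x
    obtain ⟨y, rfl⟩ := (MonoidHom.ofInjective hσ).surjective x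
    simpa [Subgroup.mem_subgroupOf, MonoidHom.ofInjective_apply] using Subgroup.mem_map_iff_mem hσ)
  rw [hr] at n1
  have KM := pm.um.le_of_not_le ((Subgroup.le_normalizer.trans (N_le_N_bm (p := 0) S)).trans n1) le_top c
  have BM := n1.trans KM
  obtain ⟨H, BH, QH, HM, sH, F, _, _, _, ρ, r1, r2⟩ := pm.red ch h2 hZ BM
  have nM : ∀ {L}, L ≤ H → im ρ L = ⊤ → ¬ L ≤ M := fun a b d =>
    HM (((im_le_im_iff le_rfl a).mp (le_top.trans b.ge)).trans (sup_le d r2))
  have QS := pm.syl.pCoreOf_le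
  have ZQ := ch.center_le_pCoreOf pm.syl
  have nQ : ∀ {X : Subgroup G}, X ≤ N_(pCoreOf p (⊤ : Subgroup G)) := fun {X} => le_top.trans (le_normalizer_pCoreOf _)
  obtain ⟨L₀, a1, a2, a3, M₀, u⟩ := sub_pu ρ le_rfl r1 sH
  replace u := u.map L₀.subtype (by rw [Subgroup.ker_subtype]; exact inf_le_right.trans bot_le)
  rw [map_top_subtype, Subgroup.map_subgroupOf_eq_of_le a1] at u
  have Q1 := le_inf QS QH
  have c0 := ch.of_pCoreOf_le le_top (Q1.trans a1)
  have v : PUC p L₀ (S ⊓ H) (pCoreOf p L₀) _ := ⟨u, c0⟩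
  have l := le_inf (bm_le (p := 0) S) BH
  have eB : S ⊓ H ⊓ C_(omegaOne 0 (centerThompsonOf 0 (S ⊓ H))) = baumannSubgroupOf 0 S := by
    rw [centerThompsonOf_eq_of_le ((J_le_bm (p := 0) S).trans l) inf_le_left]
    exact le_antisymm (inf_le_inf_right _ inf_le_left) (le_inf l inf_le_right)
  have z : ¬ L₀ ≤ C_(omegaOneCenter 0 (S ⊓ H)) := fun a => nM a2 a3 ((a.trans (centralizer_anti (by
    rw [omegaOneCenter_zero]; exact le_inf (ZQ.trans Q1) (inf_le_right.trans (centralizer_anti inf_le_left))))).trans hZ)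
  obtain ⟨A, b1, b2⟩ := PUC.exists_A fun a => nM a2 a3 ((eB ▸ v.normal_of_J_le z a).trans BM)
  have sB := v.isSyl_baumann z
  have cT := (v.comm_T_ncl z b1 b2).trans (inf_le_inf_right _ v.TS)
  have AB := PUC.A_le_B b1
  rw [eB] at sB cT AB
  have ZB : S ⊓ C_(S) ≤ baumannSubgroupOf 0 S ⊓ C_(baumannSubgroupOf 0 S) := le_inf (le_inf inf_le_left (inf_le_right.trans
    (centralizer_anti ((omegaOne_le _ _).trans (inf_le_left.trans (thompsonOf_le _ _)))))) (inf_le_right.trans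
      (centralizer_anti (bm_le _)))
  generalize baumannSubgroupOf 0 S = B at *
  have l1 : ncl B L₀ ≤ L₀ := ncl_le_of_le (l.trans a1)
  have n1 := le_normalizer_ncl B L₀
  have k : im ρ (pCoreOf p L₀) = ⊥ := by
    obtain ⟨m, -, hm⟩ := FiniteField.card F p
    exact eq_bot_iff.mpr ((le_pCoreOf le_top (a3 ▸ im_le_normalizer v.nT) (isPGroup_im v.pT)).trans (SL.pu hm).pCoreOf_eq.le)
  obtain ⟨L, d1, d2, d3, M₁, w⟩ := sub_pu ρ (l1.trans a2) (eq_top_iff.mpr (a3.ge.trans ((im_le_im_iff a2 (l1.trans a2)).mpr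
    (v.le_of_res_le ((v.ffA z b1 b2).2.1.ge.trans (sup_le (AB.trans (sB.le.trans le_sup_left))
      (((im_eq_bot_iff (v.TH.trans a2)).mp k).trans le_sup_right))) ((v.res_le' n1 b1.1 b2 (AB.trans sB.le)).trans
        le_sup_left))))) sB
  have LM := nM (d2.trans (l1.trans a2)) d3
  have c1 := isCharP_iff.mpr ((c0.of_normal l1 n1).of_pCoreOf_le d2 (sB.pCoreOf_le.trans d1))
  have e : (σ.codRestrict L fun x => d1 (hr.le ⟨x, rfl⟩)).range = B.subgroupOf L := Subgroup.ext fun x =>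
    ⟨by rintro ⟨y, rfl⟩; exact hr.le ⟨y, rfl⟩, fun a => by obtain ⟨y, e⟩ := hr.ge a; exact ⟨y, Subtype.ext e⟩⟩
  have i := L.subtype_injective
  have := uk L (σ.codRestrict L fun x => d1 (hr.le ⟨x, rfl⟩)) (pCore p L) M₁ ((MonoidHom.injective_codRestrict _ _ _).mpr hσ)
    (by rw [e]; exact ⟨w, inf_le_right.trans c1⟩) (fun a => LM ?_) fun a => LM ?_
  · rw [← map_le_N_iff i, map_top_subtype, Subgroup.map_map] at this
    exact LM (this.trans KM)
  · rw [e, ← map_le_cent_iff i, map_top_subtype, ← cent_map i, Subgroup.map_subgroupOf_eq_of_le d1] at a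
    exact (a.trans (centralizer_anti ZB)).trans hZ
  · rw [e] at a
    have RQ := commutator_le_of_le_normalizer (nQ (X := pResidualOf p L))
    have nR := le_normalizer_commutator (nQ (X := L)) (le_normalizer_pResidualOf (p := p) L)
    have := a.amb d1 (le_pCoreOf (((Subgroup.commutator_mono (le_pCoreOf (Q1.trans a1) nQ (isPGroup_pCoreOf _))
      ((pResidualOf_le L).trans d2)).trans cT).trans d1) nR ((isPGroup_pCoreOf _).to_le RQ)) nR
      (commutator_pResidualOf_idem (isPGroup_pCoreOf _) nQ).ge ((Subgroup.commutator_mono RQ (inf_le_right.trans BM)).trans QM)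
    rw [← (sB.mono d1 d2).sup_pResidualOf]
    exact sup_le (Subgroup.le_normalizer.trans BM) ((le_normalizer_of_commutator_le
      ((Subgroup.commutator_mono DQ le_rfl).trans this)).trans ND)

theorem focal_two (hS : IsSyl p S ⊤) (hK : N_(S) ≤ K) :
    S ⊓ ⁅N_(S ⊓ C_(S)), N_(S ⊓ C_(S))⁆ ≤ (S ⊓ ⁅C_(S ⊓ C_(S)), C_(S ⊓ C_(S))⁆) ⊔ (S ⊓ ⁅K, K⁆) := by
  have SC : S ≤ C_(S ⊓ C_(S)) := cent_symm' inf_le_right
  refine focal_le (hS.mono (SC.trans (centralizer_le_normalizer _)) le_top) fun x hx g hg k => ?_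
  obtain ⟨c, hc, n, hn, rfl⟩ := (hS.mono SC le_top).frattini (le_normalizer_centralizer le_rfl) hg
  have y := cj_mem_of_N hn hx
  have e : ∀ x c : G, x⁻¹ * (c * x * c⁻¹) = ⁅x⁻¹, c⁆ := fun x c => by simp only [commutatorElement_def]; group
  rw [show x⁻¹ * (c * n * x * (c * n)⁻¹) = x⁻¹ * (n * x * n⁻¹) * ((n * x * n⁻¹)⁻¹ * (c * (n * x * n⁻¹) * c⁻¹)) by group]
  refine mul_mem (Subgroup.mem_sup_right ⟨S.mul_mem (S.inv_mem hx) y, ?_⟩) (Subgroup.mem_sup_left
    ⟨S.mul_mem (S.inv_mem y) (by convert k using 1; group), ?_⟩) <;> rw [e]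
  exacts [Subgroup.commutator_mem_commutator (hK (Subgroup.le_normalizer (inv_mem hx))) (hK hn),
    Subgroup.commutator_mem_commutator (SC (inv_mem y)) hc]

end

/-- the largest subgroup normal in all models -/
def TK (p : ℕ) (Q : Type u) [Group Q] : Subgroup Q := ⨆ K : {K : Subgroup Q // ∀ (G : Type u) [Group G] [Finite G] (τ : Q →* G),
  Function.Injective τ → Mod p τ.range → ⊤ ≤ N_(K.map τ)}, K

/-- the center functor -/
def ZF (Q : Type u) [Group Q] : Subgroup Q := Subgroup.center Q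

variable {p : ℕ} [hp : Fact p.Prime]

theorem char_tk (h2 : p ≠ 2) : IsCharPFunctor.{u} p (TK p) := by
  have k : ∀ (Q R : Type u) [Group Q] [Group R] (φ : Q ≃* R), (TK p Q).map φ.toMonoidHom ≤ TK p R := fun Q R _ _ φ => by
    rw [TK, Subgroup.map_iSup]
    refine iSup_le fun K => le_iSup_of_le ⟨K.1.map φ.toMonoidHom, fun G _ _ τ a b => ?_⟩ le_rfl
    rw [Subgroup.map_map]
    refine K.2 G _ (a.comp φ.injective) ?_
    rwa [MonoidHom.range_comp, MonoidHom.range_eq_top.mpr φ.surjective, ← MonoidHom.range_eq_map]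
  refine ⟨fun Q _ _ hQ _ => ?_, fun Q R _ _ _ _ φ => le_antisymm (k Q R φ) ((map_symm_map φ _).ge.trans
    (Subgroup.map_mono (k R Q φ.symm)))⟩
  obtain ⟨B, eB⟩ : ∃ B, B = baumannSubgroupOf 0 (⊤ : Subgroup Q) := ⟨_, rfl⟩
  have i := B.subtype_injective
  have := (Subgroup.nontrivial_iff_ne_bot B).mpr fun a => center_ne_bot (hQ.to_subgroup ⊤) top_ne_bot
    (eq_bot_iff.mpr ((le_inf le_top (inf_le_right.trans (centralizer_anti le_top))).trans (eB.ge.trans a.le)))
  obtain ⟨K, k1, k2, k3⟩ := uni' h2 (hQ.to_subgroup B) (by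
    rw [← map_le_cent_iff i, ← centerThompsonOf_map _ i.injOn, map_top_subtype, centerThompsonOf_eq_of_le
      (eB ▸ J_le_bm (p := 0) ⊤) le_top, ← omegaOne_zero (centerThompsonOf _ _), eB]
    exact inf_le_right)
  refine fun a => k1 ((Subgroup.map_eq_bot_iff_of_injective _ i).mp (eq_bot_iff.mpr ((le_iSup_of_le
    ⟨K.map B.subtype, fun G _ _ τ b c => ?_⟩ le_rfl).trans a.le)))
  rw [Subgroup.map_map]
  refine uk_normal h2 k2 k3 (b.comp i) ?_ c
  rw [MonoidHom.range_comp, Subgroup.range_subtype, eB, map_bm b, MonoidHom.range_eq_map]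

theorem char_center : IsCharPFunctor.{u} p ZF :=
  ⟨fun Q _ _ hQ _ => (Subgroup.nontrivial_iff_ne_bot _).mp hQ.center_nontrivial, fun Q R _ _ _ _ φ => Subgroup.ext fun x => by
    obtain ⟨x, rfl⟩ := φ.surjective x
    rw [mem_map_equiv_iff, ZF, ZF, Subgroup.mem_center_iff, Subgroup.mem_center_iff, φ.surjective.forall]
    simp only [← map_mul, φ.injective.eq_iff]⟩

theorem tr_false2 {G : Type u} [Group G] [Finite G] (h2 : p ≠ 2) (h : TrMin p G {W | W = @ZF ∨ W = @TK p}) :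
    False := by
  obtain ⟨S⟩ : Nonempty (Sylow p G) := inferInstance
  have ne := h.ne_pCore S ⟨_, Or.inr rfl⟩
  have nM := h.norm_ne_top S ne
  have nS : N_((S : Subgroup G)) ≠ ⊤ := fun e =>
    ne (le_antisymm (@le_pCore _ _ _ _ (Subgroup.normalizer_eq_top_iff.mp e) S.2) (pCore_le_sylow S))
  have SM := Subgroup.le_normalizer.trans (h.le_norm S Subgroup.le_normalizer nS)
  refine h.not_normal S (Or.inr rfl) (Subgroup.normalizer_eq_top_iff.mp (top_le_iff.mp ?_))
  rw [inducedFunctor, TK, Subgroup.map_iSup]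
  refine le_normalizer_iSup fun K => K.2 G _ (Subgroup.subtype_injective _) ?_
  rw [Subgroup.range_subtype]
  refine ⟨_, _, ⟨isSyl_top S, fun a => nS (top_le_iff.mp a), SM, nM.lt_top, fun X a b => h.le_norm S a b.ne⟩,
    isCharP_top_iff.mp h.charP, h.le_norm S (cent_symm' inf_le_right) fun e => h.not_normal S (Or.inl rfl) ?_,
    inf_le_right.trans pCoreOf_top.ge, by rw [pCoreOf_top]; exact h.comm_le S SM nM, le_rfl⟩
  rw [inducedFunctor, ZF, map_subtype_center]
  exact Subgroup.normalizer_eq_top_iff.mp (top_le_iff.mp (e.ge.trans (centralizer_le_normalizer _)))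

end H26
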