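import Cfsg.Agent.H19.Cm0
import Cfsg.Agent.S0111

/-!
Piece of part (5) of the `A₈` characterization: `s` is conjugate to `z₀ = a b`.
-/

set_option autoImplicit false
set_option synthInstance.maxSize 4000

namespace Cfsg.Agent.H26.Cm
open H19.Cm Equiv Subgroup

/-- the four-group -/
def V4 : List L := [1, A, A', A * A']

theorem zf1 : ∀ v ∈ V4, ∀ w ∈ V4, v = 1 ∨ w = 1 ∨ ∃ j k : Fin 3,
    (Z ^ k.val * Z' ^ j.val) * A * (Z ^ k.val * Z' ^ j.val)⁻¹ = v ∧
    (Z' ^ k.val * Z ^ j.val) * A * (Z' ^ k.val * Z ^ j.val)⁻¹ = w := by decide +kernel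
theorem zf2 : ∀ v ∈ V4, A * v ∈ V4 ∧ A' * v ∈ V4 ∧ I * v * I⁻¹ ∈ V4 := by decide +kernel
theorem zf3 : ∀ v ∈ V4, v = 1 ∨ ∃ x : L, x * U * x⁻¹ = v := by decide +kernel
theorem zf4 : ∀ v ∈ V4, (v * (I * v * I⁻¹) = 1 ∧ ∃ x ∈ V4, x * I * x⁻¹ = v * I) ∨ v * (I * v * I⁻¹) = A := by
  decide +kernel
theorem zf5 : A⁻¹ = A ∧ A'⁻¹ = A' ∧ I⁻¹ = I ∧ A ≠ 1 ∧ A * Z' ≠ Z' * A ∧ A * Z = Z * A ∧ Z ≠ Z' ∧ I * I = 1 ∧
    (∃ x : L, x * U' * x⁻¹ = I) ∧ (1 : L) ∈ V4 ∧ A ∈ V4 ∧ A' ∈ V4 := by decide +kernel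
theorem zf6 : ∀ v ∈ V4, v⁻¹ ∈ V4 := by decide +kernel

variable {G : Type*} [Group G] {f : L →* G} {s : G}

/-- the conjugate embedding -/
def sg (f : L →* G) (s : G) : L →* G := (MulAut.conj s).toMonoidHom.comp f

theorem sg_eq (h : Hy f s) (w : L) : sg f s w = s * f w * s := by
  show s * f w * s⁻¹ = _
  rw [h.si']

theorem sg_cj (w : L) : IsConj (f w) (sg f s w) := isConj_iff.2 ⟨s, rfl⟩

theorem f_cj {x u v : L} (e : x * u * x⁻¹ = v) : IsConj (f u) (f v) :=
  isConj_iff.2 ⟨f x, by rw [← e, map_mul, map_mul, map_inv]⟩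

theorem sgI (h : Hy f s) : sg f s I = f I := by rw [sg_eq h, h.si, mul_assoc, h.s2, mul_one]

theorem dcj (h : Hy f s) {v w : L} (hv : v ∈ V4) (hw : w ∈ V4) :
    v = 1 ∨ w = 1 ∨ ∃ g : G, g * f A * g⁻¹ = f v ∧ g * sg f s A * g⁻¹ = sg f s w := by
  rcases zf1 v hv w hw with r | r | ⟨j, k, a, b⟩
  · exact .inl r
  · exact .inr (.inl r)
  refine .inr (.inr ⟨f (Z ^ k.val * Z' ^ j.val), by rw [← a, map_mul f _ _⁻¹, map_mul f _ A, map_inv], ?_⟩)
  have e : f (Z ^ k.val * Z' ^ j.val) = sg f s (Z' ^ k.val * Z ^ j.val) := by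
    rw [map_mul, map_mul, map_pow, map_pow, map_pow, map_pow, sg_eq h, sg_eq h, h.sz, h.sz']
  rw [e, ← b, map_mul _ _ _⁻¹, map_mul _ _ A, map_inv]

theorem vw (h : Hy f s) (al : Al f s) {v w : L} (hv : v ∈ V4) (hw : w ∈ V4) :
    f v * sg f s w = sg f s w * f v := by
  rcases dcj h hv hw with rfl | rfl | ⟨g, a, b⟩
  · simp
  · simp
  · have al' : f A * sg f s A = sg f s A * f A := by rw [sg_eq h]; exact al
    rw [← a, ← b, conj_mul, conj_mul, al']

/-- the subgroup `E⟨i⟩` -/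
def Q0 (f : L →* G) (s : G) : Subgroup G := closure {f A, f A', s * f A * s, s * f A' * s, f I}

theorem icm (h : Hy f s) (v w : L) : f I * (f v * sg f s w) = f (I * v * I⁻¹) * sg f s (I * w * I⁻¹) * f I := by
  rw [map_mul, map_mul, map_mul, map_mul, map_inv, map_inv, sgI h]
  group

theorem nfQ (h : Hy f s) (al : Al f s) {g : G} (hg : g ∈ Q0 f s) :
    ∃ v ∈ V4, ∃ w ∈ V4, g = f v * sg f s w ∨ g = f v * sg f s w * f I := by
  have ii : f I * f I = 1 := by rw [← map_mul, zf5.2.2.2.2.2.2.2.1, map_one]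
  have step : ∀ x ∈ ({f A, f A', s * f A * s, s * f A' * s, f I} : Set G), ∀ g : G,
      (∃ v ∈ V4, ∃ w ∈ V4, g = f v * sg f s w ∨ g = f v * sg f s w * f I) →
      ∃ v ∈ V4, ∃ w ∈ V4, x * g = f v * sg f s w ∨ x * g = f v * sg f s w * f I := by
    rintro x hx g ⟨v, hv, w, hw, e⟩
    have l : ∀ y : L, y * v ∈ V4 → ∃ v ∈ V4, ∃ w ∈ V4, f y * g = f v * sg f s w ∨ f y * g = f v * sg f s w * f I :=
      fun y hy => ⟨_, hy, w, hw, by rcases e with rfl | rfl <;> simp [mul_assoc]⟩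
    have r : ∀ y ∈ V4, y * w ∈ V4 →
        ∃ v ∈ V4, ∃ w ∈ V4, s * f y * s * g = f v * sg f s w ∨ s * f y * s * g = f v * sg f s w * f I :=
      fun y hy' hy => ⟨v, hv, _, hy, by
        rw [← sg_eq h, map_mul, ← mul_assoc, vw h al hv hy']
        rcases e with rfl | rfl <;> simp [mul_assoc]⟩
    rcases hx with rfl | rfl | rfl | rfl | rfl
    · exact l _ (zf2 v hv).1
    · exact l _ (zf2 v hv).2.1
    · exact r _ zf5.2.2.2.2.2.2.2.2.2.2.1 (zf2 w hw).1
    · exact r _ zf5.2.2.2.2.2.2.2.2.2.2.2 (zf2 w hw).2.1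
    · refine ⟨_, (zf2 v hv).2.2, _, (zf2 w hw).2.2, ?_⟩
      rcases e with rfl | rfl
      · exact .inr (icm h v w)
      · left
        rw [← mul_assoc, icm h, mul_assoc, ii, mul_one]
  refine closure_induction_left (p := fun g _ => ∃ v ∈ V4, ∃ w ∈ V4, g = f v * sg f s w ∨ g = f v * sg f s w * f I)
    ⟨1, zf5.2.2.2.2.2.2.2.2.2.1, 1, zf5.2.2.2.2.2.2.2.2.2.1, .inl (by simp)⟩
    (fun x hx y _ p => step x hx y p) (fun x hx y _ p => ?_) hg
  have : x⁻¹ = x := by
    rcases hx with rfl | rfl | rfl | rfl | rfl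
    · rw [← map_inv, zf5.1]
    · rw [← map_inv, zf5.2.1]
    · rw [← sg_eq h, ← map_inv, zf5.1]
    · rw [← sg_eq h, ← map_inv, zf5.2.1]
    · rw [← map_inv, zf5.2.2.1]
  rw [this]
  exact step x hx y p

theorem uI (h : Hy f s) : IsConj (f U) (f I) := by
  obtain ⟨x, hx⟩ := zf5.2.2.2.2.2.2.2.2.1
  refine ((sg_cj (s := s) U).trans ?_).trans (f_cj hx)
  rw [sg_eq h, h.su]

theorem invQ (h : Hy f s) (al : Al f s) {t : G} (ht : t ∈ Q0 f s) (t2 : t * t = 1) :
    t = 1 ∨ IsConj (f U) t ∨ IsConj (f A * (s * f A * s)) t := by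
  have ii : f I * f I = 1 := by rw [← map_mul, zf5.2.2.2.2.2.2.2.1, map_one]
  obtain ⟨v, hv, w, hw, rfl | rfl⟩ := nfQ h al ht
  · rcases dcj h hv hw with rfl | rfl | ⟨g, a, b⟩
    · rcases zf3 w hw with rfl | ⟨x, hx⟩
      · left; simp
      · exact .inr (.inl (by rw [map_one, one_mul]; exact (f_cj hx).trans (sg_cj w)))
    · rcases zf3 v hv with rfl | ⟨x, hx⟩
      · left; simp
      · exact .inr (.inl (by rw [map_one, mul_one]; exact f_cj hx))
    · exact .inr (.inr (isConj_iff.2 ⟨g, by rw [← sg_eq h, ← a, ← b, conj_mul]⟩))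
  · have e : f (v * (I * v * I⁻¹)) * sg f s (w * (I * w * I⁻¹)) = 1 := by
      rw [← t2, mul_assoc (f v * sg f s w), ← mul_assoc (f I), icm h, mul_assoc _ (f I), ii, mul_one,
        map_mul f v, map_mul _ w]
      have := vw h al (zf2 v hv).2.2 hw
      generalize f (I * v * I⁻¹) = p at *
      generalize sg f s (I * w * I⁻¹) = q at *
      calc f v * p * (sg f s w * q) = f v * (p * sg f s w) * q := by group
        _ = _ := by rw [this]; group
    have a1 : f A ≠ 1 := fun r => zf5.2.2.2.1 (h.inj (by rw [r, map_one]))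
    rcases zf4 v hv with ⟨r, x, hx, p⟩ | r <;> rcases zf4 w hw with ⟨r', y, hy, p'⟩ | r' <;> rw [r, r'] at e
    · refine .inr (.inl ((uI h).trans (isConj_iff.2 ⟨f x * sg f s y, ?_⟩)))
      have e1 : sg f s y * f I * (sg f s y)⁻¹ = sg f s w * f I := by
        rw [← sgI h, ← map_inv, ← map_mul, ← map_mul, p', map_mul]
      have e2 : f x * f I * (f x)⁻¹ = f v * f I := by
        rw [← map_inv, ← map_mul, ← map_mul, p, map_mul]
      calc f x * sg f s y * f I * (f x * sg f s y)⁻¹ = f x * (sg f s y * f I * (sg f s y)⁻¹) * (f x)⁻¹ := by group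
        _ = sg f s w * (f x * f I * (f x)⁻¹) := by rw [e1, ← mul_assoc, vw h al hx hw]; group
        _ = _ := by rw [e2, ← mul_assoc, vw h al hv hw]
    · rw [map_one, one_mul] at e
      exact (a1 (isConj_one_right.1 (e ▸ sg_cj (f := f) (s := s) A).symm)).elim
    · rw [map_one, mul_one] at e
      exact (a1 e).elim
    · exfalso
      have e' : sg f s A = f A := by rw [← inv_eq_of_mul_eq_one_right e, ← map_inv, zf5.1]
      have c : sg f s A * sg f s Z = sg f s Z * sg f s A := by rw [← map_mul, ← map_mul, zf5.2.2.2.2.2.1]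
      rw [e', sg_eq h, h.sz, ← map_mul, ← map_mul] at c
      exact zf5.2.2.2.2.1 (h.inj c)

theorem sQ (h : Hy f s) {g : G} (hg : g ∈ Q0 f s) : s * g * s ∈ Q0 f s := by
  have ss : ∀ g : G, s * (s * g * s) * s = g := fun g => by
    rw [← mul_assoc, ← mul_assoc, h.s2, one_mul, mul_assoc, h.s2, mul_one]
  refine closure_induction (p := fun g _ => s * g * s ∈ Q0 f s) ?_ (by rw [mul_one, h.s2]; exact one_mem _)
    (fun x y _ _ a b => ?_) (fun x _ a => ?_) hg
  · rintro x (rfl | rfl | rfl | rfl | rfl)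
    · exact subset_closure (by simp)
    · exact subset_closure (by simp)
    · rw [ss]; exact subset_closure (by simp)
    · rw [ss]; exact subset_closure (by simp)
    · rw [h.si, mul_assoc, h.s2, mul_one]; exact subset_closure (by simp)
  · have := mul_mem a b
    rwa [show s * x * s * (s * y * s) = s * x * (s * s) * y * s by group, h.s2, mul_one, mul_assoc s x] at this
  · simpa [h.si', mul_assoc] using inv_mem a

theorem sz0 [Finite G] (h : Hy f s) (al : Al f s) (us : US f s) (i2 : I2 G) (T : Sylow 2 G)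
    (hT : (T : Subgroup G) = closure {f A, f A', s * f A * s, s * f A' * s, f I, s}) :
    IsConj s (f A * (s * f A * s)) := by
  have s1 : s ≠ 1 := fun r => zf5.2.2.2.2.2.2.1 (h.inj (by rw [← h.sz, r, one_mul, mul_one]))
  have fin : ∀ g : G, g * s * g⁻¹ ∈ Q0 f s → IsConj s (f A * (s * f A * s)) := fun g hg => by
    have c : IsConj s (g * s * g⁻¹) := isConj_iff.2 ⟨g, rfl⟩
    rcases invQ h al hg (by rw [conj_mul, h.s2, mul_one, mul_inv_cancel]) with r | r | r
    · exact (s1 (isConj_one_right.1 (r ▸ c).symm)).elim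
    · exact (us (r.trans c.symm)).elim
    · exact c.trans r.symm
  by_cases sq : s ∈ Q0 f s
  · exact fin 1 (by simpa using sq)
  have sT : s ∈ (T : Subgroup G) := hT ▸ subset_closure (by simp)
  have key : ∀ b ∈ (T : Subgroup G), b ∈ Q0 f s ∨ b * s ∈ Q0 f s := by
    intro b hb
    rw [hT] at hb
    refine closure_induction (p := fun b _ => b ∈ Q0 f s ∨ b * s ∈ Q0 f s) ?_ (.inl (one_mem _))
      (fun x y _ _ a b => ?_) (fun x _ a => ?_) hb
    · rintro x (rfl | rfl | rfl | rfl | rfl | rfl)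
      iterate 5 exact .inl (subset_closure (by simp))
      exact .inr (by rw [h.s2]; exact one_mem _)
    · rcases a with a | a <;> rcases b with b | b
      · exact .inl (mul_mem a b)
      · exact .inr (by rw [mul_assoc]; exact mul_mem a b)
      · refine .inr ?_
        have := mul_mem a (sQ h b)
        rwa [show x * s * (s * y * s) = x * (s * s) * y * s by group, h.s2, mul_one] at this
      · refine .inl ?_
        have := mul_mem a (sQ h b)
        rwa [show x * s * (s * (y * s) * s) = x * (s * s) * y * (s * s) by group, h.s2, mul_one, mul_one] at this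
    · rcases a with a | a
      · exact .inl (inv_mem a)
      · refine .inr ?_
        have := sQ h (inv_mem a)
        rwa [mul_inv_rev, h.si', ← mul_assoc, h.s2, one_mul] at this
  have hi : (Q0 f s).relIndex T = 2 := by
    refine relIndex_eq_two_iff.2 ⟨s, sT, fun b hb => ?_⟩
    have nb : ¬ (b * s ∈ Q0 f s ∧ b ∈ Q0 f s) := fun ⟨p, q⟩ => sq (by simpa using mul_mem (inv_mem q) p)
    rcases key b hb with a | a
    · exact .inr ⟨a, fun p => nb ⟨p, a⟩⟩
    · exact .inl ⟨a, fun p => nb ⟨a, p⟩⟩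
  have := Fact.mk Nat.prime_two
  rcases Cfsg.Agent.S0111.result T (Q0 f s) (hT ▸ closure_mono (by
    rintro x (rfl | rfl | rfl | rfl | rfl) <;> simp)) hi s (orderOf_eq_prime (by rw [pow_two, h.s2]) s1) sT sq
    with ⟨M, -, i, -⟩ | ⟨g, hg⟩
  · exact absurd i (i2 M)
  · exact fin g hg

end Cfsg.Agent.H26.Cm
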