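import Cfsg.Agent.H26.FzA
import Cfsg.Agent.L.Fz0
import Cfsg.Agent.S0407
import Cfsg.Agent.S0363
import Cfsg.Agent.S0369

/-!
Part S of the identification of `N(J(T))/J(T)` with the largest Mathieu group.
-/

set_option autoImplicit false

namespace Cfsg.Agent.H26.Fz
open Finset L.Fz
open scoped Pointwise

universe u

theorem s : SStmt.{u} := by
  intro G _ _ A M B D z Ω τ σ c n t
  classical
  have : Finite Ω := Nat.finite_of_card_ne_zero (by rw [t.card]; norm_num)
  have := Fintype.ofFinite Ω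
  have := Fintype.ofFinite A
  have cΩ : Fintype.card Ω = 24 := by rw [← Nat.card_eq_fintype_card, t.card]
  obtain ⟨o⟩ : Nonempty Ω := Fintype.card_pos_iff.1 (by omega)
  have mA : ∀ i j, τ i j ∈ A := fun i j => by
    by_cases r : i = j
    · rw [r, t.refl]; exact one_mem _
    · exact (c.DA _ (t.mem i j r)).1
  have sq : ∀ x : A, x * x = 1 := fun x => Subtype.ext (c.sq x x.2)
  letI : CommGroup A := { (inferInstance : Group A) with
    mul_comm := fun a b => by
      rw [← inv_eq_of_mul_eq_one_right (sq (a * b)), mul_inv_rev, inv_eq_of_mul_eq_one_right (sq a),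
        inv_eq_of_mul_eq_one_right (sq b)] }
  let v : Ω → A := fun i => ⟨τ o i, mA o i⟩
  have vv : ∀ i j, ((v i * v j : A) : G) = τ i j := fun i j => by
    show τ o i * τ o j = _
    rw [t.symm o i, t.mul]
  have st := steiner v sq (Subtype.val ⁻¹' D) cΩ (by rw [← Nat.card_eq_fintype_card, c.cA])
    (by rw [← n.d, ← Set.ncard_image_of_injective _ Subtype.val_injective, Set.image_preimage_eq_of_subset]
        exact fun x hx => ⟨⟨x, (c.DA x hx).1⟩, rfl⟩)
    (fun h => (c.DA _ h).2 rfl)
    (fun S hS => by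
      obtain ⟨i, j, ij, rfl⟩ := card_eq_two.1 hS
      rw [prod_pair ij, Set.mem_preimage, vv]
      exact t.mem i j ij)
    (fun S hS => by
      obtain ⟨i, j, k, l, ij, ik, il, jk, jl, kl, rfl⟩ := card_eq_four.1 hS
      rw [prod_insert (by simp [ij, ik, il]), prod_insert (by simp [jk, jl]), prod_pair kl, ← mul_assoc]
      have e : ((v i * v j * (v k * v l) : A) : G) = τ i j * τ k l := by rw [Subgroup.coe_mul, vv, vv]
      refine ⟨fun h => t.non i j k l ij ik il jk jl kl (e ▸ h), fun h => ?_⟩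
      have h' : v i * v j = v k * v l := by rw [eq_inv_of_mul_eq_one_left h, inv_eq_of_mul_eq_one_right (sq _)]
      rcases t.inj i j k l ij (by rw [← vv, ← vv, h']) with r | r
      exacts [ik r.1, il r.1])
  have inv : ∀ (m : M) (S : Finset Ω), S.card = 8 → ∏ i ∈ S, v i = 1 → ∏ i ∈ S.image (σ m), v i = 1 := by
    intro m S a b
    let φ : A →* A := MonoidHom.mk' (fun x => ⟨m * x * (m : G)⁻¹, c.nM m m.2 x x.2⟩) fun x y => Subtype.ext conj_mul.symm
    have e : ∀ i, v (σ m i) = v (σ m o) * φ (v i) := fun i => by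
      have : φ (v i) = v (σ m o) * v (σ m i) := Subtype.ext ((t.act m o i).trans (vv _ _).symm)
      rw [this, ← mul_assoc, sq, one_mul]
    rw [prod_image fun x _ y _ h => (σ m).injective h, prod_congr rfl fun i _ => e i, prod_mul_distrib, prod_const, a,
      ← map_prod, b, map_one, mul_one, show 8 = 2 * 4 from rfl, pow_mul, pow_two, sq, one_pow]
  obtain ⟨e, he⟩ := Cfsg.Agent.S0407.result cΩ (by decide +kernel : Fintype.card Cfsg.GolayPt = 24) st Cfsg.Agent.S0363.result
  have le : ∀ m : M, e.permCongr (σ m) • Cfsg.octads ⊆ Cfsg.octads := by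
    rintro m _ ⟨b, hb, rfl⟩
    rw [← he] at hb ⊢
    obtain ⟨S, ⟨a, p⟩, rfl⟩ := hb
    refine ⟨S.image (σ m), ⟨by rw [card_image_of_injective _ (σ m).injective, a], inv m S a p⟩, ?_⟩
    show _ = (S.image e).image _
    simp only [image_image]
    congr 1
    funext x
    simp
  refine ⟨e, fun m => ?_⟩
  rw [Cfsg.Agent.S0369.result]
  refine Set.Subset.antisymm (le m) fun b hb => ?_
  refine ⟨e.permCongr (σ m⁻¹) • b, le m⁻¹ ⟨b, hb, rfl⟩, ?_⟩
  show e.permCongr (σ m) • e.permCongr (σ m⁻¹) • b = b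
  rw [smul_smul, ← Equiv.permCongr_mul, ← map_mul, mul_inv_cancel, map_one,
    show e.permCongr 1 = 1 from Equiv.ext fun x => by simp, one_smul]

end Cfsg.Agent.H26.Fz
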