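import Mathlib
import Cfsg.Agent.H01.KS103b
import Cfsg.Agent.H26.Misc

/-!
# Trivalent coset graphs with `G_v / O₂(G_v) ≅ S₃` (namespace `Cfsg.Agent.H26.Gs`)

`SW`, `Gm` (abstract graph), `Eqv`, `gen`, `Gm.nf`, `Gm.core3`, `Dl`, `Ln` (lines), `Gm.splice`, `Gm.line_of`, `Sg`, `NS`,
`Gm.trans_ln`, `Gm.dich1`, `Gm.dich2`.
-/

set_option linter.unusedSectionVars false

namespace Cfsg.Agent.H26.Gs
open Cfsg BG H24 H01 MulAction
open scoped commutatorElement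

universe u
variable {G : Type u} [Group G] [Finite G] {A B P T T' X Y : Subgroup G} {g s t x y : G}
  {Ω : Type*} [MulAction G Ω] {adj : Ω → Ω → Prop} {ev : Ω → Prop} {a a' b b' c c' d e : Ω} {m n : ℕ}
  {f : Ω → Subgroup G} {p q : ℤ → Ω} {i j k : ℤ}

local notation "st" => stabilizer G
local notation "qv" a:max => OO (stabilizer G a)

structure SW (P T : Subgroup G) : Prop where
  syl : H26.IsSyl 2 T P
  idx : (OO P).relIndex P = 6
  nn : ¬ P ≤ N_(T)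

namespace SW
variable (h : SW P T)
include h

theorem cj (g : G) : SW (cj g P) (cj g T) :=
  ⟨h.syl.cj g, by rw [oo_cj, relIndex_cj, h.idx], by rw [← cj_norm, cj_le_cj_iff]; exact h.nn⟩

theorem le : T ≤ P := h.syl.le
theorem q_le : OO P ≤ T := h.syl.pCoreOf_le

theorem idx_aux : (OO P).relIndex T = 2 ∧ T.relIndex P = 3 := by
  have h1 := relIndex_mul h.q_le h.le
  have h2 := h.syl.not_dvd
  have h3 : ¬ 3 ∣ (OO P).relIndex T := fun e =>
    pg_not_dvd Nat.prime_three Nat.prime_two h.syl.pg (by norm_num) (e.trans (relIndex_dvd_card _ _))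
  rw [h.idx] at h1
  have h4 := Nat.le_of_dvd (by norm_num) (Dvd.intro _ h1)
  interval_cases (OO P).relIndex T <;> omega

theorem max (h1 : T ≤ X) (h2 : X ≤ P) : X = T ∨ X = P := eq_or_of_idx_prime (h.idx_aux.2 ▸ Nat.prime_three) h1 h2

theorem inf_eq (h' : SW P T') (hne : T ≠ T') : T ⊓ T' = OO P :=
  (eq_or_of_idx_prime (by rw [h.idx_aux.1]; exact Nat.prime_two) (le_inf h.q_le h'.q_le) inf_le_left).resolve_right fun e =>
    hne (h.syl.max _ h'.syl.pg (inf_eq_left.mp e) h'.le).symm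

theorem card_T : Nat.card T = 2 * Nat.card (OO P) := by rw [← BG.card_mul_relIndex h.q_le, h.idx_aux.1, mul_comm]

end SW

structure Gm (G : Type u) [Group G] {Ω : Type*} [MulAction G Ω] (adj : Ω → Ω → Prop) (ev : Ω → Prop) : Prop where
  symm : ∀ {a b}, adj a b → adj b a
  smul : ∀ {a b} (g : G), adj a b → adj (g • a) (g • b)
  nbr : ∀ a, ∃ b, adj a b
  trans : ∀ {a b c}, adj a b → adj a c → ∃ g ∈ stabilizer G a, g • b = c
  bip : ∀ {a b}, adj a b → (ev a ↔ ¬ ev b)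
  evs : ∀ (g : G) a, ev (g • a) ↔ ev a
  vt : ∀ {a b}, (ev a ↔ ev b) → ∃ g : G, g • a = b
  loc : ∀ {a b}, adj a b → SW (stabilizer G a) (stabilizer G a ⊓ stabilizer G b)
  core : ∀ {a b} {X : Subgroup G}, adj a b → X ≤ stabilizer G a → X ≤ stabilizer G b → stabilizer G a ≤ N_(X) →
    stabilizer G b ≤ N_(X) → X = ⊥

def Eqv (f : Ω → Subgroup G) : Prop := ∀ (g : G) a, f (g • a) = cj g (f a)

theorem Eqv.norm (h : Eqv f) (a : Ω) : st a ≤ N_(f a) := fun g hg => cj_eq_self_iff.mp (by rw [← h, hg])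
theorem Eqv.mem (h : Eqv f) (e : g • a = b) (hx : x ∈ f a) : g * x * g⁻¹ ∈ f b := by rw [← e, h]; exact conj_mem_cj g hx
theorem Eqv.mem' (h : Eqv f) (e : g • a = b) (hx : g * x * g⁻¹ ∈ f b) : x ∈ f a := by rwa [← e, h, conj_mem_cj_iff] at hx
theorem Eqv.card (h : Eqv f) (e : g • a = b) : Nat.card (f b) = Nat.card (f a) := by rw [← e, h, card_cj]
theorem Eqv.le {f' : Ω → Subgroup G} (h : Eqv f) (h' : Eqv f') (e : g • a = b) (e' : g • c = d) (l : f a ≤ f' c) : f b ≤ f' d := by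
  rw [← e, ← e', h, h']; exact cj_mono g l
theorem eqv_st : Eqv (fun a : Ω => st a) := st_smul
theorem eqv_q : Eqv (fun a : Ω => qv a) := qv_smul

def gen (adj : Ω → Ω → Prop) (f : Ω → Subgroup G) (v : Ω) : Subgroup G := ⨆ (u) (_ : adj v u), f u

theorem le_gen (e : adj a b) : f b ≤ gen adj f a := le_iSup₂_of_le b e le_rfl
theorem gen_le (h : ∀ b, adj a b → f b ≤ X) : gen adj f a ≤ X := iSup₂_le h

inductive Dl (adj : Ω → Ω → Prop) : ℕ → Ω → Ω → Prop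
  | refl (m : ℕ) (a : Ω) : Dl adj m a a
  | step {m : ℕ} {a b c : Ω} : Dl adj m a b → adj b c → Dl adj (m + 1) a c

theorem Dl.mono (h : Dl adj m a b) (l : m ≤ n) : Dl adj n a b := by
  induction h generalizing n with
  | refl => exact .refl _ _
  | step _ e ih => obtain ⟨n, rfl⟩ := Nat.exists_eq_add_one.mpr (Nat.pos_of_ne_zero (n := n) (by omega)); exact .step (ih (by omega)) e

theorem Dl.cons (e : adj a b) (h : Dl adj m b c) : Dl adj (m + 1) a c := by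
  induction h with
  | refl => exact .step (.refl _ _) e
  | step _ e' ih => exact .step (ih e) e'

theorem Dl.app (h : Dl adj m a b) (h' : Dl adj n b c) : Dl adj (m + n) a c := by
  induction h' with
  | refl => exact h.mono (by omega)
  | step _ e ih => exact .step (ih h) e

def Ln (adj : Ω → Ω → Prop) (p : ℤ → Ω) : Prop := ∀ i, adj (p i) (p (i + 1)) ∧ adj (p (i + 1)) (p i) ∧ p i ≠ p (i + 2)

theorem Ln.ad (l : Ln adj p) (i j : ℤ) (e : j = i + 1 ∨ i = j + 1 := by omega) : adj (p i) (p j) := by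
  rcases e with rfl | rfl
  exacts [(l i).1, (l j).2.1]

theorem Ln.ne (l : Ln adj p) (i j : ℤ) (e : j = i + 2 ∨ i = j + 2 := by omega) : p i ≠ p j := by
  rcases e with rfl | rfl
  exacts [(l i).2.2, (l j).2.2.symm]

theorem Ln.sh (l : Ln adj p) (c : ℤ) : ∃ q, Ln adj q ∧ ∀ i j, j = i + c → q i = p j :=
  ⟨fun i => p (i + c), fun _ => ⟨l.ad _ _, l.ad _ _, l.ne _ _⟩, fun _ _ e => e ▸ rfl⟩

theorem Ln.rev (l : Ln adj p) (c : ℤ) : ∃ q, Ln adj q ∧ ∀ i j, j = c - i → q i = p j :=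
  ⟨fun i => p (c - i), fun _ => ⟨l.ad _ _, l.ad _ _, l.ne _ _⟩, fun _ _ e => e ▸ rfl⟩

theorem Ln.glue (l : Ln adj p) (l' : Ln adj q) (e : p k = q k) (ne : p (k - 1) ≠ q (k + 1)) :
    ∃ r, Ln adj r ∧ (∀ i, i ≤ k → r i = p i) ∧ ∀ i, k ≤ i → r i = q i := by
  obtain ⟨r, h1, h2⟩ : ∃ r : ℤ → Ω, (∀ i, i ≤ k → r i = p i) ∧ ∀ i, k ≤ i → r i = q i :=
    ⟨fun i => if i ≤ k then p i else q i, fun i a => if_pos a, fun i a => by
      beta_reduce
      split_ifs with b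
      exacts [le_antisymm a b ▸ e, rfl]⟩
  refine ⟨r, fun i => ?_, h1, h2⟩
  rcases lt_trichotomy (i + 1) k with a | rfl | a
  · rw [h1 _ (by omega), h1 _ (by omega), h1 _ (by omega)]; exact l i
  · rw [h1 i (by omega), h1 _ le_rfl, h2 _ (by omega)]
    exact ⟨(l i).1, (l i).2.1, by simpa [add_assoc] using ne⟩
  · rw [h2 _ (by omega), h2 _ (by omega), h2 _ (by omega)]; exact l' i

theorem Ln.dl (l : Ln adj p) (h1 : i - j ≤ m) (h2 : j - i ≤ m) : Dl adj m (p i) (p j) := by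
  induction m generalizing j with
  | zero => rw [show j = i by omega]; exact .refl _ _
  | succ m ih =>
    rcases lt_trichotomy i j with a | rfl | a
    exacts [.step (ih (j := j - 1) (by omega) (by omega)) (l.ad _ _), .refl _ _,
      .step (ih (j := j + 1) (by omega) (by omega)) (l.ad _ _)]

def Sg (G : Type u) [Group G] [MulAction G Ω] (p : ℤ → Ω) (l : ℤ) : Prop :=
  ∀ g : G, (∀ k, 0 ≤ k → k ≤ l → g ∈ stabilizer G (p k)) → g ∈ OO (stabilizer G (p 0))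

def NS (G : Type u) [Group G] [MulAction G Ω] (adj : Ω → Ω → Prop) (N : ℤ) : Prop :=
  ∀ p, Ln adj p → ∀ l, 1 ≤ l → l ≤ N → ¬ Sg G p l

namespace Gm
variable (h : Gm G adj ev)
include h

theorem loc' (e : adj a b) : SW (st b) (st a ⊓ st b) := inf_comm (st a) _ ▸ h.loc (h.symm e)
theorem q_le (e : adj a b) : qv a ≤ st b := (h.loc e).q_le.trans inf_le_right

theorem adj_of (e : adj a b) (hg : g ∈ st a) : adj a (g • b) := by
  have := h.smul g e
  rwa [mem_stabilizer_iff.mp hg] at this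

theorem q_of (e1 : adj a b) (e2 : adj a c) (hne : b ≠ c) (h1 : x ∈ st a) (h2 : x ∈ st b) (h3 : x ∈ st c) : x ∈ qv a := by
  refine ((h.loc e1).inf_eq (h.loc e2) fun e => ?_).le ⟨⟨h1, h2⟩, h1, h3⟩
  obtain ⟨g, hg, rfl⟩ := h.trans e1 e2
  have l := h.loc e1
  rw [st_smul, ← cj_of_mem hg, ← cj_inf, cj_of_mem hg] at e
  exact hne (((l.max (le_inf l.le (le_norm _)) inf_le_left).resolve_right fun e3 => l.nn (inf_eq_left.mp e3)).le
    ⟨hg, cj_eq_self_iff.mp e.symm⟩).2.symm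

theorem mul_q (e : adj a b) (h1 : x ∈ st a ⊓ st b) (h2 : y ∈ st a ⊓ st b) (h3 : x ∉ qv a) (h4 : y ∉ qv a) : x * y ∈ qv a :=
  mul_mem_of_idx_two (h.loc e).idx_aux.1 h1 h2 h3 h4

theorem idx_le (e : adj a b) (h1 : X ≤ st a ⊓ st b) : (qv a).relIndex X ≤ 2 :=
  Nat.le_of_dvd two_pos ((relIndex_dvd_of_norm h1 (inf_le_left.trans (st_qv a))).trans (h.loc e).idx_aux.1.dvd)

theorem gen1 (e : adj a b) (h1 : st a ⊓ st b ≤ Y) (h2 : x ∈ st a) (h3 : x ∉ st b) (h4 : x ∈ Y) : st a ≤ Y :=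
  (((h.loc e).max (le_inf inf_le_left h1) inf_le_left).resolve_left fun e => h3 (e.le ⟨h2, h4⟩).2).ge.trans inf_le_right

theorem t_le (e : adj a b) (h1 : qv a ≤ Y) (h2 : x ∈ st a ⊓ st b) (h3 : x ∉ qv a) (h4 : x ∈ Y) : st a ⊓ st b ≤ Y :=
  fun y hy => by
    by_cases c : y ∈ qv a
    exacts [h1 c, (mul_mem_cancel_left h4).mp (h1 (h.mul_q e h2 hy h3 c))]

theorem gen2 (e1 : adj a b) (e2 : adj a c) (hne : b ≠ c) (h1 : qv a ≤ Y) (h2 : x ∈ st a ⊓ st b) (h3 : x ∉ qv a) (h4 : x ∈ Y)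
    (h5 : y ∈ st a ⊓ st c) (h6 : y ∉ qv a) (h7 : y ∈ Y) : st a ≤ Y :=
  h.gen1 e1 (h.t_le e1 h1 h2 h3 h4) h5.1 (fun k => h6 (h.q_of e1 e2 hne h5.1 k h5.2)) h7

theorem ncard (a : Ω) : {c | adj a c}.ncard = 3 := by
  obtain ⟨b, e⟩ := h.nbr a
  have : {c | adj a c} = orbit (st a) b := Set.ext fun c =>
    ⟨fun e1 => by obtain ⟨g, hg, rfl⟩ := h.trans e e1; exact ⟨⟨g, hg⟩, rfl⟩,
      by rintro ⟨g, rfl⟩; exact h.adj_of e g.2⟩
  rw [this, ← index_stabilizer, ← (h.loc e).idx_aux.2, Subgroup.inf_relIndex_left]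
  rfl

theorem third (a b c : Ω) : ∃ d, adj a d ∧ b ≠ d ∧ c ≠ d := by
  by_contra! e
  have h1 := Set.ncard_le_ncard (s := {c | adj a c}) (t := {b, c})
    (fun d hd => by by_cases e1 : b = d; exacts [Or.inl e1.symm, Or.inr (e d hd e1).symm])
  have h2 := Set.ncard_insert_le b {c}
  rw [h.ncard] at h1
  rw [Set.ncard_singleton] at h2
  omega

theorem four (e1 : adj a b) (e2 : adj a c) (e3 : adj a d) (e4 : adj a e) (h1 : b ≠ c) (h2 : b ≠ d) (h3 : c ≠ d) :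
    e = b ∨ e = c ∨ e = d := by
  have := Set.eq_of_subset_of_ncard_le (s := {b, c, d}) (t := {c | adj a c})
    (by rintro _ (rfl | rfl | rfl) <;> assumption)
    (by rw [h.ncard, Set.ncard_eq_three.mpr ⟨b, c, d, h1, h2, h3, rfl⟩]) (Set.finite_of_ncard_ne_zero (by simp [h.ncard]))
  exact (this.ge e4 :)

theorem move (e1 : adj a b) (e2 : adj a c) (hne : b ≠ c) (h1 : t ∈ st a ⊓ st b) (h3 : t ∉ qv a) :
    adj a (t • c) ∧ b ≠ t • c ∧ c ≠ t • c :=
  ⟨h.adj_of e2 h1.1, fun e => hne (smul_left_cancel t ((mem_stabilizer_iff.mp h1.2).trans e)),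
    fun e => h3 (h.q_of e1 e2 hne h1.1 h1.2 e.symm)⟩

theorem swap (e1 : adj a b) (e2 : adj a c) (e3 : adj a d) (n1 : b ≠ c) (n2 : b ≠ d) (n3 : c ≠ d) (h1 : t ∈ st a ⊓ st b)
    (h3 : t ∉ qv a) : t • c = d :=
  let ⟨a1, a2, a3⟩ := h.move e1 e2 n1 h1 h3
  ((h.four e1 e2 e3 a1 n1 n2 n3).resolve_left a2.symm).resolve_left a3.symm

theorem exists_t (e : adj a b) : ∃ t ∈ st a ⊓ st b, t ∉ qv a := SetLike.not_le_iff_exists.mp fun c => by
  have := (h.loc e).idx_aux.1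
  rw [Subgroup.relIndex_eq_one.mpr c] at this; omega

theorem tr1 (k : ev a ↔ ev a') (e : adj a b) (e' : adj a' b') : ∃ g : G, g • a = a' ∧ g • b = b' := by
  obtain ⟨g, rfl⟩ := h.vt k
  obtain ⟨t, ht, rfl⟩ := h.trans (h.smul g e) e'
  exact ⟨t * g, by rw [mul_smul]; exact ht, mul_smul _ _ _⟩

theorem tr2 (k : ev a ↔ ev a') (e : adj a b) (e1 : adj a c) (n1 : b ≠ c) (e' : adj a' b') (e2 : adj a' c') (n2 : b' ≠ c') :
    ∃ g : G, g • a = a' ∧ g • b = b' ∧ g • c = c' := by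
  obtain ⟨g, rfl, rfl⟩ := h.tr1 k e e'
  by_cases n3 : g • c = c'
  · exact ⟨g, rfl, rfl, n3⟩
  obtain ⟨t, t1, t2⟩ := h.exists_t e'
  exact ⟨t * g, by rw [mul_smul]; exact t1.1, by rw [mul_smul]; exact t1.2, by
    rw [mul_smul]; exact h.swap e' (h.smul g e1) e2 (by simpa using n1) n2 n3 t1 t2⟩

theorem eqv_gen (hf : Eqv f) : Eqv (gen adj f) := by
  have k : ∀ (g : G) a, cj g (gen adj f a) ≤ gen adj f (g • a) := fun g a =>
    cj_le_iff.mpr (gen_le fun b e => cj_le_iff.mp ((hf g b).ge.trans (le_gen (h.smul g e))))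
  exact fun g a => le_antisymm (le_cj_iff.mpr (by simpa using k g⁻¹ (g • a))) (k g a)

theorem gen_le3 (e1 : adj a b) (e2 : adj a c) (e3 : adj a d) (h1 : b ≠ c) (h2 : b ≠ d) (h3 : c ≠ d) (l1 : f b ≤ X) (l2 : f c ≤ X)
    (l3 : f d ≤ X) : gen adj f a ≤ X := gen_le fun u e => by
  rcases h.four e1 e2 e3 e h1 h2 h3 with rfl | rfl | rfl <;> assumption

theorem nf (hf : Eqv f) (e : adj a b) (h0 : f a ≠ ⊥) (h1 : f a ≤ qv a) (h2 : x ∈ st b) (h3 : x ∈ N_(f a)) : x ∈ st a :=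
  by_contra fun c => h0 (h.core e (h1.trans (oo_le _)) (h1.trans (h.q_le e)) (hf.norm a)
    (h.gen1 (h.symm e) (inf_le_right.trans (hf.norm a)) h2 c h3))

theorem core3 (e : adj a b) (h1 : st a ⊓ st b ≤ N_(B)) (h2 : st a ≤ N_(A)) :
    ∃ X ≤ B, st a ≤ N_(X) ∧ X.relIndex A ≤ B.relIndex A ^ 3 := by
  obtain ⟨c, e2, n1, -⟩ := h.third a b b
  obtain ⟨d, e3, n2, n3⟩ := h.third a b c
  obtain ⟨g, hg, rfl⟩ := h.trans e e2
  obtain ⟨s, hs, rfl⟩ := h.trans e e3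
  have k : ∀ x ∈ st a, B ⊓ cj g B ⊓ cj s B ≤ cj x B := fun x hx => by
    have k : ∀ y ∈ st a, x • b = y • b → cj y B = cj x B := fun y hy c => cj_eq_cj_iff.mpr (h1 ⟨(st a).mul_mem ((st a).inv_mem hx) hy,
      mem_stabilizer_iff.mpr (by rw [mul_smul, ← c, inv_smul_smul])⟩)
    rcases h.four e e2 e3 (h.adj_of e hx) n1 n2 n3 with c | c | c
    · rw [← k 1 (one_mem _) (by simpa using c), cj_one]; exact inf_le_left.trans inf_le_left
    · rw [← k g hg c]; exact inf_le_left.trans inf_le_right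
    · rw [← k s hs c]; exact inf_le_right
  have k1 : ∀ x ∈ st a, (cj x B).relIndex A = B.relIndex A := fun x hx => by
    nth_rw 1 [← cj_of_mem_norm (h2 hx)]; rw [relIndex_cj]
  refine ⟨B ⊓ cj g B ⊓ cj s B, inf_le_left.trans inf_le_left, le_norm_of_cj_le fun x hx => cj_le_iff.mpr ?_, ?_⟩
  · rw [cj_inf, cj_inf, cj_cj, cj_cj]
    exact le_inf (le_inf (k _ (inv_mem hx)) (k _ (mul_mem (inv_mem hx) hg))) (k _ (mul_mem (inv_mem hx) hs))
  · refine Subgroup.relIndex_inf_le.trans ((Nat.mul_le_mul_right _ Subgroup.relIndex_inf_le).trans ?_)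
    rw [k1 g hg, k1 s hs]; exact (by ring : _ = _).le

theorem dl_symm (w : Dl adj m a b) : Dl adj m b a := by
  induction w with
  | refl => exact .refl _ _
  | step _ e ih => exact ih.cons (h.symm e)

theorem dl_smul (w : Dl adj m a b) (g : G) : Dl adj m (g • a) (g • b) := by
  induction w with
  | refl => exact .refl _ _
  | step _ e ih => exact ih.step (h.smul g e)

theorem ln_smul (l : Ln adj p) (g : G) : Ln adj fun i => g • p i :=
  fun i => ⟨h.smul g (l i).1, h.smul g (l i).2.1, by simpa using (l i).2.2⟩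

theorem exists_ln (e : adj a b) (k : ℤ) : ∃ q, Ln adj q ∧ q k = a ∧ q (k + 1) = b := by
  have ray : ∀ {a b}, adj a b → ∃ r : ℕ → Ω, r 0 = a ∧ r 1 = b ∧ ∀ i, adj (r i) (r (i + 1)) ∧ r i ≠ r (i + 2) := fun {a b} e => by
    choose nx n1 n2 _ using h.third
    let r : ℕ → Ω × Ω := fun i => Nat.rec (a, b) (fun _ x => (x.2, nx x.2 x.1 x.1)) i
    refine ⟨fun i => (r i).1, rfl, rfl, fun i => ⟨?_, n2 _ _ _⟩⟩
    cases i
    exacts [e, n1 _ _ _]
  obtain ⟨r, r0, r1, r2⟩ := ray e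
  obtain ⟨s, s0, s1, s2⟩ := ray (h.symm e)
  obtain ⟨p, h1, h2⟩ : ∃ p : ℤ → Ω, (∀ (i : ℕ) (j : ℤ), j = i → p j = r i) ∧ ∀ (i : ℕ) (j : ℤ), j = 1 - i → p j = s i :=
    ⟨fun i => if 0 ≤ i then r i.toNat else s (1 - i).toNat, by rintro i _ rfl; simp, by
      rintro (_ | _ | i) _ rfl
      · simp [r1, s0]
      · simp [r0, s1]
      · exact (if_neg (by omega)).trans (congrArg s (by omega))⟩
  have l : Ln adj p := fun i => by
    rcases le_or_gt 0 i with c | c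
    · rw [h1 i.toNat _ (by omega), h1 (i.toNat + 1) _ (by omega), h1 (i.toNat + 2) _ (by omega)]
      exact ⟨(r2 _).1, h.symm (r2 _).1, (r2 _).2⟩
    · rw [h2 ((-1 - i).toNat + 2) _ (by omega), h2 ((-1 - i).toNat + 1) _ (by omega), h2 (-1 - i).toNat _ (by omega)]
      exact ⟨h.symm (s2 _).1, (s2 _).1, (s2 _).2.symm⟩
  obtain ⟨q, lq, hq⟩ := l.sh (-k)
  exact ⟨q, lq, by rw [hq _ 0 (by omega), h1 0 0 rfl, r0], by rw [hq _ 1 (by omega), h1 1 1 rfl, r1]⟩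

theorem splice (l : Ln adj p) (e : adj (p k) c) (ne : p (k - 1) ≠ c) :
    ∃ q, Ln adj q ∧ (∀ i, i ≤ k → q i = p i) ∧ ∀ j, j = k + 1 → q j = c := by
  obtain ⟨q, lq, q0, q1⟩ := h.exists_ln e k
  obtain ⟨r, lr, r0, r1⟩ := l.glue lq q0.symm (q1 ▸ ne)
  exact ⟨r, lr, r0, by rintro _ rfl; rw [r1 _ (by omega), q1]⟩

theorem splice' (l : Ln adj p) (e : adj (p k) c) (ne : p (k + 1) ≠ c) :
    ∃ q, Ln adj q ∧ (∀ i, k ≤ i → q i = p i) ∧ ∀ j, j = k - 1 → q j = c := by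
  obtain ⟨q, lq, q0, q1⟩ := h.exists_ln (h.symm e) (k - 1)
  rw [sub_add_cancel] at q1
  obtain ⟨r, lr, r0, r1⟩ := lq.glue l q1 (q0 ▸ ne.symm)
  exact ⟨r, lr, r1, by rintro _ rfl; rw [r0 _ (by omega), q0]⟩

theorem line_of (w : Dl adj m a b) : ∃ (k : ℕ) (p : ℤ → Ω), k ≤ m ∧ Ln adj p ∧ p 0 = a ∧ p k = b := by
  induction w with
  | refl m a => obtain ⟨q, lq, q0, -⟩ := h.exists_ln (h.nbr a).choose_spec 0; exact ⟨0, q, by omega, lq, q0, q0⟩
  | @step m a b c _ e ih =>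
    obtain ⟨k, p, k1, l, rfl, rfl⟩ := ih
    by_cases ne : p (k - 1) = c
    · rcases k with _ | k
      · obtain ⟨q, lq, hq⟩ := l.rev 0
        exact ⟨1, q, by omega, lq, hq _ _ rfl, (hq _ _ (by simp)).trans ne⟩
      · exact ⟨k, p, by omega, l, rfl, by simpa using ne⟩
    · obtain ⟨q, lq, q0, q1⟩ := h.splice l e ne
      exact ⟨k + 1, q, by omega, lq, q0 _ (by omega), q1 _ (by simp)⟩

theorem ev_ln (l : Ln adj p) (i j : ℤ) : (ev (p i) ↔ ev (p j)) ↔ (j - i) % 2 = 0 := by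
  have k : ∀ i, ev (p (i + 1)) ↔ ¬ ev (p i) := fun i => h.bip (l i).2.1
  obtain ⟨j, rfl⟩ : ∃ d, j = i + d := ⟨j - i, by omega⟩
  induction j using Int.induction_on with
  | zero => simp
  | succ j ih =>
    rw [← add_assoc, k, show (i + j + 1 - i) % 2 = 0 ↔ ¬ (i + j - i) % 2 = 0 by omega]; tauto
  | pred j ih =>
    rw [show i + -(j : ℤ) = i + (-j - 1) + 1 by ring, k] at ih
    rw [show (i + (-j - 1) - i) % 2 = 0 ↔ ¬ (i + (-j - 1) + 1 - i) % 2 = 0 by omega]; tauto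

theorem trans_ln (s : ℕ) (H : NS G adj (s - 1)) (l : Ln adj p) (l' : Ln adj q) (k : ev (p 0) ↔ ev (q 0)) :
    ∃ g : G, ∀ i : ℤ, 0 ≤ i → i ≤ s → g • p i = q i := by
  induction s with
  | zero => obtain ⟨g, e⟩ := h.vt k; exact ⟨g, fun i _ _ => by rw [show i = 0 by omega]; exact e⟩
  | succ s ih =>
    rcases Nat.eq_zero_or_pos s with rfl | s0
    · obtain ⟨g, e1, e2⟩ := h.tr1 k (l.ad 0 1) (l'.ad 0 1)
      exact ⟨g, fun i _ _ => by rcases (by omega : i = 0 ∨ i = 1) with rfl | rfl <;> assumption⟩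
    obtain ⟨g, e⟩ := ih fun p a l b c => H p a l b (by omega)
    have fin : ∀ t : G, (∀ i : ℤ, 0 ≤ i → i ≤ s → t ∈ st (q i)) → t • g • p (s + 1) = q (s + 1) →
        ∃ g : G, ∀ i : ℤ, 0 ≤ i → i ≤ (s + 1 : ℕ) → g • p i = q i := fun t t1 t2 => ⟨t * g, fun i a b => by
      rw [mul_smul]
      rcases (by omega : i ≤ s ∨ i = s + 1) with c | rfl
      exacts [by rw [e i a c]; exact t1 i a c, t2]⟩
    by_cases c : g • p (s + 1) = q (s + 1)
    · exact fin 1 (fun _ _ _ => one_mem _) (by simpa using c)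
    obtain ⟨r, lr, hr⟩ := l'.rev s
    have := H r lr s (by omega) (by omega)
    unfold Sg at this
    push Not at this
    obtain ⟨t, t1, t2⟩ := this
    have t3 : ∀ i : ℤ, 0 ≤ i → i ≤ s → t ∈ st (q i) := fun i a b => hr (s - i) i (by omega) ▸ t1 _ (by omega) (by omega)
    refine fin t t3 (h.swap (l'.ad s (s - 1)) (e s (by omega) le_rfl ▸ h.smul g (l.ad s (s + 1))) (l'.ad _ _) ?_ (l'.ne _ _) c
      ⟨t3 _ (by omega) le_rfl, t3 _ (by omega) (by omega)⟩ (hr 0 s (by omega) ▸ t2))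
    rw [← e (s - 1) (by omega) (by omega)]
    simpa using l.ne _ _

theorem dich (N : ℤ) : NS G adj N ∨ ∃ a, ∀ p, Ln adj p → (ev a ↔ ev (p 0)) → Sg G p N := by
  refine or_iff_not_imp_left.mpr fun c => ?_
  have ex : ∃ s : ℕ, 1 ≤ s ∧ s ≤ N ∧ ∃ p, Ln adj p ∧ Sg G p s := by
    by_contra! d
    exact c fun p l i a b => by simpa [show (i.toNat : ℤ) = i by omega] using d i.toNat (by omega) (by omega) p l
  classical
  obtain ⟨s1, s2, p, l, sg⟩ := Nat.find_spec ex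
  refine ⟨p 0, fun q lq k t ht => ?_⟩
  obtain ⟨g, e⟩ := h.trans_ln (Nat.find ex) (fun r lr i a b c => Nat.find_min ex (m := i.toNat) (by omega)
    ⟨by omega, by omega, r, lr, by rwa [show (i.toNat : ℤ) = i by omega]⟩) lq l k.symm
  exact eqv_q.mem' (e 0 le_rfl (by omega)) (sg _ fun i a b => eqv_st.mem (e i a b) (ht i a (by omega)))

theorem dich1 {N : ℤ} (l : Ln adj p) (h1 : ¬ ev (p 0)) (h2 : ¬ Sg G p N) :
    NS G adj N ∨ ∀ p, Ln adj p → ev (p 0) → Sg G p N :=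
  (h.dich N).imp_right fun ⟨_, k⟩ q lq e => k q lq (iff_of_true (by_contra fun c => h2 (k p l (iff_of_false c h1))) e)

theorem dich2 {N : ℤ} (l : Ln adj p) (h1 : ¬ ev (p 0)) (h2 : ¬ Sg G p N) (l' : Ln adj q) (h3 : ev (q 0)) (h4 : ¬ Sg G q N) :
    NS G adj N := (h.dich1 l h1 h2).resolve_right fun k => h4 (k q l' h3)

end Gm

end Cfsg.Agent.H26.Gs
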