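import Mathlib
import Cfsg.Agent.H26.Gs1

/-!
# Amalgams of type `(S₃, S₃)` in characteristic 2 with `Ω₁Z(T)` central in one factor (namespace `Cfsg.Agent.H26.Gs`)

`Zf`, `Vf`, `Wf`, `Gc`, `Mn` (critical distance), `Gc.exists_crit`, `Q2` (`|Ω₁Z(T)| = 2`), `Gc.q2_even`, `Gc.q2_odd`,
`Gc.even_false`.
-/

set_option linter.unusedSectionVars false

namespace Cfsg.Agent.H26.Gs
open Cfsg BG H24 H01 MulAction
open scoped commutatorElement

universe u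
variable {G : Type u} [Group G] [Finite G] {A B K X Y : Subgroup G} {g s t u v w x y : G}
  {Ω : Type*} [MulAction G Ω] {adj : Ω → Ω → Prop} {ev : Ω → Prop} {a a' b b' c c' d e : Ω} {m n : ℕ}
  {f : Ω → Subgroup G} {p q : ℤ → Ω} {i j k : ℤ}

def Zf (G : Type u) [Group G] [MulAction G Ω] (a : Ω) : Subgroup G := zc (stabilizer G a)
def Vf (G : Type u) [Group G] [MulAction G Ω] (adj : Ω → Ω → Prop) : Ω → Subgroup G := gen adj (Zf G)
def Wf (G : Type u) [Group G] [MulAction G Ω] (adj : Ω → Ω → Prop) : Ω → Subgroup G := gen adj (Vf G adj)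

local notation "st" => stabilizer G
local notation "qv" a:max => OO (stabilizer G a)
local notation "Z" => Zf G
local notation "V" => Vf G adj
local notation "W" => Wf G adj

theorem eqv_z : Eqv (Zf G : Ω → Subgroup G) := zv_smul

theorem inv_eq (hA : IsElementaryAbelian 2 A) (h : u ∈ A) : u⁻¹ = u := by
  rw [inv_eq_iff_mul_eq_one, ← pow_two]; exact hA.2 u h

theorem cc2 (hA : IsElementaryAbelian 2 A) (ht : t ∈ N_(A)) (hv : v ∈ A) : ⁅⁅v, t⁆, t⁆ = ⁅v, t * t⁆ := by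
  rw [commutatorElement_def ⁅v, t⁆, inv_eq hA (H26.commutatorElement_mem_of_mem_normalizer' ht hv)]
  simp only [commutatorElement_def]; group

theorem comm_one : ⁅x, y⁆ = 1 ↔ x ∈ C_[y] := commutatorElement_eq_one_iff_mul_comm.trans mem_cent1.symm
theorem cent_el (h : x ∈ C_(A)) (hy : y ∈ A) : x ∈ C_[y] := cent_le_cent1 hy h
theorem cent_el' (h : x ∈ C_(A)) (hy : y ∈ A) : y ∈ C_[x] := mem_cent1_comm.mp (cent_el h hy)
theorem conj_eq (h : x ∈ C_[y]) : x * y * x⁻¹ = y := by rw [mem_cent1.mp h, mul_inv_cancel_right]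
theorem comm_symm (h : ⁅x, y⁆ ∈ A) : ⁅y, x⁆ ∈ A := by rw [← commutatorElement_inv]; exact inv_mem h

theorem Gm.res_le (h : Gm G adj ev) (e : adj a b) (h1 : st a ≤ N_(K)) (h2 : x ∈ K) (h3 : x ∈ st a ⊓ st b) (h4 : x ∉ qv a) :
    pResidualOf 2 (st a) ≤ K := by
  obtain ⟨c, e2, n1, -⟩ := h.third a b b
  obtain ⟨g, hg, rfl⟩ := h.trans e e2
  have := H26.pResidualOf_mono (p := 2) (h.gen2 (Y := qv a ⊔ K) e e2 n1 le_sup_left h3 h4 (Subgroup.mem_sup_right h2)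
    ⟨eqv_st.mem hg h3.1, eqv_st.mem rfl h3.2⟩ (fun k => h4 (eqv_q.mem' hg k)) (Subgroup.mem_sup_right (conj_mem_of_norm (h1 hg) h2)))
  rw [H26.pResidualOf_sup_eq (oo_pg _) ((oo_le _).trans h1)] at this
  exact this.trans (H26.pResidualOf_le _)

theorem Gm.res_not (h : Gm G adj ev) (e : adj a b) : ¬ pResidualOf 2 (st a) ≤ st b := fun k =>
  (h.loc e).nn ((h.loc e).syl.pResidualOf_sup.ge.trans (sup_le ((le_inf (H26.pResidualOf_le _) k).trans (le_norm _)) (le_norm _)))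

structure Gc (G : Type u) [Group G] {Ω : Type*} [MulAction G Ω] (adj : Ω → Ω → Prop) (ev : Ω → Prop) : Prop
    extends Gm G adj ev where
  ch : ∀ a : Ω, H26.IsCharP 2 (stabilizer G a)
  nc : ∀ {a b}, adj a b → ev a → ¬ stabilizer G a ≤ C_(ΩZ (stabilizer G a ⊓ stabilizer G b))
  ce : ∀ {a b}, adj a b → ev a → stabilizer G b ≤ C_(ΩZ (stabilizer G a ⊓ stabilizer G b))

def Mn (G : Type u) [Group G] [MulAction G Ω] (adj : Ω → Ω → Prop) (n : ℕ) : Prop :=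
  ∀ m u v, Dl adj m u v → m < n → Zf G u ≤ OO (stabilizer G v)

def Q2 (G : Type u) [Group G] [MulAction G Ω] (ev : Ω → Prop) : Prop := ∀ b, ¬ ev b → Nat.card (Zf G b) = 2

structure Cr (G : Type u) [Group G] [MulAction G Ω] (adj : Ω → Ω → Prop) (ev : Ω → Prop) (n : ℕ) (p : ℤ → Ω) : Prop where
  l : Ln adj p
  k : ev (p 0)
  nz : ¬ Zf G (p 0) ≤ OO (stabilizer G (p (n : ℤ)))

namespace Gc
variable (h : Gc G adj ev)
include h

theorem s3l (e : adj a b) (k : ev a) : S3L (st a) (st a ⊓ st b) := ⟨h.ch a, (h.loc e).syl, (h.loc e).idx, h.nc e k⟩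
theorem od (e : adj a b) (k : ev a) : ¬ ev b := (h.bip e).mp k
theorem evn (e : adj a b) (k : ¬ ev a) : ev b := by have := h.bip e; tauto
theorem eqv_v : Eqv V := h.eqv_gen eqv_z
theorem eqv_w : Eqv W := h.eqv_gen h.eqv_v

theorem z_odd (e : adj a b) (k : ev a) : Z b = ΩZ (st a ⊓ st b) := le_antisymm
  ((h.loc' e).syl.sylowCenterClosure_le (le_norm_of_cent (h.ce e k)) le_rfl) (h.loc' e).syl.omegaZ_le_sylowCenterClosure

theorem z_cent (k : ¬ ev b) : st b ≤ C_(Z b) := by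
  obtain ⟨a, e⟩ := h.nbr b
  rw [h.z_odd (h.symm e) (h.evn e k)]; exact h.ce (h.symm e) (h.evn e k)

theorem z_le_z (e : adj a b) (k : ev a) : Z b ≤ Z a := (h.z_odd e k).le.trans (h.s3l e k).oz_le_zc
theorem z_le_q (a : Ω) : Z a ≤ qv a := (h.ch a).sylowCenterClosure_le_pCoreOf
theorem z_elem (a : Ω) : IsElementaryAbelian 2 (Z a) := (h.ch a).sylowCenterClosure_elemAb
theorem q_cent (a : Ω) : qv a ≤ C_(Z a) := cent_symm (H26.sylowCenterClosure_le_centralizer _)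

theorem z_ne (a : Ω) : Z a ≠ ⊥ := by
  obtain ⟨b, e⟩ := h.nbr a
  obtain ⟨t, t1, t2⟩ := h.exists_t e
  exact ne_bot_mono (oz_ne_bot (h.loc e).syl.pg (ne_bot_of_mem t1 fun c => t2 (c ▸ one_mem _)))
    (h.loc e).syl.omegaZ_le_sylowCenterClosure

theorem cent_z (k : ev a) (h1 : x ∈ st a) (h2 : x ∈ C_(Z a)) : x ∈ qv a := (h.s3l (h.nbr a).choose_spec k).cent_zc ⟨h1, h2⟩

theorem oz_of (e : adj a b) (k : ev a) (h1 : u ∈ qv a) (h2 : u⁻¹ = u) (h3 : qv a ≤ C_[u]) (h4 : t ∈ st a ⊓ st b) (h5 : t ∉ qv a)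
    (h6 : u ∈ C_[t]) : u ∈ Z b := by
  rw [h.z_odd e k]
  exact Subgroup.subset_closure ⟨⟨(h.loc e).q_le h1, le_cent1_iff.mp (h.t_le e h3 h4 h5 (mem_cent1_comm.mp h6))⟩, by
    rw [pow_two, ← inv_eq_iff_mul_eq_one, h2]⟩

theorem z_fix (e : adj a b) (k : ev a) (h1 : u ∈ Z a) (h4 : t ∈ st a ⊓ st b) (h5 : t ∉ qv a) (h6 : u ∈ C_[t]) : u ∈ Z b :=
  h.oz_of e k (h.z_le_q a h1) (inv_eq (h.z_elem a) h1) ((h.q_cent a).trans (cent_le_cent1 h1)) h4 h5 h6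

theorem nz (e : adj a b) (h2 : x ∈ st b) (h3 : x ∈ N_(Z a)) : x ∈ st a := h.nf eqv_z e (h.z_ne a) (h.z_le_q a) h2 h3

theorem zz (e1 : adj a b) (e2 : adj a c) (ne : b ≠ c) (k : ev a) (h1 : u ∈ Z b) (h2 : u ∈ Z c) : u = 1 := by
  have c1 := (h.z_cent (h.od e1 k)).trans (cent_le_cent1 h1)
  obtain ⟨t, t1, t2⟩ := h.exists_t e2
  exact Subgroup.zpowers_eq_bot.mp (h.core e1 (Subgroup.zpowers_le.mpr (oo_le _ (h.z_le_q a (h.z_le_z e1 k h1))))
    (Subgroup.zpowers_le.mpr (oo_le _ (h.z_le_q b h1))) (le_norm_of_cent ((h.gen1 e1 (inf_le_right.trans c1) t1.1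
      (fun c => t2 (h.q_of e1 e2 ne t1.1 c t1.2)) (cent_el (h.z_cent (h.od e2 k) t1.2) h2)).trans (cent_zpowers _).ge))
    (le_norm_of_cent (c1.trans (cent_zpowers _).ge)))

theorem zt (e : adj a b) (k : ev a) (h1 : u ∈ Z a) (h2 : t ∈ st a ⊓ st b) : ⁅u, t⁆ ∈ Z b := by
  have c : ∀ t ∈ qv a, ⁅u, t⁆ = 1 := fun t ht => comm_one.mpr (cent_el' (h.q_cent a ht) h1)
  by_cases h3 : t ∈ qv a
  · rw [c t h3]; exact one_mem _
  exact h.z_fix e k (H26.commutatorElement_mem_of_mem_normalizer' (eqv_z.norm a h2.1) h1) h2 h3 (comm_one.mp (by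
    rw [cc2 (h.z_elem a) (eqv_z.norm a h2.1) h1, c _ (h.mul_q e h2 h2 h3 h3)]))

theorem norm_of (e : adj a b) (k : ev a) (h1 : Z b ≤ X) (h2 : X ≤ Z a) : st a ⊓ st b ≤ N_(X) :=
  le_norm_of_comm_le (Subgroup.commutator_le.mpr fun _ hu _ ht => h1 (h.zt e k (h2 hu) ht))

theorem zsup (e1 : adj a b) (e2 : adj a c) (ne : b ≠ c) (k : ev a) : Z a ≤ Z b ⊔ Z c := by
  have l := sup_le (h.z_le_z e1 k) (h.z_le_z e2 k)
  obtain ⟨t, t1, t2⟩ := h.exists_t e2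
  exact (h.loc e1).syl.sylowCenterClosure_le (h.gen1 e1 (h.norm_of e1 k le_sup_left l) t1.1
    (fun c => t2 (h.q_of e1 e2 ne t1.1 c t1.2)) (h.norm_of e2 k le_sup_right l t1)) ((h.z_odd e1 k).ge.trans le_sup_left)

theorem zcard (e : adj a b) (k : ev a) : Nat.card (Z a) = Nat.card (Z b) * Nat.card (Z b) := by
  obtain ⟨c, e2, n1, -⟩ := h.third a b b
  rw [le_antisymm (h.zsup e e2 n1 k) (sup_le (h.z_le_z e k) (h.z_le_z e2 k)), card_sup_of_disj (le_norm_of_cent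
    (le_cent_of_abelian (h.z_elem a).1 (h.z_le_z e2 k) (h.z_le_z e k))) (le_bot_iff.mp fun u hu => h.zz e e2 n1 k hu.1 hu.2)]
  obtain ⟨g, -, e3⟩ := h.trans e e2
  rw [eqv_z.card e3]

theorem exists_q (e : adj a b) : ∃ s ∈ qv a, s ∉ qv b := by
  refine SetLike.not_le_iff_exists.mp fun e1 => ?_
  have e2 : qv a = qv b := eq_of_le_of_card_eq e1 (by have := (h.loc e).card_T; have := (h.loc' e).card_T; omega)
  exact h.z_ne a (eq_bot_mono (h.core e (oo_le _) (h.q_le e) (st_qv a) (e2 ▸ st_qv b)) (h.z_le_q a))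

theorem vq (k : ¬ ev b) (h1 : v ∈ V b) (h2 : g ∈ qv b) : ⁅v, g⁆ ∈ Z b :=
  ((gen_le (X := H26.commKer (qv b) (Z b)) fun _ e _ hu => ⟨eqv_z.norm b (h.q_le (h.symm e) (h.z_le_q _ hu)), fun _ hg =>
    h.zt (h.symm e) (h.evn e k) hu ((h.loc' (h.symm e)).q_le hg)⟩) h1).2 g h2

theorem one_ne (e : adj a b) : Z a ≤ qv b := by
  by_cases k : ev a
  swap; · exact (h.z_le_z (h.symm e) (h.evn e k)).trans (h.z_le_q b)
  intro x hx
  by_contra c
  have l := h.res_le (K := H26.commKer (qv b) (Z b)) (h.symm e) (H26.le_normalizer_commKer (st_qv b) (eqv_z.norm b))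
    ⟨eqv_z.norm b (h.q_le e (h.z_le_q _ hx)), fun _ hg => h.zt e k hx ((h.loc' e).q_le hg)⟩
    ⟨h.q_le e (h.z_le_q _ hx), oo_le _ (h.z_le_q _ hx)⟩ c
  refine h.res_not (h.symm e) (le_trans (le_inf (H26.pResidualOf_le _) (comm_eq_bot'.mp ?_)) ((h.ch b).trans (h.q_le (h.symm e))))
  rw [← H26.commutator_pResidualOf_idem (oo_pg _) (st_qv b), comm_eq_bot']
  exact (H26.pResidualOf_le _).trans ((h.z_cent (h.od e k)).trans (cent_anti ((comm_comm _ _).le.trans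
    (H26.le_commKer_iff.mp l).2)))

theorem exists_crit (a : Ω) : ∃ (n : ℕ) (p : ℤ → Ω), Mn G adj n ∧ 2 ≤ n ∧ Cr G adj ev n p := by
  have ex : ∃ n, ∃ u v, Dl adj n u v ∧ ¬ Z u ≤ qv v := by
    by_contra! c
    obtain ⟨b, e⟩ := h.nbr a
    have n : ∀ g : G, (∃ m, Dl adj m a (g • a)) → cj g⁻¹ (⨅ v : {v // ∃ m, Dl adj m a v}, qv v.1) ≤
        ⨅ v : {v // ∃ m, Dl adj m a v}, qv v.1 := fun g ⟨m, w⟩ => le_iInf fun ⟨v, j, w'⟩ => by
      rw [cj_le_iff, inv_inv, ← qv_smul]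
      exact iInf_le_of_le ⟨_, _, w.app (h.dl_smul w' g)⟩ le_rfl
    have l : (⨅ v : {v // ∃ m, Dl adj m a v}, qv v.1) ≤ qv a := iInf_le_of_le ⟨a, 0, .refl _ a⟩ le_rfl
    refine h.z_ne a (eq_bot_mono (h.core e (l.trans (oo_le _)) (l.trans (h.q_le e))
      (le_norm_of_cj_le fun g hg => inv_inv g ▸ n g⁻¹ ⟨0, ?_⟩) (le_norm_of_cj_le fun g hg => inv_inv g ▸ n g⁻¹ ⟨2, ?_⟩))
      (le_iInf fun ⟨v, m, w⟩ => c m a v w))
    · rw [mem_stabilizer_iff.mp (inv_mem hg)]; exact .refl _ a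
    · exact .step (.step (.refl _ _) e) (h.adj_of (h.symm e) (inv_mem hg))
  classical
  obtain ⟨u, v, w, hz⟩ := Nat.find_spec ex
  have mn : Mn G adj (Nat.find ex) := fun m u v w l => by_contra fun c => Nat.find_min ex l ⟨u, v, w, c⟩
  obtain ⟨k, p, k1, l, rfl, rfl⟩ := h.line_of w
  obtain rfl : k = Nat.find ex := by_contra fun c => hz (mn k _ _ (l.dl (by omega) (by omega)) (by omega))
  have n2 : 2 ≤ Nat.find ex := by
    by_contra c
    rcases (by omega : (Nat.find ex : ℤ) = 0 ∨ (Nat.find ex : ℤ) = 1) with d | d <;> rw [d] at hz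
    exacts [hz (h.z_le_q _), hz (h.one_ne (l.ad _ _))]
  exact ⟨_, p, mn, n2, l, by_contra fun c => hz ((h.z_le_z (l.ad 1 0) (h.evn (l.ad 0 1) c)).trans
    (mn (Nat.find ex - 1) _ _ (l.dl (by omega) (by omega)) (by omega))), hz⟩

theorem q2_of (k : ¬ ev b) (h1 : Nat.card (Z b) ≤ 2) : Q2 G ev := fun c kc => by
  obtain ⟨g, e⟩ := h.vt (iff_of_false k kc)
  have := one_lt_card (h.z_ne b)
  rw [eqv_z.card e]; omega

theorem q2_of_idx (e1 : adj b a) (e2 : adj b a') (ne : a ≠ a') (k : ¬ ev b) (h1 : (Z a').relIndex (Z a) ≤ 2) : Q2 G ev := by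
  obtain ⟨s, s1, s2⟩ := h.exists_q (h.symm e1)
  obtain ⟨t, t1, t2⟩ := h.exists_q (h.symm e2)
  have t3 := (h.loc (h.symm e2)).q_le t1
  have n1 : st b ≤ N_(Z a ⊓ Z a') := h.gen2 e1 e2 ne (norm_inf ((h.q_le e1).trans (eqv_z.norm a)) ((h.q_le e2).trans (eqv_z.norm a')))
    ⟨h.q_le (h.symm e1) s1, oo_le _ s1⟩ s2 (cent_le_norm _ (cent_anti inf_le_left (h.q_cent a s1))) ⟨t3.2, t3.1⟩ t2
    (cent_le_norm _ (cent_anti inf_le_right (h.q_cent a' t1)))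
  obtain ⟨X, x1, x2, x3⟩ := h.core3 (h.symm e1) (inf_le_right.trans n1) (eqv_z.norm a)
  have x4 := x1.trans (inf_le_left.trans (h.z_le_q a))
  rw [h.core (h.symm e1) (x4.trans (oo_le _)) (x4.trans (h.q_le (h.symm e1))) x2 (h.gen1 e1 (inf_le_right.trans x2) t3.2
    (fun c => t2 (h.q_of e1 e2 ne t3.2 c t3.1)) (cent_le_norm _ (cent_anti (x1.trans inf_le_right) (h.q_cent a' t1)))),
    Subgroup.relIndex_bot_left, Subgroup.inf_relIndex_left, h.zcard (h.symm e1) (h.evn e1 k)] at x3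
  exact h.q2_of k (by nlinarith [Nat.pow_le_pow_left h1 3])

theorem q2_of_inf (e : adj a b) (k : ev a) (e1 : adj c d) (h1 : Z a ≤ st c ⊓ st d) (h2 : ∀ u ∈ Z a, u ∈ qv c → u ∈ Z b) :
    Q2 G ev := by
  have h3 := card_inf_mul_relIndex (qv c) (Z a)
  have h4 : Nat.card ↥(qv c ⊓ Z a) ≤ Nat.card (Z b) := card_le fun u hu => h2 u hu.2 hu.1
  have h5 := h.idx_le e1 h1
  have h6 := card_pos (Z b)
  rw [h.zcard e k] at h3
  exact h.q2_of (h.od e k) (by nlinarith)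

variable (mn : Mn G adj n)
include mn

theorem dst (w : Dl adj m a b) (l : m ≤ n) : Z a ≤ st b := by
  cases w with
  | refl => exact (h.z_le_q a).trans (oo_le _)
  | step w e => exact (mn _ _ _ w l).trans (h.q_le e)

theorem dvq (w : Dl adj m a b) (l : m + 1 < n) : V a ≤ qv b := gen_le fun _ e => mn _ _ _ (w.cons (h.symm e)) l
theorem dvs (w : Dl adj m a b) (l : m + 1 ≤ n) : V a ≤ st b := gen_le fun _ e => h.dst mn (w.cons (h.symm e)) l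
theorem dwq (w : Dl adj m a b) (l : m + 2 < n) : W a ≤ qv b := gen_le fun _ e => h.dvq mn (w.cons (h.symm e)) l
theorem dzc (w : Dl adj m a b) (l : m + 1 < n) : Z a ≤ C_(V b) :=
  cent_symm (gen_le fun _ e => cent_symm ((mn _ _ _ (w.step e) l).trans (h.q_cent _)))
theorem dvc (w : Dl adj m a b) (l : m + 2 < n) : V a ≤ C_(V b) := gen_le fun _ e => h.dzc mn (w.cons (h.symm e)) l

variable (l : Ln adj p)
include l

theorem zq (i j : ℤ) (h1 : i - j < n ∧ j - i < n := by omega) : Z (p i) ≤ qv (p j) :=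
  mn (n - 1) _ _ (l.dl (by omega) (by omega)) (by omega)
theorem zs (i j : ℤ) (h1 : i - j ≤ n ∧ j - i ≤ n := by omega) : Z (p i) ≤ st (p j) := h.dst mn (l.dl h1.1 h1.2) le_rfl
theorem lvq (i j : ℤ) (h1 : i - j + 1 < n ∧ j - i + 1 < n := by omega) : V (p i) ≤ qv (p j) :=
  h.dvq mn (m := n - 2) (l.dl (by omega) (by omega)) (by omega)
theorem lvs (i j : ℤ) (h1 : i - j + 1 ≤ n ∧ j - i + 1 ≤ n := by omega) : V (p i) ≤ st (p j) :=
  h.dvs mn (m := n - 1) (l.dl (by omega) (by omega)) (by omega)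
theorem lzc (i j : ℤ) (h1 : i - j + 1 < n ∧ j - i + 1 < n := by omega) : Z (p i) ≤ C_(V (p j)) :=
  h.dzc mn (m := n - 2) (l.dl (by omega) (by omega)) (by omega)

omit mn in
theorem lev (k : ev (p i)) (j : ℤ) (h1 : (j - i) % 2 = 0 := by omega) : ev (p j) := ((h.ev_ln l i j).mpr h1).mp k
omit mn in
theorem lod (k : ev (p i)) (j : ℤ) (h1 : (j - i) % 2 = 1 := by omega) : ¬ ev (p j) := fun c => by
  have := (h.ev_ln l i j).mp (iff_of_true k c); omega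

omit mn in
theorem not_sg {N : ℤ} (h1 : x ∉ qv (p k)) (h2 : ∀ i, k - N ≤ i → i ≤ k → x ∈ st (p i)) :
    ∃ q, Ln adj q ∧ q 0 = p k ∧ ¬ Sg G q N := by
  obtain ⟨q, lq, hq⟩ := l.rev k
  exact ⟨q, lq, hq _ _ (by omega), fun c => h1 (hq 0 k (by omega) ▸ c x fun i _ _ => hq i _ rfl ▸ h2 _ (by omega) (by omega))⟩

omit mn in
theorem ns_at {N : ℤ} (H : NS G adj N) (i j : ℤ) (h1 : i < j ∧ j - i ≤ N := by omega) :
    ∃ g ∈ st (p i) ⊓ st (p (i + 1)), g ∉ qv (p i) ∧ ∀ k, i ≤ k → k ≤ j → g ∈ st (p k) := by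
  obtain ⟨q, lq, hq⟩ := l.sh i
  have := H q lq (j - i) (by omega) h1.2
  unfold Sg at this
  push Not at this
  obtain ⟨g, g1, g2⟩ := this
  have g3 : ∀ k, i ≤ k → k ≤ j → g ∈ st (p k) := fun k _ _ => hq (k - i) k (by omega) ▸ g1 _ (by omega) (by omega)
  exact ⟨g, ⟨g3 _ le_rfl h1.1.le, g3 _ (by omega) (by omega)⟩, hq 0 i (by omega) ▸ g2, g3⟩

omit l
variable (cr : Cr G adj ev n p)
include cr

theorem crit_rev (hn : n % 2 = 0) : ¬ Z (p n) ≤ qv (p 0) := fun c => cr.nz fun _ hx =>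
  h.cent_z (h.lev cr.l cr.k n) (h.zs mn cr.l 0 n (by omega) hx) (cent_symm (c.trans (h.q_cent _)) hx)

theorem q2_even (hn : n % 2 = 0) (n2 : 2 ≤ n) : Q2 G ev := by
  obtain ⟨v, v1, v2⟩ := SetLike.not_le_iff_exists.mp (h.crit_rev mn cr hn)
  obtain ⟨l, k, -⟩ := cr
  exact h.q2_of_inf (l.ad 0 1) k (l.ad n (n - 1)) (le_inf (h.zs mn l _ _) (h.zs mn l _ _)) fun u u1 u2 =>
    h.z_fix (l.ad 0 1) k u1 ⟨h.zs mn l _ _ (by omega) v1, h.zs mn l _ _ (by omega) v1⟩ v2 (cent_el (h.q_cent _ u2) v1)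

theorem q2_odd (hn : n % 2 = 1) (n2 : 2 ≤ n) : Q2 G ev := by
  obtain ⟨l, k, nz⟩ := cr
  obtain ⟨x, x1, x2⟩ := SetLike.not_le_iff_exists.mp nz
  have kn := h.lod l k n
  have xs : ∀ i : ℤ, 0 ≤ i → i ≤ n → x ∈ st (p i) := fun i _ _ => h.zs mn l 0 i (by omega) x1
  obtain ⟨e1, -, ne⟩ := h.move (l.ad n (n - 1)) (l.ad n (n + 1)) (l.ne _ _) ⟨xs _ (by omega) le_rfl, xs _ (by omega) (by omega)⟩ x2
  by_cases c : ∀ v ∈ Z (p (n + 1)), v ∈ qv (p 1) → v ∈ qv (p 0)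
  · refine h.q2_of_idx (l.ad n (n + 1)) e1 ne kn (le_trans ?_ (h.idx_le (X := Z (p (n + 1))) (l.ad 1 2)
      (le_inf (h.zs mn l _ _) (h.zs mn l _ _))))
    rw [← Subgroup.inf_relIndex_left _ (qv (p 1))]
    refine Subgroup.relIndex_le_of_le_left (fun v hv => ?_) (relIndex_ne_zero _ _)
    rw [← conj_eq (cent_el' (h.q_cent _ (c v hv.1 hv.2)) x1)]
    exact eqv_z.mem rfl hv.1
  push Not at c
  obtain ⟨v, v1, v2, v3⟩ := c
  have vs : ∀ i : ℤ, 0 ≤ i → i ≤ n → v ∈ st (p i) := fun i _ _ => by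
    rcases (by omega : i = 0 ∨ 1 ≤ i) with rfl | _
    exacts [h.q_le (l.ad 1 0) v2, h.zs mn l _ i (by omega) v1]
  obtain ⟨q, lq, q0, q1⟩ := h.not_sg l (N := n - 2) x2 fun i _ _ => xs i (by omega) (by omega)
  obtain ⟨g, g1, g2, g3⟩ := h.ns_at l (h.dich2 lq (q0 ▸ kn) q1 l k fun c => v3 (c v fun i _ _ => vs i (by omega) (by omega))) 2 n
  obtain ⟨e2, -, n3⟩ := h.move (l.ad 2 (2 + 1)) (l.ad 2 1) (l.ne _ _) g1 g2
  refine h.q2_of_inf (l.ad 0 1) k (l.ad n (n - 1)) (le_inf (h.zs mn l _ _) (h.zs mn l _ _)) fun u u1 u2 => ?_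
  have tv : v ∈ st (p 0) ⊓ st (p 1) := ⟨vs _ le_rfl (by omega), vs _ (by omega) (by omega)⟩
  have c1 := h.zt (l.ad 0 1) k u1 tv
  refine h.z_fix (l.ad 0 1) k u1 tv v3 (comm_one.mp (h.zz (l.ad 2 1) e2 n3 (h.lev l k 2) c1 ?_))
  rw [← conj_eq (cent_el (h.z_cent kn (g3 n (by omega) le_rfl)) (comm_symm (h.vq kn (le_gen (l.ad _ _) v1) u2)))]
  exact eqv_z.mem rfl c1

end Gc

end Cfsg.Agent.H26.Gs
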