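import Mathlib
import Cfsg.Agent.H26.Gs2

/-!
# The case `|Ω₁Z(T)| = 2` (namespace `Cfsg.Agent.H26.Gs`)

`Gc.zzz`, `Gc.zmem`, `Gc.even_false`, `Hf`, `N8`, `Gc.hcomm`, `Gc.w_not`, `Gc.hle`, `Gc.n8_of`, `Gc.vv`, `Gc.kk`.
-/

set_option linter.unusedSectionVars false

namespace Cfsg.Agent.H26.Gs
open Cfsg BG H24 H01 MulAction
open scoped commutatorElement

universe u
variable {G : Type u} [Group G] [Finite G] {A B K X Y : Subgroup G} {g s t u v w x y : G}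
  {Ω : Type*} [MulAction G Ω] {adj : Ω → Ω → Prop} {ev : Ω → Prop} {a a' b b' c c' d o : Ω} {m n : ℕ}
  {f : Ω → Subgroup G} {p q : ℤ → Ω} {i j : ℤ}

local notation "st" => stabilizer G
local notation "qv" a:max => OO (stabilizer G a)
local notation "Z" => Zf G
local notation "V" => Vf G adj
local notation "W" => Wf G adj

def Hf (G : Type u) [Group G] [MulAction G Ω] (adj : Ω → Ω → Prop) (a b : Ω) : Subgroup G :=
  Vf G adj b ⊓ H26.commKer (stabilizer G a ⊓ stabilizer G b) (Zf G b)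

local notation "H" => Hf G adj

def N8 (G : Type u) [Group G] [MulAction G Ω] (adj : Ω → Ω → Prop) (ev : Ω → Prop) : Prop :=
  ∀ a b, adj a b → ev a → Hf G adj a b ≤ Zf G a

theorem mul_mem_le (hi : A.relIndex B ≤ 2) (hx : x ∈ B) (hy : y ∈ B) (h1 : x ∉ A) (h2 : y ∉ A) : x * y ∈ A :=
  mul_mem_of_idx_two (by
    have := relIndex_ne_zero A B
    have := mt Subgroup.relIndex_eq_one.mp fun c : B ≤ A => h1 (c hx)
    omega) hx hy h1 h2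

theorem mem_norm_of (h : ∀ y ∈ X, ⁅v, y⁆ ∈ X) : v ∈ N_(X) := mem_norm_of_cj_le fun z hz => by
  obtain ⟨y, hy, rfl⟩ := mem_cj'.mp hz
  simpa [commutatorElement_def] using mul_mem (h y hy) hy

theorem conj_mem_of_comm (h : ⁅u, t⁆ ∈ X) (hu : u ∈ X) : t * u * t⁻¹ ∈ X := by
  simpa [commutatorElement_def, mul_assoc] using mul_mem (inv_mem h) hu

theorem comm_mul (h : u ∈ C_[⁅w, t⁆]) : ⁅u * w, t⁆ = ⁅w, t⁆ * ⁅u, t⁆ := by
  rw [commutatorElement_mul_left_eq_conj_mul, conj_eq h]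

namespace Gc
variable (h : Gc G adj ev)
include h

theorem v_ne (b : Ω) : V b ≠ ⊥ := ne_bot_mono (h.z_ne _) (le_gen (f := Z) (h.nbr b).choose_spec)
theorem w_ne (b : Ω) : W b ≠ ⊥ := ne_bot_mono (h.v_ne _) (le_gen (f := V) (h.nbr b).choose_spec)

theorem h_smul (e1 : g • a = a') (e2 : g • b = b') (hu : u ∈ H a b) : g * u * g⁻¹ ∈ H a' b' := by
  subst e1 e2
  refine ⟨h.eqv_v.mem rfl hu.1, by rw [eqv_z, ← cj_norm]; exact conj_mem_cj g hu.2.1, fun t ht => ?_⟩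
  have := eqv_z.mem (g := g) rfl (hu.2.2 (g⁻¹ * t * g) ⟨mem_cj.mp (st_smul g a ▸ ht.1), mem_cj.mp (st_smul g b ▸ ht.2)⟩)
  rwa [conjugate_commutatorElement, show g * (g⁻¹ * t * g) * g⁻¹ = t by group] at this

variable (q2 : Q2 G ev)
include q2

omit h in
theorem zle (k : ¬ ev b) (h1 : u ∈ Z b) (u1 : u ≠ 1) (h2 : u ∈ X) : Z b ≤ X :=
  (BG.zpowers_eq_of_prime (q2 b k ▸ Nat.prime_two) h1 u1).ge.trans (Subgroup.zpowers_le.mpr h2)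

theorem zidx (e : adj a b) (k : ev a) (h1 : u ∈ Z a) (h2 : w ∈ Z a) (h3 : u ∉ Z b) (h4 : w ∉ Z b) : u * w ∈ Z b := by
  have := BG.card_mul_relIndex (h.z_le_z e k)
  rw [h.zcard e k, q2 b (h.od e k)] at this
  exact mul_mem_le (by omega) h1 h2 h3 h4

theorem zmul (k : ¬ ev b) (h1 : u ∈ Z b) (h2 : w ∈ Z b) (h3 : u ≠ 1) (h4 : w ≠ 1) : u * w = 1 :=
  mul_mem_le (A := ⊥) (by rw [Subgroup.relIndex_bot_left, q2 b k]) h1 h2 h3 h4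

theorem zsub (e : adj a b) (k : ev a) (h1 : u ∈ Z a) (h3 : u ∉ Z b) (h4 : Z b ≤ X) (h5 : u ∈ X) : Z a ≤ X := fun w hw => by
  by_cases c : w ∈ Z b
  exacts [h4 c, (mul_mem_cancel_left h5).mp (h4 (h.zidx q2 e k h1 hw h3 c))]

theorem zzz (e1 : adj b a) (e2 : adj b a') (ne : a ≠ a') (k : ¬ ev b) (h1 : u ∈ Z a) (h2 : u ∈ Z a') : u ∈ Z b := by
  by_contra c
  obtain ⟨g, hg, rfl⟩ := h.trans e1 e2
  exact ne (h.nz (h.symm e1) hg (mem_norm_of_le_cj ((h.zsub q2 (h.symm e1) (h.evn e1 k) h1 c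
    (h.z_le_z (h.symm e2) (h.evn e2 k)) h2).trans (eqv_z g a).le))).symm

theorem exists_w (e : adj a b) (k : ev a) : ∃ w ∈ Z a, w ∉ Z b := SetLike.not_le_iff_exists.mp fun c => by
  have := card_le c
  rw [h.zcard e k, q2 b (h.od e k)] at this; omega

theorem zmem (k : ev a) (h1 : u ∈ Z a) : ∃ b, adj a b ∧ u ∈ Z b := by
  by_contra! c
  obtain ⟨b, e1⟩ := h.nbr a
  obtain ⟨b', e2, n1, -⟩ := h.third a b b
  obtain ⟨d, e3, n2, n3⟩ := h.third a b b'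
  obtain ⟨w, w1, w2⟩ := exists_mem_ne_one (h.z_ne d)
  have w3 := h.z_le_z e3 k w1
  exact c d e3 (by
    rw [eq_inv_of_mul_eq_one_left (h.zz e1 e2 n1 k (h.zidx q2 e1 k h1 w3 (c b e1) fun x => w2 (h.zz e1 e3 n2 k x w1))
      (h.zidx q2 e2 k h1 w3 (c b' e2) fun x => w2 (h.zz e2 e3 n3 k x w1)))]
    exact inv_mem w1)

theorem fixb (e : adj a b) (k : ev a) (h1 : u ∈ Z b) (u1 : u ≠ 1) (h2 : g ∈ st a) (h3 : g ∈ C_[u]) : g ∈ st b :=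
  h.nz (h.symm e) h2 (cent_le_norm _ (le_cent1_iff.mp (zle q2 (h.od e k) h1 u1 (mem_cent1_comm.mp h3))))

theorem ozq (e : adj a b) (k : ev a) (h1 : u ∈ qv a) (h2 : u⁻¹ = u) (h3 : qv a ≤ C_[u])
    (h4 : ∀ t ∈ st a ⊓ st b, ⁅u, t⁆ ∈ Z b) : u ∈ Z a := by
  obtain ⟨t, t1, t2⟩ := h.exists_t e
  by_cases c : ⁅u, t⁆ = 1
  · exact h.z_le_z e k (h.oz_of e k h1 h2 h3 t1 t2 (comm_one.mp c))
  obtain ⟨w, w1, w2⟩ := h.exists_w q2 e k
  have c1 := h.zt e k w1 t1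
  refine (mul_mem_cancel_right w1).mp (h.z_le_z e k (h.oz_of e k (mul_mem h1 (h.z_le_q a w1)) ?_
    (fun g hg => mem_cent1_comm.mp (mul_mem (mem_cent1_comm.mp (h3 hg)) (cent_el' (h.q_cent a hg) w1))) t1 t2 (comm_one.mp ?_)))
  · rw [mul_inv_rev, h2, inv_eq (h.z_elem a) w1]; exact mem_cent1.mp (h3 (h.z_le_q a w1))
  · rw [comm_mul (cent_el (h.q_cent a h1) (h.z_le_z e k c1))]
    exact h.zmul q2 (h.od e k) c1 (h4 t t1) (fun d => w2 (h.z_fix e k w1 t1 t2 (comm_one.mp d))) c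

variable (mn : Mn G adj n)
include mn

omit q2 in
theorem nv (e : adj a b) (n2 : 2 ≤ n) (h2 : x ∈ st b) (h3 : x ∈ N_(V a)) : x ∈ st a :=
  h.nf h.eqv_v e (h.v_ne a) (h.dvq mn (.refl 0 a) n2) h2 h3

theorem even_false (cr : Cr G adj ev n p) (hn : n % 2 = 0) (n4 : 4 ≤ n) : False := by
  have E1 : ∀ p, Cr G adj ev n p → ∃ u, u ≠ 1 ∧ u ∈ Z (p 1) ∧ u ∈ Z (p (n - 1)) := fun p cr => by
    obtain ⟨v, v1, v2⟩ := SetLike.not_le_iff_exists.mp (h.crit_rev mn cr hn)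
    obtain ⟨l, k, nz⟩ := cr
    obtain ⟨x, x1, x2⟩ := SetLike.not_le_iff_exists.mp nz
    have tv : v ∈ st (p 0) ⊓ st (p 1) := ⟨h.zs mn l _ _ (by omega) v1, h.zs mn l _ _ (by omega) v1⟩
    exact ⟨_, fun c => x2 (h.zq mn l 1 n (by omega) (h.z_fix (l.ad 0 1) k x1 tv v2 (comm_one.mp c))), h.zt (l.ad 0 1) k x1 tv,
      comm_symm (h.zt (l.ad n (n - 1)) (h.lev l k n) v1 ⟨h.zs mn l _ _ (by omega) x1, h.zs mn l _ _ (by omega) x1⟩)⟩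
  obtain ⟨v, v1, v2⟩ := SetLike.not_le_iff_exists.mp (h.crit_rev mn cr hn)
  obtain ⟨u, u1, u2, u3⟩ := E1 p cr
  obtain ⟨l, k, nz⟩ := cr
  have E2 : V (p (-1)) ≤ qv (p (n - 2)) := gen_le fun c e => by_contra fun d => by
    obtain ⟨q, lq, q1, q2'⟩ := h.splice' l e fun e => d (e ▸ h.zq mn l _ _)
    obtain ⟨r, lr, hr⟩ := lq.sh (-2)
    obtain ⟨u, u1, u2, u3⟩ := E1 r ⟨lr, by rw [hr 0 _ rfl, q2' _ (by omega)]; exact h.evn e (h.lod l k _), by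
      rwa [hr 0 _ rfl, q2' _ (by omega), hr _ (n - 2) (by omega), q1 _ (by omega)]⟩
    rw [hr _ (-1) (by omega), q1 _ le_rfl] at u2
    rw [hr _ (n - 3) (by omega), q1 _ (by omega)] at u3
    exact nz ((h.zsup (l.ad 0 (-1)) (l.ad 0 1) (l.ne _ _) k).trans (sup_le (zle q2 (h.lod l k _) u2 u1
      (h.zq mn l _ _ (by omega) u3)) (h.zq mn l _ _)))
  have vs : ∀ i : ℤ, 0 ≤ i → i ≤ n → v ∈ st (p i) := fun i _ _ => h.zs mn l n i (by omega) v1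
  obtain ⟨y, y1, y2⟩ := SetLike.not_le_iff_exists.mp fun c : V (p (-1)) ≤ qv (p (n - 1)) => v2
    (h.q_of (l.ad 0 1) (l.ad 0 (-1)) (l.ne _ _) (vs 0 le_rfl (by omega)) (vs 1 (by omega) (by omega))
      (h.nv mn (l.ad (-1) 0) (by omega) (vs 0 le_rfl (by omega)) (mem_norm_of fun y hy => zle q2 (h.lod l k _) u3 u1
        (le_gen (f := Z) (l.ad (-1) 0) (h.z_le_z (l.ad 0 1) k u2)) (h.zt (l.ad n (n - 1)) (h.lev l k n) v1
          ⟨h.q_le (l.ad _ _) (c hy), oo_le _ (c hy)⟩))))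
  obtain ⟨q, lq, q0, q1⟩ := h.not_sg l (N := n - 3) y2 fun i _ _ => by
    rcases (by omega : i = n - 1 ∨ i ≤ n - 2) with rfl | _
    exacts [h.q_le (l.ad _ _) (E2 y1), h.lvs mn l _ i (by omega) y1]
  obtain ⟨g, g1, g2, g3⟩ := h.ns_at l (h.dich2 lq (q0 ▸ h.lod l k _) q1 l k fun c => v2 (c v fun i _ _ =>
    vs i (by omega) (by omega))) 2 (n - 1)
  exact g2 (h.q_of (l.ad 2 (2 + 1)) (l.ad 2 1) (l.ne _ _) g1.1 g1.2 (h.fixb q2 (l.ad 2 1) (h.lev l k 2) u2 u1 g1.1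
    (cent_el (h.z_cent (h.lod l k _) (g3 (n - 1) (by omega) le_rfl)) u3)))

variable (n3 : 3 ≤ n)
include n3

omit q2 in
theorem v_elem (b : Ω) : IsElementaryAbelian 2 (V b) := (oz_elem (V b)).of_le (gen_le fun _ e =>
  le_oz (le_gen (f := Z) e) ((h.dvc mn (.refl 0 b) n3).trans (cent_anti (le_gen (f := Z) e))) (h.z_elem _))

omit q2 in
theorem v_q (e : adj a b) : V b ≤ qv a := h.dvq mn (.step (.refl 0 b) (h.symm e)) n3

variable (e : adj a b) (k : ev a)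
include e k

omit q2 in
theorem hmem (h1 : y ∈ V b) (h2 : t ∈ st a ⊓ st b) (h3 : t ∉ qv b) (h4 : ⁅y, t⁆ ∈ Z b) : y ∈ H a b := by
  refine ⟨h1, eqv_z.norm b (h.q_le e (h.v_q mn n3 e h1)), fun s hs => ?_⟩
  by_cases c : s ∈ qv b
  · exact h.vq (h.od e k) h1 c
  have d := h.mul_q (h.symm e) ⟨hs.2, hs.1⟩ ⟨(st b).inv_mem h2.2, (st a).inv_mem h2.1⟩ c (by simpa using h3)
  rw [show ⁅y, s⁆ = ⁅y, s * t⁻¹⁆ * (s * t⁻¹ * ⁅y, t⁆ * (s * t⁻¹)⁻¹) by simp only [commutatorElement_def]; group]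
  exact mul_mem (h.vq (h.od e k) h1 d) (conj_mem_of_norm (eqv_z.norm b (oo_le _ d)) h4)

omit q2 mn n3 in
theorem hz : Z a ≤ H a b := fun _ hu => ⟨le_gen (f := Z) (h.symm e) hu, eqv_z.norm b (h.q_le e (h.z_le_q a hu)),
  fun _ ht => h.zt e k hu ht⟩

omit q2 in
theorem hcomm (h1 : v ∈ V b) (h2 : t ∈ st a ⊓ st b) : ⁅v, t⁆ ∈ H a b := by
  by_cases c : t ∈ qv b
  · exact h.hz e k (h.z_le_z e k (h.vq (h.od e k) h1 c))
  refine h.hmem mn n3 e k (H26.commutatorElement_mem_of_mem_normalizer' (h.eqv_v.norm b h2.2) h1) h2 c ?_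
  rw [cc2 (h.v_elem mn n3 b) (h.eqv_v.norm b h2.2) h1]
  exact h.vq (h.od e k) h1 (h.mul_q (h.symm e) ⟨h2.2, h2.1⟩ ⟨h2.2, h2.1⟩ c c)

omit mn n3 in
theorem w_not (e2 : adj b c) (ne : a ≠ c) (h1 : w ∈ Z c) (h2 : w ∉ Z b) : w ∉ H a b := fun hw => by
  obtain ⟨t, t1, t2⟩ := h.exists_t (h.symm e)
  obtain ⟨e3, -, n2⟩ := h.move (h.symm e) e2 ne t1 t2
  exact h2 (eqv_z.mem' t1.1 (h.zzz q2 e2 e3 n2 (h.od e k) (conj_mem_of_comm
    (h.z_le_z (h.symm e2) (h.evn e2 (h.od e k)) (hw.2.2 t ⟨t1.2, t1.1⟩)) h1) (eqv_z.mem rfl h1)))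

theorem hK (h1 : u ∈ V b) (h2 : u ∉ H a b) (h3 : t ∈ st a ⊓ st b) (h4 : t ∉ qv b) :
    H a b ≤ Z a ⊔ Subgroup.zpowers ⁅u, t⁆ ∧ ∀ v ∈ V b, v ∉ H a b → u * v ∈ H a b := by
  obtain ⟨c, e2, n1, -⟩ := h.third b a a
  have kc := h.evn e2 (h.od e k)
  obtain ⟨w, w1, w2⟩ := h.exists_w q2 (h.symm e2) kc
  obtain ⟨e3, n2, n3'⟩ := h.move (h.symm e) e2 n1 ⟨h3.2, h3.1⟩ h4
  have w3 := le_gen (f := Z) e2 w1
  have w4 := h.w_not q2 e k e2 n1 w1 w2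
  have w5 := h.hcomm mn n3 e k w3 h3
  obtain ⟨K, hK⟩ : ∃ K, K = Z a ⊔ Subgroup.zpowers ⁅w, t⁆ := ⟨_, rfl⟩
  have k1 : K ≤ H a b := hK ▸ sup_le (h.hz e k) (Subgroup.zpowers_le.mpr w5)
  have k0 : Z b ≤ K ⊔ Subgroup.zpowers w := (h.z_le_z e k).trans (hK ▸ le_sup_left.trans le_sup_left)
  have k2 : w ∈ K ⊔ Subgroup.zpowers w := Subgroup.mem_sup_right (Subgroup.mem_zpowers w)
  have k3 : K.relIndex (V b) ≤ 2 := by
    refine (Subgroup.relIndex_le_of_le_right (h.gen_le3 (X := K ⊔ Subgroup.zpowers w) (h.symm e) e2 e3 n1 n2 n3'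
      (hK ▸ le_sup_left.trans le_sup_left) (h.zsub q2 (h.symm e2) kc w1 w2 k0 k2) (h.zsub q2 (h.symm e3)
        (h.evn e3 (h.od e k)) (eqv_z.mem rfl w1) (fun x => w2 (eqv_z.mem' h3.2 x)) k0 (conj_mem_of_comm
          (Subgroup.mem_sup_left (hK ▸ Subgroup.mem_sup_right (Subgroup.mem_zpowers _))) k2))) (relIndex_ne_zero _ _)).trans ?_
    rw [relIndex_sup ((Subgroup.zpowers_le.mpr w3).trans (le_norm_of_abelian (h.v_elem mn n3 b).1 (k1.trans inf_le_left)))]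
    exact Nat.le_of_dvd two_pos ((relIndex_dvd_card _ _).trans (card_zpowers w ▸ orderOf_dvd_of_pow_eq_one ((h.z_elem c).2 w w1)))
  refine ⟨fun x hx => (?_ : K ≤ _) (by_contra fun c => w4 ((mul_mem_cancel_left hx).mp (k1 (mul_mem_le k3 hx.1 w3 c
    fun c => w4 (k1 c))))), fun v v1 v2 => k1 (mul_mem_le k3 h1 v1 (fun c => h2 (k1 c)) fun c => v2 (k1 c))⟩
  have k4 := (k1 (mul_mem_le k3 h1 w3 (fun c => h2 (k1 c)) fun c => w4 (k1 c))).2.2 t h3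
  rw [comm_mul (cent_el (abelian_iff.mp (h.v_elem mn n3 b).1 h1) w5.1)] at k4
  exact hK ▸ sup_le le_sup_left (Subgroup.zpowers_le.mpr ((mul_mem_cancel_right (Subgroup.mem_sup_right
    (Subgroup.mem_zpowers _))).mp (Subgroup.mem_sup_left (h.z_le_z e k k4))))

theorem hle (h1 : u ∈ V b) (h2 : u ∉ H a b) (h3 : t ∈ st a ⊓ st b) (h4 : t ∉ qv b)
    (h5 : Z a ≤ X) (h6 : u ∈ X) (h7 : ⁅u, t⁆ ∈ X) : V b ≤ X := fun v hv => by
  obtain ⟨k1, k2⟩ := h.hK q2 mn n3 e k h1 h2 h3 h4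
  have k3 := k1.trans (sup_le h5 (Subgroup.zpowers_le.mpr h7))
  by_cases c : v ∈ H a b
  exacts [k3 c, (mul_mem_cancel_left h6).mp (k3 (k2 v hv c))]

theorem n8_of (h1 : u ∈ V b) (h2 : u ∉ H a b) (h3 : t ∈ st a ⊓ st b) (h4 : t ∉ qv b)
    (h7 : ⁅u, t⁆ ∈ Z a) : N8 G adj ev := fun a' b' e' k' x hx => by
  obtain ⟨g, g1, g2⟩ := h.tr1 (iff_of_true k' k) e' e
  exact eqv_z.mem' g1 ((h.hK q2 mn n3 e k h1 h2 h3 h4).1.trans (sup_le le_rfl (Subgroup.zpowers_le.mpr h7)) (h.h_smul g1 g2 hx))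

theorem vv (h1 : u ∈ V b) (e2 : adj a b') (ne : b ≠ b') (h2 : u ∈ V b') : u ∈ Z a := by
  have key : ∀ {b b'}, adj a b → adj a b' → b ≠ b' → u ∈ V b → u ∈ V b' → u ∈ H a b := fun {b b'} e e2 ne h1 h2 => by
    by_contra c
    obtain ⟨s, s1, s2⟩ := h.exists_q e
    obtain ⟨g, hg, rfl⟩ := h.trans e e2
    exact ne (h.nv mn (h.symm e) (by omega) hg (mem_norm_of_le_cj ((h.hle q2 mn n3 e k h1 c ((h.loc e).q_le s1) s2
      (le_gen (f := Z) (h.symm e2)) h2 (H26.commutatorElement_mem_of_mem_normalizer' (h.eqv_v.norm _ (h.q_le e2 s1)) h2)).trans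
      (h.eqv_v g b).le))).symm
  have k1 := key e e2 ne h1 h2
  exact h.ozq q2 e k (h.v_q mn n3 e h1) (inv_eq (h.v_elem mn n3 b) h1) (fun g hg => mem_cent1_comm.mp (comm_one.mp
    (h.zz e e2 ne k (k1.2.2 g ((h.loc e).q_le hg)) ((key e2 e ne.symm h2 h1).2.2 g ((h.loc e2).q_le hg))))) k1.2.2

theorem kk (e0 : adj o a) (e1 : adj o a') (n1 : a ≠ a') (n2 : o ≠ b) (e' : adj a' b') (n2' : o ≠ b') (h1 : u ∈ H a b)
    (h2 : u ∈ H a' b') (hw : ∃ (c d d' : Ω) (w : G), ev c ∧ adj c d ∧ adj c d' ∧ d ≠ d' ∧ w ∈ qv c ∧ w ∈ qv d ∧ w ∉ qv d') :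
    u ∈ Z a := by
  have ko := h.od (h.symm e0) k
  have k' := h.evn e1 ko
  have m : ∀ {b u}, adj a b → u ∈ H a b → u ∈ H26.commKer (qv a) (Z a) := fun e hu =>
    ⟨eqv_z.norm a (oo_le _ (h.v_q mn n3 e hu.1)), fun g hg => h.z_le_z e k (hu.2.2 g ((h.loc e).q_le hg))⟩
  by_cases c : ∀ s ∈ qv o, s ∈ qv a' → s ∈ qv a
  · have c1 : ∀ s ∈ qv a, s ∈ qv o → s ∈ C_[u] := fun s s1 s2 => by
      obtain ⟨g, g1, g2, g3⟩ := h.tr2 Iff.rfl e0 e1 n1 e1 e0 n1.symm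
      have s3 : s ∈ qv a' := eqv_q.mem' g3 (c _ (eqv_q.mem g1 s2) (eqv_q.mem g2 s1))
      have := h1.2.2 s ((h.loc e).q_le s1)
      exact mem_cent1_comm.mp (comm_one.mp (h.zz (h.symm e0) e n2 k (h.zzz q2 e0 e1 n1 ko (h.z_le_z e k this)
        (h.z_le_z e' k' (h2.2.2 s ((h.loc e').q_le s3)))) this))
    obtain ⟨d, e2, n4, n5⟩ := h.third a b o
    obtain ⟨g, g1, g2⟩ := h.exists_q (h.symm e)
    have g3 := (h.loc' e).q_le g1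
    obtain ⟨c', d1, d2, w, k1, f1, f2, n6, w1, w2, w3⟩ := hw
    obtain ⟨r, r1, r2, r3⟩ := h.tr2 (iff_of_true k1 k) f1 f2 n6 e2 (h.symm e0) n5.symm
    have w4 : r * w * r⁻¹ ∈ qv a := eqv_q.mem r1 w1
    have w5 : r * w * r⁻¹ ∈ C_[u] := by
      have := c1 _ (eqv_q.mem g3.1 w4) (eqv_q.mem (h.swap e e2 (h.symm e0) n4 n2.symm n5.symm g3 g2) (eqv_q.mem r2 w2))
      rw [mem_cent1_comm, ← cj_cent1, mem_cj] at this
      have c2 := cent_el' (h.q_cent a w4) (h.z_le_z e k (h1.2.2 g⁻¹ (inv_mem g3)))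
      rw [mem_cent1_comm]
      simpa [commutatorElement_def, mul_assoc] using mul_mem c2 this
    refine h.ozq q2 e k (h.v_q mn n3 e h1.1) (inv_eq (h.v_elem mn n3 b) h1.1) (fun y hy => ?_) h1.2.2
    by_cases c : y ∈ qv o
    exacts [c1 y hy c, (mul_mem_cancel_right w5).mp (c1 _ (mul_mem hy w4) (h.mul_q e0 ((h.loc' e0).q_le hy)
      ((h.loc' e0).q_le w4) c fun x => w3 (eqv_q.mem' r3 x)))]
  push Not at c
  obtain ⟨s, s1, s2, s3⟩ := c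
  have s4 := (h.loc' (h.symm e0)).q_le s1
  obtain ⟨e2, -, n4⟩ := h.move (h.symm e0) e n2 s4 s3
  have c1 := h2.2.2 s ((h.loc e').q_le s2)
  have c2 := h.h_smul s4.1 rfl h1
  by_cases c : ⁅u, s⁆ ∈ Z o
  · exact h.vv q2 mn n3 e k h1.1 e2 n4 (conj_eq (mem_cent1_comm.mp (comm_one.mp (h.zz (h.symm e1) e' n2' k' c c1))) ▸ c2.1)
  obtain ⟨g, g1, g2⟩ := h.exists_q (h.symm e0)
  refine h.n8_of q2 mn n3 (h.symm e0) k (le_gen (f := Z) e1 (h.z_le_z e' k' c1)) (h.w_not q2 (h.symm e0) k e1 n1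
    (h.z_le_z e' k' c1) c) ((h.loc (h.symm e0)).q_le g1) g2 (And.right (?_ : _ ∈ H26.commKer (qv a) (Z a)) g g1) a b e k h1
  simpa [commutatorElement_def, mul_assoc] using mul_mem (m e h1) (inv_mem (m e2 c2))

end Gc

end Cfsg.Agent.H26.Gs
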