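import Mathlib
import Cfsg.Agent.H26.Gs3

/-!
# Critical distance 2 and 3 (namespace `Cfsg.Agent.H26.Gs`)

`Gc.bound`, `Gc.two`, `Gc.three`, `Gc.beta`.
-/

set_option linter.unusedSectionVars false

namespace Cfsg.Agent.H26.Gs
open Cfsg BG H24 H01 MulAction
open scoped commutatorElement

universe u
variable {G : Type u} [Group G] [Finite G] {A B K X Y : Subgroup G} {g s t u v w x y : G}
  {Ω : Type*} [MulAction G Ω] {adj : Ω → Ω → Prop} {ev : Ω → Prop} {a a' b b' c c' d o : Ω} {m n : ℕ}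
  {f : Ω → Subgroup G} {p q : ℤ → Ω} {i j : ℤ}

local notation "st" => stabilizer G
local notation "qv" a:max => OO (stabilizer G a)
local notation "Z" => Zf G
local notation "V" => Vf G adj
local notation "W" => Wf G adj
local notation "H" => Hf G adj

theorem card_sup_le2 (hn : B ≤ N_(A)) (h1 : K ≤ A) (h2 : K ≤ B) (h3 : Nat.card B ≤ 2 * Nat.card K) :
    Nat.card ↥(A ⊔ B) ≤ 2 * Nat.card A := by
  have := card_sup_mul hn
  have := card_le (le_inf h1 h2)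
  have := card_pos K
  nlinarith

namespace Gc
variable (h : Gc G adj ev) (q2 : Q2 G ev)
include h q2

theorem bound (e : adj a b) (k : ev a) (y1 : Z a ≤ Y) (y2 : Y ≤ qv a) (y3 : st a ⊓ st b ≤ N_(Y)) (y4 : Nat.card Y ≤ 8)
    (t1 : t ∈ st a ⊓ st b) (t2 : t ∉ qv a) (hc : ∀ g ∈ qv a, ⁅t, g⁆ ∈ H26.ncl Y (st a)) : Nat.card (qv a) ≤ 64 := by
  have z4 : Nat.card (Z a) = 4 := by rw [h.zcard e k, q2 b (h.od e k)]
  obtain ⟨I, hI⟩ : ∃ I, I = H26.ncl Y (st a) := ⟨_, rfl⟩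
  have nI : st a ≤ N_(I) := hI ▸ H26.le_normalizer_ncl _ _
  have IQ : I ≤ qv a := hI ▸ H26.ncl_le y2 (st_qv a)
  have cL := (H26.le_commKer_iff.mp (h.res_le (K := H26.commKer (qv a) I) e (H26.le_normalizer_commKer (st_qv a) nI)
    ⟨nI t1.1, hI ▸ hc⟩ t1 t2)).2
  obtain ⟨D, d1, d2⟩ := exists_three (h.s3l e k).res_idx
  have d3 := d2.le_right.trans (H26.pResidualOf_le _)
  have d4 : ∀ x ∈ D, x ≠ 1 → b ≠ x • b := fun x hx x1 c => pg_not_dvd Nat.prime_three Nat.prime_two (h.loc e).syl.pg (by decide)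
    (d1 ▸ card_dvd (le_inf d3 ((BG.zpowers_eq_of_prime (d1 ▸ Nat.prime_three) hx x1).ge.trans (Subgroup.zpowers_le.mpr c.symm))))
  obtain ⟨d, d5, d6⟩ := exists_mem_ne_one (ne_bot_of_prime (d1 ▸ Nat.prime_three : (Nat.card D).Prime))
  have d7 : d • b ≠ d⁻¹ • b := fun c => d4 (d * d) (mul_mem d5 d5) (fun c => d6 (by
    have := pow_card_eq_one d5
    rwa [d1, pow_succ, pow_two, c, one_mul] at this)) (by rw [mul_smul, c, smul_inv_smul])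
  have gI : ∀ X, Y ≤ X → cj d Y ≤ X → cj d⁻¹ Y ≤ X → I ≤ X := fun X x1 x2 x3 => hI ▸ H26.ncl_le_iff.mpr fun g hg => by
    have k : ∀ y ∈ st a, g • b = y • b → cj g Y = cj y Y := fun y hy c => cj_eq_cj_iff.mpr (y3 ⟨(st a).mul_mem ((st a).inv_mem hy) hg,
      mem_stabilizer_iff.mpr (by rw [mul_smul, c, inv_smul_smul])⟩)
    change cj g Y ≤ X
    rcases h.four e (h.adj_of e (d3 d5)) (h.adj_of e (d3 (inv_mem d5))) (h.adj_of e hg) (d4 d d5 d6)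
      (d4 _ (inv_mem d5) (inv_ne_one.mpr d6)) d7 with c | c | c
    exacts [by rwa [k 1 (one_mem _) (by simpa using c), cj_one], k d (d3 d5) c ▸ x2, k _ (d3 (inv_mem d5)) c ▸ x3]
  have cY : ∀ x ∈ D, Z a ≤ cj x Y ∧ cj x Y ≤ qv a ∧ qv a ≤ N_(cj x Y) := fun x hx =>
    ⟨(cj_of_mem_norm (eqv_z.norm a (d3 hx))).ge.trans (cj_mono x y1), cj_le_of_mem_norm y2 (st_qv a (d3 hx)), by
      rw [← cj_norm]; exact (cj_of_mem_norm (st_qv a (d3 hx))).ge.trans (cj_mono x ((h.loc e).q_le.trans y3))⟩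
  have cI : Nat.card I ≤ 32 := by
    have n1 := (h.loc e).q_le.trans y3
    have c1 := card_sup_le2 ((cY d d5).2.1.trans n1) y1 (cY d d5).1 (by rw [card_cj]; omega)
    have c2 := card_sup_le2 ((cY _ (inv_mem d5)).2.1.trans (norm_sup n1 (cY d d5).2.2)) (y1.trans le_sup_left)
      (cY _ (inv_mem d5)).1 (by rw [card_cj]; omega)
    have := card_le (gI _ (le_sup_left.trans le_sup_left) (le_sup_right.trans le_sup_left) le_sup_right)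
    omega
  obtain ⟨y, y5, y6⟩ : ∃ y, Y ≤ Z a ⊔ Subgroup.zpowers y ∧ ∀ c ∈ qv a, ⁅y, c⁆ ∈ Z a := by
    by_cases c : Y ≤ Z a
    · exact ⟨1, c.trans le_sup_left, fun _ _ => by simp⟩
    obtain ⟨y, c1, c2⟩ := SetLike.not_le_iff_exists.mp c
    have i : (Z a).relIndex Y ≤ 2 := by have := BG.card_mul_relIndex y1; rw [z4] at this; omega
    refine ⟨y, (le_sup_of_idx_two i c1 c2).trans (sup_le_sup_right inf_le_right _), fun g hg => ?_⟩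
    simpa [commutatorElement_def, mul_assoc] using mul_mem_le i c1 (conj_mem_of_norm (y3 ((h.loc e).q_le hg)) (inv_mem c1)) c2
      fun c => c2 (by simpa using eqv_z.mem' (oo_le _ hg) c)
  have LD : pResidualOf 2 (st a) ≤ I ⊔ D := by
    have := H26.pResidualOf_mono (p := 2) (d2.sup.ge.trans (sup_le_sup ((h.s3l e k).oo_res.le.trans inf_le_right)
      (le_sup_right : D ≤ I ⊔ D)))
    rw [H26.pResidualOf_idem, H26.pResidualOf_sup_eq (oo_pg _) (le_norm_of_comm_le ((comm_sup_le (IQ.trans ((oo_le _).trans nI))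
      (d3.trans nI) (comm_le_left ((oo_le _).trans nI)) ((comm_mono d2.le_right le_rfl).trans cL)).trans le_sup_left))] at this
    exact this.trans (H26.pResidualOf_le _)
  have E : qv a ⊓ C_(pResidualOf 2 (st a)) = ⊥ := by_contra fun c => by
    obtain ⟨u, ⟨u1, u2⟩, u3⟩ := exists_mem_ne_one (H26.inf_omegaZ_ne_bot (h.loc e).syl.pg (inf_le_left.trans (h.loc e).q_le)
      (inf_le_left.trans (norm_inf (st_qv a) (norm_cent (H26.le_normalizer_pResidualOf _)))) c)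
    have u4 : u ∈ Z b := (h.z_odd e k).ge u2
    exact u3 (h.zz e (h.adj_of e (d3 d5)) (d4 d d5 d6) k u4 (conj_eq (cent_el' u1.2 (d2.le_right d5)) ▸ eqv_z.mem rfl u4))
  have cC : Nat.card ↥(qv a ⊓ C_(D)) ≤ 4 := z4 ▸ Nat.card_le_card_of_injective
    (fun c : ↥(qv a ⊓ C_(D)) => (⟨⁅y, c⁆, y6 _ c.2.1⟩ : Z a)) fun c c' e => by
      obtain ⟨r, hr⟩ : ∃ r : ↥(qv a ⊓ C_(D)), r = c'⁻¹ * c := ⟨_, rfl⟩
      have r1 : Y ≤ C_[(r : G)] := y5.trans (sup_le (le_cent1_iff.mpr (h.q_cent a r.2.1)) (Subgroup.zpowers_le.mpr (by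
        have e : ⁅y, (c : G)⁆ = ⁅y, (c' : G)⁆ := congrArg Subtype.val e
        rw [← comm_one, hr, Subgroup.coe_mul, Subgroup.coe_inv, show ⁅y, (c' : G)⁻¹ * c⁆ =
          y * (c' : G)⁻¹ * y⁻¹ * (⁅y, (c : G)⁆ * ⁅y, (c' : G)⁆⁻¹) * (y * (c' : G) * y⁻¹) by simp only [commutatorElement_def]; group, e]
        group)))
      have r2 : ∀ x ∈ D, cj x Y ≤ C_[(r : G)] := fun x hx => by
        rw [← conj_eq (cent_el' r.2.2 hx), ← cj_cent1]; exact cj_mono x r1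
      have r3 : (r : G) = 1 := E.le ⟨r.2.1, le_cent1_iff.mp (LD.trans (sup_le (gI _ r1 (r2 d d5) (r2 _ (inv_mem d5)))
        (le_cent1_iff.mpr r.2.2)))⟩
      exact (inv_mul_eq_one.mp (hr ▸ Subtype.ext r3)).symm
  have c1 := card_le ((coprime_comm_sup_cent (d3.trans (st_qv a)) (pg_coprime Nat.prime_two (oo_pg _) (by rw [d1]; decide)).symm
    (.inr (pg_sol Nat.prime_two (oo_pg _)))).ge.trans (sup_le_sup_right ((comm_comm _ _).le.trans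
      ((comm_mono d2.le_right le_rfl).trans cL)) _))
  have c2 := card_sup_mul (K := I) (inf_le_left.trans ((oo_le _).trans nI) : qv a ⊓ C_(D) ≤ _)
  by_cases c : I ⊓ (qv a ⊓ C_(D)) = ⊥
  · have c3 := (semiregular_prime (d1 ▸ Nat.prime_three) (eq_bot_mono c (le_inf inf_le_left (inf_le_inf_right _ IQ)))).card_dvd
      (d3.trans nI)
    obtain ⟨j, c4⟩ := pg_card Nat.prime_two (pg_le (oo_pg _) IQ)
    have c5 : j ≤ 5 := (Nat.pow_le_pow_iff_right one_lt_two).mp (c4 ▸ cI)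
    rw [c, Subgroup.card_bot] at c2
    rw [d1, c4] at c3
    have : Nat.card I ≤ 16 := by rw [c4]; interval_cases j <;> omega
    nlinarith
  · have := one_lt_card c
    nlinarith

variable (mn : Mn G adj n) (cr : Cr G adj ev n p)
include mn cr

omit q2 in
theorem two (hn : n = 2) : Nat.card (qv (p 0)) ≤ 64 := by
  have q2 := h.q2_even mn cr (by omega) hn.ge
  obtain ⟨t, t1, t2⟩ := SetLike.not_le_iff_exists.mp (h.crit_rev mn cr (by omega))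
  obtain ⟨l, k, -⟩ := cr
  subst hn
  have t3 : t ∈ V (p 1) := le_gen (f := Z) (l.ad 1 2) t1
  have t4 := (h.loc' (l.ad 0 1)).q_le (h.lvq mn l 1 1 (by omega) t3)
  refine h.bound q2 (Y := V (p 1) ⊓ qv (p 0)) (l.ad 0 1) k (le_inf (le_gen (f := Z) (l.ad 1 0)) (h.z_le_q _)) inf_le_right
    (norm_inf (inf_le_right.trans (h.eqv_v.norm _)) (inf_le_left.trans (st_qv _))) ?_ t4 t2 fun g hg => H26.le_ncl _ _
      ⟨H26.commutatorElement_mem_of_mem_normalizer' (h.eqv_v.norm _ (h.q_le (l.ad 0 1) hg)) t3,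
        H26.commutatorElement_mem_of_mem_normalizer (st_qv _ t4.1) hg⟩
  obtain ⟨d, e, n1, n2⟩ := h.third (p 1) (p 0) (p 2)
  have ko := h.lod l k 1
  have c0 : ∀ {c}, adj (p 1) c → Z (p 1) ≤ Z c ∧ Nat.card (Z c) = 4 ∧ ∀ {c'}, adj (p 1) c' → Z c ≤ N_(Z c') := fun e =>
    ⟨h.z_le_z (h.symm e) (h.evn e ko), by rw [h.zcard (h.symm e) (h.evn e ko), q2 _ ko], fun e' =>
      (h.one_ne (h.symm e)).trans ((h.q_le e').trans (eqv_z.norm _))⟩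
  obtain ⟨a1, a2, -⟩ := c0 (l.ad 1 0)
  obtain ⟨b1, b2, b3⟩ := c0 (l.ad 1 2)
  obtain ⟨c1, c2, c3⟩ := c0 e
  have d1 := card_sup_le2 (b3 (l.ad 1 0)) a1 b1 (by rw [b2, q2 _ ko])
  have d2 := card_sup_le2 (norm_sup (c3 (l.ad 1 0)) (c3 (l.ad 1 2))) (a1.trans le_sup_left) c1 (by rw [c2, q2 _ ko])
  have d3 := card_le (h.gen_le3 (f := Z) (l.ad 1 0) (l.ad 1 2) e (l.ne _ _) n1 n2 (le_sup_left.trans le_sup_left)
    (le_sup_right.trans le_sup_left) le_sup_right)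
  have d4 := card_inf_mul_relIndex (qv (p 0)) (V (p 1))
  have d5 := relIndex_ne_zero (qv (p 0)) (V (p 1))
  have d6 := mt Subgroup.relIndex_eq_one.mp fun c : V (p 1) ≤ qv (p 0) => t2 (c t3)
  rw [inf_comm]
  change Nat.card (V (p 1)) ≤ _ at d3
  nlinarith [show 2 ≤ (qv (p 0)).relIndex (V (p 1)) by omega]

omit q2 in
theorem three (hn : n = 3) : Nat.card (qv (p 0)) ≤ 64 := by
  have q2 := h.q2_odd mn cr (by omega) (by omega)
  obtain ⟨l, k, nz⟩ := cr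
  subst hn
  obtain ⟨x, x1, x2⟩ := SetLike.not_le_iff_exists.mp nz
  change x ∉ qv (p 3) at x2
  have k2 := h.lev l k 2
  have x3 : x ∈ V (p 1) := le_gen (f := Z) (l.ad 1 0) x1
  have x4 : x ∈ qv (p 2) := h.zq mn l _ _ (by omega) x1
  have N : N8 G adj ev := by
    obtain ⟨w, w1, w2⟩ := h.exists_w q2 (l.ad 4 3) (h.lev l k 4)
    have w3 : w ∈ V (p 3) := le_gen (f := Z) (l.ad 3 4) w1
    exact h.n8_of q2 mn le_rfl (l.ad 2 3) k2 w3 (h.w_not q2 (l.ad 2 3) k2 (l.ad 3 4) (l.ne _ _) w1 w2)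
      ((h.loc (l.ad 2 3)).q_le x4) x2 (h.vv q2 mn le_rfl (l.ad 2 3) k2 (H26.commutatorElement_mem_of_mem_normalizer'
        (h.eqv_v.norm _ (h.q_le (l.ad 2 3) x4)) w3) (l.ad 2 1) (l.ne _ _) (H26.commutatorElement_mem_of_mem_normalizer
        (h.eqv_v.norm _ (h.lvs mn l 3 1 (by omega) w3)) x3))
  have A : ∀ {c b b'}, ev c → adj c b → adj c b' → b ≠ b' → ∃ v ∈ V b, v ∉ qv b' := fun kc e1 e2 ne => by
    obtain ⟨g, -, g2, g3⟩ := h.tr2 (iff_of_true k2 kc) (l.ad 2 1) (l.ad 2 3) (l.ne _ _) e1 e2 ne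
    exact ⟨_, h.eqv_v.mem g2 x3, fun c => x2 (eqv_q.mem' g3 c)⟩
  have B : ∀ {a b u v}, adj a b → ev a → u ∈ V b → v ∈ V b → u ∉ Z a → v ∉ Z a → u * v ∈ Z a := fun e k u1 v1 u2 v2 => by
    obtain ⟨s, s1, s2⟩ := h.exists_q e
    exact N _ _ e k ((h.hK q2 mn le_rfl e k u1 (fun c => u2 (N _ _ e k c)) ((h.loc e).q_le s1) s2).2 _ v1 fun c => v2 (N _ _ e k c))
  have C : ∀ {b u t}, adj (p 2) b → u ∈ V b → t ∈ qv (p 2) → ⁅u, t⁆ ∈ Z (p 2) := fun e u1 t1 =>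
    N _ _ e k2 (h.hcomm mn le_rfl e k2 u1 ((h.loc e).q_le t1))
  have D : ∀ {b u t}, adj (p 2) b → u ∈ V b → u ∉ Z (p 2) → t ∈ qv (p 2) → t ∉ qv b → ⁅u, t⁆ ∉ Z b := fun e u1 u2 t1 t2 c =>
    u2 (N _ _ e k2 (h.hmem mn le_rfl e k2 u1 ((h.loc e).q_le t1) t2 c))
  obtain ⟨d, e, n1, n2⟩ := h.third (p 2) (p 1) (p 3)
  obtain ⟨v, v1, v2⟩ := A k2 (l.ad 2 3) (l.ad 2 1) (l.ne _ _)
  obtain ⟨v', v3, v4⟩ := A k2 e (l.ad 2 1) n1.symm
  have v5 := h.v_q mn le_rfl (l.ad 2 3) v1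
  have v6 := h.v_q mn le_rfl e v3
  have z1 : ∀ {u b}, adj (p 2) b → u ∉ qv b → u ∉ Z (p 2) := fun e c c' => c (h.one_ne e c')
  have t1 : v * v' ∈ qv (p 1) := h.mul_q (l.ad 1 2) ((h.loc' (l.ad 1 2)).q_le v5) ((h.loc' (l.ad 1 2)).q_le v6) v2 v4
  have t2 : v * v' ∉ qv (p 0) := fun c => by
    have x5 : x ∉ qv d := fun c => by
      obtain ⟨u, u1, u2⟩ := A k2 (l.ad 2 1) e n1
      exact u2 ((mul_mem_cancel_left c).mp (h.one_ne e (B (l.ad 2 1) k2 x3 u1 (z1 (l.ad 2 3) x2) (z1 e u2))))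
    have c1 := comm_one.mpr (cent_el (h.q_cent _ c) x1)
    rw [comm_mul (cent_el (h.q_cent _ v5) (C e v3 x4))] at c1
    obtain ⟨b, b1, b2⟩ := h.zmem q2 k2 (C (l.ad 2 3) v1 x4)
    rcases h.four (l.ad 2 1) (l.ad 2 3) e b1 (l.ne _ _) n1 n2 with rfl | rfl | rfl
    exacts [D b1 x3 (z1 (l.ad 2 3) x2) v5 v2 (comm_symm b2), D b1 v1 (z1 (l.ad 2 1) v2) x4 x2 b2,
      D b1 v3 (z1 (l.ad 2 1) v4) x4 x5 (eq_inv_of_mul_eq_one_left c1 ▸ inv_mem b2)]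
  have t3 := (h.loc' (l.ad 0 1)).q_le t1
  have c1 : ∀ g ∈ qv (p 1), ⁅v * v', g⁆ ∈ W (p 0) := fun g hg => by
    refine le_gen (f := V) (l.ad 0 1) (le_gen (f := Z) (l.ad 1 2) ?_)
    by_cases c : g ∈ qv (p 2)
    · rw [comm_mul (cent_el (h.q_cent _ v5) (C e v3 c))]; exact mul_mem (C e v3 c) (C (l.ad 2 3) v1 c)
    have g1 := (h.loc' (l.ad 2 1)).q_le hg
    rw [show ⁅v * v', g⁆ = ⁅v, v'⁆ * (v' * (v * (g * v'⁻¹ * g⁻¹)) * v'⁻¹) * (v' * (g * v⁻¹ * g⁻¹)) by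
      simp only [commutatorElement_def]; group]
    exact mul_mem (mul_mem (C (l.ad 2 3) v1 v6) (eqv_z.mem (oo_le _ v6) (B (l.ad 2 3) k2 v1 (h.eqv_v.mem
      (h.swap (l.ad 2 1) e (l.ad 2 3) n1 (l.ne _ _) n2.symm g1 c) (inv_mem v3)) (z1 (l.ad 2 1) v2) fun c =>
        z1 (l.ad 2 1) v4 (by simpa using eqv_z.mem' g1.1 c)))) (B e k2 v3 (h.eqv_v.mem
      (h.swap (l.ad 2 1) (l.ad 2 3) e (l.ne _ _) n1 n2 g1 c) (inv_mem v1)) (z1 (l.ad 2 1) v4) fun c =>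
        z1 (l.ad 2 1) v2 (by simpa using eqv_z.mem' g1.1 c))
  obtain ⟨u, u1, u2⟩ := A k (l.ad 0 (-1)) (l.ad 0 1) (l.ne _ _)
  refine h.bound q2 (l.ad 0 1) k (le_gen (f := Z) (l.ad 1 0)) (h.v_q mn le_rfl (l.ad 0 1)) (inf_le_right.trans (h.eqv_v.norm _))
    ?_ t3 t2 fun g hg => (gen_le fun b e => ?_ : W (p 0) ≤ _) ?_
  · have x5 := z1 (l.ad 2 3) x2
    refine (card_le fun y hy => (?_ : y ∈ Z (p 2) ⊔ Subgroup.zpowers x)).trans (Nat.le_of_dvd (by decide)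
      ((card_sup_dvd (Subgroup.zpowers_le.mpr (eqv_z.norm _ (oo_le _ x4)))).trans ?_))
    · by_cases c : y ∈ Z (p 2)
      exacts [Subgroup.mem_sup_left c, (mul_mem_cancel_left (Subgroup.mem_sup_right (Subgroup.mem_zpowers x))).mp
        (Subgroup.mem_sup_left (B (l.ad 2 1) k2 x3 hy x5 c))]
    · rw [h.zcard (l.ad 2 1) k2, q2 _ (h.lod l k 1), card_zpowers]
      exact Nat.mul_dvd_mul_left 4 (orderOf_dvd_of_pow_eq_one ((h.z_elem _).2 x x1))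
  · obtain ⟨g, hg, rfl⟩ := h.trans (l.ad 0 1) e
    exact (h.eqv_v g _).le.trans (H26.cj_le_ncl hg)
  by_cases c : g ∈ qv (p 1)
  · exact c1 g c
  have u3 := h.v_q mn le_rfl (l.ad 0 (-1)) u1
  rw [show ⁅v * v', g⁆ = ⁅v * v', g * u⁆ * (g * u * ⁅v * v', u⁻¹⁆ * (g * u)⁻¹) by simp only [commutatorElement_def]; group]
  exact mul_mem (c1 _ (h.mul_q (l.ad 1 0) ((h.loc' (l.ad 1 0)).q_le hg) ((h.loc' (l.ad 1 0)).q_le u3) c u2))
    (h.eqv_w.mem (oo_le _ (mul_mem hg u3)) (H26.commutatorElement_mem_of_mem_normalizer (h.eqv_w.norm _ t3.1)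
      (inv_mem (le_gen (f := V) (l.ad 0 (-1)) u1))))

theorem beta (hn : n % 2 = 1) (n3 : 3 ≤ n) (hb : ∀ v ∈ V (p n), v ∈ qv (p 1) → v ∈ qv (p 0)) (x1 : x ∈ Z (p 0))
    (x2 : x ∉ Z (p 1)) (w1 : w ∈ Z (p (n + 1))) (w2 : w ∉ Z (p n)) :
    x ∉ qv (p n) ∧ w ∉ qv (p 1) ∧ ⁅w, x⁆ ∈ H (p (n - 1)) (p n) ∧ ⁅w, x⁆ ∉ Z (p n) ∧ ⁅w, x⁆ ∈ H (p 2) (p 1) ∧ ⁅w, x⁆ ∉ Z (p 1) ∧
      (⁅w, x⁆ ∈ Z (p (n - 1)) → N8 G adj ev) ∧ (⁅w, x⁆ ∈ Z (p 2) → N8 G adj ev) := by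
  obtain ⟨l, k, nz⟩ := cr
  have x3 : x ∉ qv (p n) := fun c => nz (h.zsub q2 (l.ad 0 1) k x1 x2 (h.zq mn l _ _) c)
  have e1 := l.ad (n - 1) n
  have k1 := h.lev l k (n - 1)
  have k2 := h.lev l k 2
  have tx : x ∈ st (p (n - 1)) ⊓ st (p n) := ⟨h.zs mn l _ _ (by omega) x1, h.zs mn l _ _ (by omega) x1⟩
  have tw : w ∈ st (p 2) ⊓ st (p 1) := ⟨h.zs mn l _ _ (by omega) w1, h.zs mn l _ _ (by omega) w1⟩
  have w3 : w ∈ V (p n) := le_gen (f := Z) (l.ad _ _) w1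
  have x4 : x ∈ V (p 1) := le_gen (f := Z) (l.ad _ _) x1
  have w4 := h.w_not q2 e1 k1 (l.ad _ _) (l.ne _ _) w1 w2
  have x5 := h.w_not q2 (l.ad 2 1) k2 (l.ad _ _) (l.ne _ _) x1 x2
  have y1 : ⁅w, x⁆ ∉ Z (p n) := fun c => w4 (h.hmem mn n3 e1 k1 w3 tx x3 c)
  have w5 : w ∉ qv (p 1) := fun c => y1 (comm_one.mpr (cent_el (h.q_cent _ (hb w w3 c)) x1) ▸ one_mem _)
  exact ⟨x3, w5, h.hcomm mn n3 e1 k1 w3 tx, y1, comm_symm (h.hcomm mn n3 (l.ad 2 1) k2 x4 tw),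
    fun c => x5 (h.hmem mn n3 (l.ad 2 1) k2 x4 tw w5 (comm_symm c)), h.n8_of q2 mn n3 e1 k1 w3 w4 tx x3,
    fun c => h.n8_of q2 mn n3 (l.ad 2 1) k2 x4 x5 tw w5 (comm_symm c)⟩

end Gc

end Cfsg.Agent.H26.Gs
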