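import Mathlib
import Cfsg.Agent.H26.Gs4

/-!
# Odd critical distance at least 5 is impossible (namespace `Cfsg.Agent.H26.Gs`)

`Gc.s_false`, `Gc.ns_false`, `Gc.main`.
-/

set_option linter.unusedSectionVars false

namespace Cfsg.Agent.H26.Gs
open Cfsg BG H24 H01 MulAction
open scoped commutatorElement

universe u
variable {G : Type u} [Group G] [Finite G] {A B K X Y : Subgroup G} {g s t u v w x y : G}
  {Ω : Type*} [MulAction G Ω] {adj : Ω → Ω → Prop} {ev : Ω → Prop} {a a' b b' c c' d o : Ω} {m n : ℕ}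
  {f : Ω → Subgroup G} {p q : ℤ → Ω} {i j : ℤ}

local notation "st" => stabilizer G
local notation "qv" a:max => OO (stabilizer G a)
local notation "Z" => Zf G
local notation "V" => Vf G adj
local notation "W" => Wf G adj
local notation "H" => Hf G adj

theorem sat {N : ℤ} (S : ∀ p, Ln adj p → ev (p 0) → Sg G p N) (l : Ln adj p) (i : ℤ) (k : ev (p i))
    (h1 : ∀ j, i ≤ j → j ≤ i + N → g ∈ st (p j)) : g ∈ qv (p i) := by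
  obtain ⟨q, lq, hq⟩ := l.sh i
  exact hq 0 i (by omega) ▸ S q lq (hq 0 i (by omega) ▸ k) g fun j _ _ => hq j (j + i) rfl ▸ h1 _ (by omega) (by omega)

namespace Gc
variable (h : Gc G adj ev) (q2 : Q2 G ev) (mn : Mn G adj n) (hn : n % 2 = 1) (n5 : 5 ≤ n)
include h q2 mn hn n5

theorem beta' (cr : Cr G adj ev n p) (hb : ∀ v ∈ V (p n), v ∈ qv (p 1) → v ∈ qv (p 0)) :
    ∃ x ∈ Z (p 0), ∃ w ∈ Z (p (n + 1)), x ∉ Z (p 1) ∧ w ∉ Z (p n) ∧ x ∉ qv (p n) ∧ w ∉ qv (p 1) ∧ ⁅w, x⁆ ∈ H (p (n - 1)) (p n) ∧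
      ⁅w, x⁆ ∉ Z (p n) ∧ ⁅w, x⁆ ∈ H (p 2) (p 1) ∧ ⁅w, x⁆ ∉ Z (p 1) ∧ (⁅w, x⁆ ∈ Z (p (n - 1)) → N8 G adj ev) ∧
      (⁅w, x⁆ ∈ Z (p 2) → N8 G adj ev) := by
  obtain ⟨x, x1, x2⟩ := h.exists_w q2 (cr.l.ad 0 1) cr.k
  obtain ⟨w, w1, w2⟩ := h.exists_w q2 (cr.l.ad (n + 1) n) (h.lev cr.l cr.k _)
  exact ⟨x, x1, w, w1, x2, w2, h.beta q2 mn cr hn (by omega) hb x1 x2 w1 w2⟩

section S
variable (S : ∀ p, Ln adj p → ev (p 0) → Sg G p (n - 2))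
include S

omit q2 hn in
theorem s_beta (cr : Cr G adj ev n p) : ∀ v ∈ V (p n), v ∈ qv (p 1) → v ∈ qv (p 0) := fun v v1 v2 =>
  sat S cr.l 0 cr.k fun j _ _ => by
    rcases (by omega : j = 0 ∨ 1 ≤ j) with rfl | _
    exacts [h.q_le (cr.l.ad 1 0) v2, h.lvs mn cr.l n j (by omega) v1]

theorem s_sh (cr : Cr G adj ev n p) : ∃ r, Cr G adj ev n r ∧ ∀ i j, j = i + 2 → r i = p j := by
  obtain ⟨x, x1, w, w1, -, -, x3, w3, -⟩ := h.beta' q2 mn hn n5 cr (h.s_beta mn n5 S cr)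
  obtain ⟨l, k, -⟩ := cr
  obtain ⟨r, lr, hr⟩ := l.sh 2
  refine ⟨r, ⟨lr, hr 0 2 rfl ▸ h.lev l k 2, fun c0 => ?_⟩, hr⟩
  rw [hr 0 2 rfl, hr n _ rfl] at c0
  have E : V (p (n + 2)) ≤ qv (p 3) := gen_le fun c e => by_contra fun d => by
    obtain ⟨q, lq, q1, q2'⟩ := h.splice l e fun e => d (e ▸ h.zq mn l _ _)
    obtain ⟨r, lr, hr⟩ := lq.rev (n + 3)
    have cr : Cr G adj ev n r := ⟨lr, by rw [hr 0 _ rfl, q2' _ (by omega)]; exact h.evn e (h.lod l k _), by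
      rwa [hr 0 _ rfl, q2' _ (by omega), hr _ 3 (by omega), q1 _ (by omega)]⟩
    obtain ⟨-, -, u, u1, -, -, -, u2, -⟩ := h.beta' q2 mn hn n5 cr (h.s_beta mn n5 S cr)
    rw [hr _ (n + 2) (by omega), q1 _ le_rfl] at u2
    rw [hr _ 2 (by omega), q1 _ (by omega)] at u1
    exact u2 (c0 u1)
  have tx : x ∈ st (p n) := h.zs mn l 0 n (by omega) x1
  obtain ⟨e1, -, n2⟩ := h.move (l.ad n (n - 1)) (l.ad n (n + 1)) (l.ne _ _) ⟨tx, h.zs mn l _ _ (by omega) x1⟩ x3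
  have F0 : V (p n) ≤ W (x • p (n + 1)) := le_gen (f := V) (h.symm e1)
  have A : ∀ a ∈ V (p (n + 2)), a ∈ st (p 1) ⊓ st (p 2) ∧ (a ∈ qv (p 1) → a ∈ W (x • p (n + 1))) := fun a ha => by
    have a1 : ∀ j : ℤ, 2 ≤ j → j ≤ n → a ∈ st (p j) := fun j _ _ => by
      rcases (by omega : j = 2 ∨ 3 ≤ j) with rfl | _
      exacts [h.q_le (l.ad 3 2) (E ha), h.lvs mn l _ j (by omega) ha]
    refine ⟨(h.loc' (l.ad 1 2)).q_le (sat S l 2 (h.lev l k 2) fun j _ _ => a1 j (by omega) (by omega)), fun c => ?_⟩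
    rw [← conj_eq (cent_el' (h.q_cent _ (sat (g := a) S l 0 k fun j _ _ => ?_)) x1)]
    · exact h.eqv_w.mem rfl (le_gen (f := V) (l.ad _ _) ha)
    rcases (by omega : j = 0 ∨ j = 1 ∨ 2 ≤ j) with rfl | rfl | _
    exacts [h.q_le (l.ad 1 0) c, oo_le _ c, a1 j (by omega) (by omega)]
  have F : V (p (n + 2)) ≤ W (x • p (n + 1)) := fun a ha => by
    by_cases c : a ∈ qv (p 1)
    · exact (A a ha).2 c
    have w4 : w ∈ V (p (n + 2)) := le_gen (f := Z) (l.ad _ _) w1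
    exact (mul_mem_cancel_right (F0 (le_gen (f := Z) (l.ad _ _) w1))).mp
      ((A _ (mul_mem ha w4)).2 (h.mul_q (l.ad 1 2) (A a ha).1 (A w w4).1 c w3))
  obtain ⟨t, t1, t2⟩ := h.exists_q (l.ad n (n + 1))
  obtain ⟨e2, n3, n4⟩ := h.move (l.ad (n + 1) n) (l.ad (n + 1) (n + 2)) (l.ne _ _) ((h.loc' (l.ad (n + 1) n)).q_le t1) t2
  exact n2 (h.nf h.eqv_w (l.ad (n + 1) n) (h.w_ne _) (h.dwq mn (.refl 0 _) (by omega)) tx (mem_norm_of_le_cj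
    ((h.gen_le3 (l.ad (n + 1) n) (l.ad _ (n + 2)) e2 (l.ne _ _) n3 n4 F0 F
      (h.eqv_v.le h.eqv_w rfl (h.q_le e1 t1) F)).trans (h.eqv_w x _).le))).symm

theorem s_key (cr : Cr G adj ev n p) : N8 G adj ev ∧ Z (p n) ≤ Z (p 4) := by
  obtain ⟨x, x1, w, w1, -, -, x3, w3, -⟩ := h.beta' q2 mn hn n5 cr (h.s_beta mn n5 S cr)
  obtain ⟨r, cr', hr⟩ := h.s_sh q2 mn hn n5 S cr
  obtain ⟨l, k, -⟩ := cr
  obtain ⟨a, -, u, -, -, -, -, -, y1, y2, y3, -, y5, -⟩ := h.beta' q2 mn hn n5 cr' (h.s_beta mn n5 S cr')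
  generalize ⁅u, a⁆ = y at *
  rw [hr _ (n + 1) (by omega)] at y1 y5
  rw [hr n _ rfl] at y1
  rw [hr 2 4 rfl, hr 1 3 rfl] at y3
  have tx : x ∈ st (p n) := h.zs mn l 0 n (by omega) x1
  obtain ⟨e1, -, n2⟩ := h.move (l.ad n (n - 1)) (l.ad n (n + 1)) (l.ne _ _) ⟨tx, h.zs mn l _ _ (by omega) x1⟩ x3
  have y6 := conj_eq (cent_el (h.lzc mn l 0 3 (by omega) x1) y3.1)
  have y7 : y ∈ Z (p (n + 1)) := h.kk q2 mn (by omega) (l.ad (n + 1) (n + 2)) (h.lev l k _) (l.ad n _) e1 n2 (l.ne _ _)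
    (h.smul x (l.ad (n + 1) (n + 2))) (fun c => l.ne n (n + 2) (by omega) (smul_left_cancel x ((mem_stabilizer_iff.mp tx).trans c)))
    y1 (y6 ▸ h.h_smul rfl rfl y1) ⟨p 2, p 3, p 1, w, h.lev l k 2, l.ad _ _, l.ad _ _, l.ne _ _, h.zq mn l _ _ (by omega) w1,
      h.zq mn l _ _ (by omega) w1, w3⟩
  exact ⟨y5 y7, zle q2 (h.lod l k _) (h.zzz q2 (l.ad n (n + 1)) e1 n2 (h.lod l k _) y7 (y6 ▸ eqv_z.mem rfl y7))
    (fun c => y2 (c ▸ one_mem _)) (y5 y7 _ _ (l.ad 4 3) (h.lev l k 4) y3)⟩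

theorem s_false (cr : Cr G adj ev n p) : False := by
  obtain ⟨x, x1, w, w1, -, w2, x3, -, y1, y2, -⟩ := h.beta' q2 mn hn n5 cr (h.s_beta mn n5 S cr)
  rcases (by omega : n = 5 ∨ 7 ≤ n) with n6 | n7
  · have N := (h.s_key q2 mn hn n5 S cr).1
    obtain ⟨l, k, -⟩ := cr
    obtain ⟨t, t1, t2⟩ := h.exists_q (l.ad n (n - 1))
    have kn := h.lod l k n
    have A : ∀ {c u}, adj (p n) c → p (n - 1) ≠ c → u ∈ Z c → u ∉ Z (p n) → ⁅u, t⁆ ∈ Z (p n) ∧ ⁅u, t⁆ ≠ 1 := fun e ne u1 u2 => by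
      have t3 := (h.loc' (h.symm e)).q_le t1
      refine ⟨h.zt (h.symm e) (h.evn e kn) u1 t3, fun c => u2 (h.z_fix (h.symm e) (h.evn e kn) u1 t3 (fun d => t2 ?_)
        (comm_one.mp c))⟩
      obtain ⟨q, lq, q1, q3⟩ := h.splice l e ne
      rw [← q3 _ rfl] at d
      rw [← q1 _ le_rfl] at t1
      rw [← q1 _ (by omega)]
      refine sat S lq _ (q1 (n - 1) (by omega) ▸ h.lev l k _) fun j _ _ => ?_
      rcases (by omega : j = n - 1 ∨ j = n ∨ j = n + 1 ∨ j = n + 2) with rfl | rfl | rfl | rfl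
      exacts [h.q_le (lq.ad _ _) t1, oo_le _ t1, oo_le _ d, h.q_le (lq.ad _ _) d]
    have tx : x ∈ st (p n) := h.zs mn l 0 n (by omega) x1
    obtain ⟨e1, n1, -⟩ := h.move (l.ad n (n - 1)) (l.ad n (n + 1)) (l.ne _ _) ⟨tx, h.zs mn l _ _ (by omega) x1⟩ x3
    obtain ⟨a1, a2⟩ := A (l.ad _ _) (l.ne _ _) w1 w2
    obtain ⟨b1, b2⟩ := A e1 n1 (eqv_z.mem rfl (inv_mem w1)) fun c => w2 (by simpa using eqv_z.mem' tx c)
    refine y2 (h.z_fix (l.ad (n - 1) n) (h.lev l k _) (N _ _ (l.ad _ _) (h.lev l k _) y1) ((h.loc' (l.ad _ _)).q_le t1) t2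
      (comm_one.mp ?_))
    rw [show ⁅w, x⁆ = w * (x * w⁻¹ * x⁻¹) by simp only [commutatorElement_def]; group,
      comm_mul (cent_el (h.z_cent kn (h.zs mn l _ _ (by omega) w1)) b1)]
    exact h.zmul q2 kn b1 a1 b2 a2
  have A : ∀ p, Cr G adj ev n p → Z (p (n + 2)) ≤ Z (p 6) := fun p cr => by
    obtain ⟨r, cr', hr⟩ := h.s_sh q2 mn hn n5 S cr
    have := (h.s_key q2 mn hn n5 S cr').2
    rwa [hr n _ rfl, hr 4 6 rfl] at this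
  obtain ⟨d, e, n1, n2⟩ := h.third (p (n + 1)) (p (n + 1 - 1)) (p (n + 2))
  obtain ⟨q, lq, q1, q3⟩ := h.splice cr.l e n1
  have B := A q ⟨lq, q1 0 (by omega) ▸ cr.k, by rw [q1 0 (by omega), q1 n (by omega)]; exact cr.nz⟩
  rw [q3 _ (by omega), q1 6 (by omega)] at B
  exact y2 (comm_one.mpr (cent_el (h.q_cent _ (h.zq mn cr.l 6 0 (by omega) ((h.zsup (cr.l.ad (n + 1) (n + 2)) e n2
    (h.lev cr.l cr.k _)).trans (sup_le (A p cr) B) w1))) x1) ▸ one_mem _)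

end S

section N
variable (S : NS G adj (n - 2)) (cr : Cr G adj ev n q)
include S cr

omit q2 mn hn in
theorem n_v (l : Ln adj p) (k : ¬ ev (p 0)) : ¬ V (p 0) ≤ qv (p (n - 1)) := fun c => by
  obtain ⟨r, lr, hr⟩ := cr.l.sh 1
  obtain ⟨g, e⟩ := h.trans_ln (n - 1) (by convert S using 1; omega) l lr (iff_of_false k (hr 0 1 rfl ▸ h.lod cr.l cr.k 1))
  have := h.eqv_v.le eqv_q (e 0 le_rfl (by omega)) (e (n - 1) (by omega) (by omega)) c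
  rw [hr 0 1 rfl, hr _ n (by omega)] at this
  exact cr.nz ((le_gen (f := Z) (cr.l.ad 1 0)).trans this)

theorem n_cr (l : Ln adj p) (k : ev (p 0)) : Cr G adj ev n p ∧ ∀ v ∈ V (p n), v ∈ qv (p 1) → v ∈ qv (p 0) := by
  have A : ¬ V (p 1) ≤ qv (p n) := by
    obtain ⟨r, lr, hr⟩ := l.sh 1
    have := h.n_v n5 S cr lr (hr 0 1 rfl ▸ h.lod l k 1)
    rwa [hr 0 1 rfl, hr _ n (by omega)] at this
  have B : ¬ V (p n) ≤ qv (p 1) := by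
    obtain ⟨r, lr, hr⟩ := l.rev n
    have := h.n_v n5 S cr lr (hr 0 n (by omega) ▸ h.lod l k n)
    rwa [hr 0 n (by omega), hr _ 1 (by omega)] at this
  obtain ⟨x, x1, x2⟩ := h.exists_w q2 (l.ad 0 1) k
  have x3 : x ∉ qv (p n) := fun c => by
    obtain ⟨t, t1, t2⟩ := SetLike.not_le_iff_exists.mp B
    exact A (h.hle q2 mn (by omega) (l.ad 2 1) (h.lev l k 2) (le_gen (f := Z) (l.ad 1 0) x1)
      (h.w_not q2 (l.ad 2 1) (h.lev l k 2) (l.ad 1 0) (l.ne _ _) x1 x2) ⟨h.lvs mn l _ _ (by omega) t1, h.lvs mn l _ _ (by omega) t1⟩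
      t2 (h.zq mn l _ _) c (H26.commutatorElement_mem_of_mem_normalizer' (st_qv _ (h.lvs mn l _ _ (by omega) t1)) c))
  refine ⟨⟨l, k, fun c => x3 (c x1)⟩, fun v v1 v2 => by_contra fun v3 => ?_⟩
  have tx : x ∈ st (p (n - 1)) ⊓ st (p n) := ⟨h.zs mn l _ _ (by omega) x1, h.zs mn l _ _ (by omega) x1⟩
  by_cases c : v ∈ H (p (n - 1)) (p n)
  swap
  · exact B (h.hle q2 mn (by omega) (l.ad (n - 1) n) (h.lev l k _) v1 c tx x3 (h.zq mn l _ _) v2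
      (H26.commutatorElement_mem_of_mem_normalizer' (st_qv _ (h.zs mn l _ _ (by omega) x1)) v2))
  have tv : v ∈ st (p 0) ⊓ st (p 1) := ⟨h.q_le (l.ad 1 0) v2, oo_le _ v2⟩
  obtain ⟨g, g1, g2, g3⟩ := h.ns_at l S 2 n
  exact g2 (h.q_of (l.ad 2 (2 + 1)) (l.ad 2 1) (l.ne _ _) g1.1 g1.2 (h.fixb q2 (l.ad 2 1) (h.lev l k 2) (h.zt (l.ad 0 1) k x1 tv)
    (fun d => x2 (h.z_fix (l.ad 0 1) k x1 tv v3 (comm_one.mp d))) g1.1
    (cent_el (h.z_cent (h.lod l k n) (g3 n (by omega) le_rfl)) (comm_symm (c.2.2 x tx)))))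

theorem n_n8 : N8 G adj ev := by_contra fun N => by
  obtain ⟨l, k, -⟩ := id cr
  obtain ⟨x, x1, u, u1, x2, -, -, u2, -⟩ := h.beta' q2 mn hn n5 cr (h.n_cr q2 mn hn n5 S cr l k).2
  have A : ∀ p, Ln adj p → (∀ i : ℤ, i ≤ n - 2 → p i = q i) → ∃ w ∈ st (q 1) ⊓ st (q 2), w ∉ qv (q 1) ∧ ⁅w, x⁆ ∈ V (q 1) ∧
      ⁅w, x⁆ ∈ H (p (n - 1)) (p n) ∧ ⁅w, x⁆ ∉ Z (p (n - 1)) := fun p lp e => by
    have kp : ev (p 0) := e 0 (by omega) ▸ k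
    obtain ⟨c1, c2⟩ := h.n_cr q2 mn hn n5 S cr lp kp
    obtain ⟨w, w1, w2⟩ := h.exists_w q2 (lp.ad (n + 1) n) (h.lev lp kp _)
    obtain ⟨-, w3, y1, -, y2, -, y3, -⟩ := h.beta q2 mn c1 hn (by omega) c2 (e 0 (by omega) ▸ x1) (e 1 (by omega) ▸ x2) w1 w2
    rw [← e 1 (by omega), ← e 2 (by omega)]
    exact ⟨w, ⟨h.zs mn lp _ _ (by omega) w1, h.zs mn lp _ _ (by omega) w1⟩, w3, y2.1, y1, fun c => N (y3 c)⟩
  have B : ∀ {w w'}, w ∈ st (q 1) ⊓ st (q 2) → w ∉ qv (q 1) → ⁅w, x⁆ ∈ V (q 1) → w' ∈ st (q 1) ⊓ st (q 2) → w' ∉ qv (q 1) →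
      ⁅w, x⁆⁻¹ * ⁅w', x⁆ ∈ Z (q 1) := fun {w w'} w1 w2 w3 w4 w5 => by
    have s := h.mul_q (l.ad 1 2) w4 (inv_mem w1) w5 (by simpa using w2)
    rw [show ⁅w, x⁆⁻¹ * ⁅w', x⁆ = ⁅⁅w, x⁆⁻¹, w' * w⁻¹⁆ * ⁅w' * w⁻¹, x⁆ by simp only [commutatorElement_def]; group]
    exact mul_mem (h.vq (h.lod l k 1) (inv_mem w3) s) (comm_symm (h.vq (h.lod l k 1) (le_gen (f := Z) (l.ad 1 0) x1) s))
  obtain ⟨d, e2, n1, n2⟩ := h.third (q (n - 2)) (q (n - 2 - 1)) (q (n - 1))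
  obtain ⟨d', e3, n3, n4⟩ := h.third (q (n - 1)) (q (n - 1 - 1)) (q n)
  obtain ⟨p2, l2, a2, b2⟩ := h.splice l e2 n1
  obtain ⟨p3, l3, a3, b3⟩ := h.splice l e3 n3
  have C : ∀ p y, Ln adj p → (∀ i : ℤ, i ≤ n - 1 → p i = q i) → y ∈ H (p (n - 1)) (p n) → y ∈ H (p2 (n - 1)) (p2 n) →
      y ∈ Z (p (n - 1)) := fun p y lp e y1 y2 =>
    h.kk q2 mn (by omega) (lp.ad (n - 1) n) (h.lev lp (e 0 (by omega) ▸ k :) _) (lp.ad (n - 2) _)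
      (by rw [e _ (by omega), ← a2 _ le_rfl]; exact l2.ad _ _) (by rwa [e _ le_rfl, b2 _ (by omega)]) (lp.ne _ _) (l2.ad (n - 1) n)
      (by rw [e _ (by omega), ← a2 _ le_rfl]; exact l2.ne _ _) y1 y2 ⟨q 2, q 3, q 1, u, h.lev l k 2, l.ad _ _, l.ad _ _, l.ne _ _,
        h.zq mn l _ _ (by omega) u1, h.zq mn l _ _ (by omega) u1, u2⟩
  obtain ⟨w1, c1, d1, f1, g1, h1⟩ := A q l fun _ _ => rfl
  obtain ⟨w2, c2, d2, f2, g2, -⟩ := A p2 l2 a2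
  obtain ⟨w3, c3, d3, -, g3, h3⟩ := A p3 l3 fun i _ => a3 i (by omega)
  by_cases e1 : ⁅w1, x⁆⁻¹ * ⁅w2, x⁆ = 1
  · exact h1 (C q _ l (fun _ _ => rfl) g1 (inv_mul_eq_one.mp e1 ▸ g2))
  by_cases e4 : ⁅w2, x⁆⁻¹ * ⁅w3, x⁆ = 1
  · exact h3 (C p3 _ l3 a3 g3 (inv_mul_eq_one.mp e4 ▸ g2))
  have := h.zmul q2 (h.lod l k 1) (B c1 d1 f1 c2 d2) (B c2 d2 f2 c3 d3) e1 e4
  rw [mul_assoc, mul_inv_cancel_left, inv_mul_eq_one] at this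
  exact h1 (h.vv q2 mn (by omega) (l.ad (n - 1) n) (h.lev l k _) g1.1 e3 n4 (by rw [this, ← b3 n (by omega)]; exact g3.1))

theorem n_false : False := by
  have N := h.n_n8 q2 mn hn n5 S cr
  obtain ⟨l, k, -⟩ := id cr
  rcases (by omega : n = 5 ∨ 7 ≤ n) with n6 | n7
  · have A : ∀ p, Ln adj p → ev (p 0) → ∀ x ∈ Z (p 0), x ∉ Z (p 1) → ∀ w ∈ Z (p 6), w ∉ Z (p 5) →
        w ∉ qv (p 1) ∧ ⁅w, x⁆ ∈ Z (p 3) ∧ ⁅w, x⁆ ≠ 1 := fun p l k x x1 x2 w w1 w2 => by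
      obtain ⟨c1, c2⟩ := h.n_cr q2 mn hn n5 S cr l k
      subst n6
      obtain ⟨-, w3, y1, y2, y3, -⟩ := h.beta q2 mn c1 hn (by omega) c2 x1 x2 w1 w2
      exact ⟨w3, h.zzz q2 (l.ad 3 2) (l.ad 3 4) (l.ne _ _) (h.lod l k 3) (N _ _ (l.ad 2 1) (h.lev l k 2) y3)
        (N _ _ (l.ad 4 5) (h.lev l k 4) y1), fun c => y2 (c ▸ one_mem _)⟩
    obtain ⟨a, a1, a2⟩ := h.exists_w q2 (l.ad (-2) (-1)) (h.lev l k _)
    obtain ⟨x, x1, x2⟩ := h.exists_w q2 (l.ad 0 1) k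
    obtain ⟨c, c1, c2⟩ := h.exists_w q2 (l.ad 6 5) (h.lev l k _)
    have c4 : c ∈ st (q 1) ⊓ st (q 2) := ⟨h.zs mn l _ _ (by omega) c1, h.zs mn l _ _ (by omega) c1⟩
    obtain ⟨r, lr, hr⟩ := (h.ln_smul l c).rev 2
    obtain ⟨s, ls, s1, s2⟩ := l.glue (k := 1) lr (by rw [hr 1 1 rfl]; exact c4.1.symm) (by
      rw [hr _ 0 rfl]; exact (h.move (l.ad 1 2) (l.ad 1 0) (l.ne _ _) c4 (A q l k x x1 x2 c c1 c2).1).2.2)
    obtain ⟨t, lt, ht⟩ := ls.sh (-2)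
    obtain ⟨-, u1, u2⟩ := A t lt (by rw [ht 0 (-2) rfl, s1 _ (by omega)]; exact h.lev l k _) a
      (by rwa [ht 0 (-2) rfl, s1 _ (by omega)]) (by rwa [ht 1 (-1) rfl, s1 _ (by omega)]) (c * a * c⁻¹)
      (by rw [ht 6 4 rfl, s2 _ (by omega), hr 4 (-2) rfl]; exact eqv_z.mem rfl a1)
      (by rw [ht 5 3 rfl, s2 _ (by omega), hr 3 (-1) rfl]; exact fun d => a2 (eqv_z.mem' rfl d))
    rw [ht 3 1 rfl, s1 _ le_rfl] at u1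
    have a3 : a ∈ st (q 3) := h.zs mn l _ _ (by omega) a1
    have k1 : ⁅a, c⁆ ∈ qv (q 4) := h.cent_z (h.lev l k 4) (h.q_le (l.ad 3 4) (H26.commutatorElement_mem_of_mem_normalizer
      (st_qv _ a3) (h.zq mn l 6 3 (by omega) c1))) (cent_anti (le_gen (f := Z) (l.ad 3 4))
        (H26.commutatorElement_mem_of_mem_normalizer (norm_cent (h.eqv_v.norm _) a3) (h.lzc mn l 6 3 (by omega) c1)))
    have k2 := N _ _ (l.ad 4 5) (h.lev l k 4) (h.hcomm mn (by omega) (l.ad 4 5) (h.lev l k 4) (le_gen (f := Z) (l.ad 5 6) c1)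
      ((h.loc (l.ad 4 5)).q_le k1))
    have k3 : ⁅c, ⁅a, c⁆⁆ = ⁅c * a * c⁻¹, a⁆ := by
      rw [show ⁅c, ⁅a, c⁆⁆ = c * a * c * a⁻¹ * c⁻¹ * a * c⁻¹ * a⁻¹ by simp only [commutatorElement_def]; group,
        show ⁅c * a * c⁻¹, a⁆ = c * a * c⁻¹ * a * c * a⁻¹ * c⁻¹ * a⁻¹ by simp only [commutatorElement_def]; group,
        inv_eq (h.z_elem _) a1, inv_eq (h.z_elem _) c1]
    exact u2 (h.zz (l.ad 2 1) (l.ad 2 3) (l.ne _ _) (h.lev l k 2) u1 (h.zzz q2 (l.ad 3 2) (l.ad 3 4) (l.ne _ _) (h.lod l k 3)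
      (h.z_le_z (l.ad 2 1) (h.lev l k 2) u1) (k3 ▸ k2)))
  obtain ⟨x, -, w, -, -, -, -, -, y1, y2, y3, -⟩ := h.beta' q2 mn hn n5 cr (h.n_cr q2 mn hn n5 S cr l k).2
  generalize ⁅w, x⁆ = y at *
  have y6 := N _ _ (l.ad 2 1) (h.lev l k 2) y3
  obtain ⟨r, lr, r1, r2⟩ : ∃ r, Ln adj r ∧ (∀ i : ℤ, i ≤ n - 1 → r i = q i) ∧ (y ∈ Z (r (n - 1 - 1)) ∨ y ∈ Z (r n)) := by
    obtain ⟨c, e, c1⟩ := h.zmem q2 (h.lev l k _) (N _ _ (l.ad (n - 1) n) (h.lev l k _) y1)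
    by_cases d : q (n - 1 - 1) = c
    · exact ⟨q, l, fun _ _ => rfl, .inl (d ▸ c1)⟩
    obtain ⟨r, lr, r1, r2⟩ := h.splice l e d
    exact ⟨r, lr, r1, .inr (r2 n (by omega) ▸ c1)⟩
  have kr : ev (r 0) := r1 0 (by omega) ▸ k
  have B : ∀ (g : G) (i : ℤ), i ≤ 4 → (∀ j : ℤ, i ≤ j → j ≤ n → g ∈ st (r j)) → g ∈ C_[y] := fun g i _ hg =>
    r2.elim (cent_el (h.z_cent (h.lod lr kr _) (hg _ (by omega) (by omega)))) (cent_el (h.z_cent (h.lod lr kr _) (hg _ (by omega) le_rfl)))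
  obtain ⟨g, g1, g2, g3⟩ := h.ns_at lr S 3 n
  obtain ⟨e, -, n1⟩ := h.move (lr.ad 3 (3 + 1)) (lr.ad 3 2) (lr.ne _ _) g1 g2
  rw [← r1 2 (by omega)] at y6
  obtain ⟨s, s1, s2, s3⟩ := h.ns_at lr S 4 n
  exact s2 (h.q_of (lr.ad 4 (4 + 1)) (lr.ad 4 3) (lr.ne _ _) s1.1 s1.2 (h.fixb q2 (lr.ad 4 3) (h.lev lr kr 4)
    (h.zzz q2 (lr.ad 3 2) e n1 (h.lod lr kr 3) y6 (conj_eq (B g 3 (by omega) g3) ▸ eqv_z.mem rfl y6))
    (fun c => y2 (c ▸ one_mem _)) s1.1 (B s 4 le_rfl s3)))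

end N

omit q2 mn hn n5 in
theorem main (e : adj a b) : Nat.card ↥(st a ⊓ st b) ≤ 128 := by
  obtain ⟨n, p, mn, n2, cr⟩ := h.exists_crit a
  have A : Nat.card (qv (p 0)) ≤ 64 := by
    rcases (by omega : n = 2 ∨ n = 3 ∨ (n % 2 = 0 ∧ 4 ≤ n) ∨ (n % 2 = 1 ∧ 5 ≤ n)) with c | c | ⟨c, d⟩ | ⟨c, d⟩
    · exact h.two mn cr c
    · exact h.three mn cr c
    · exact (h.even_false (h.q2_even mn cr c n2) mn cr c d).elim
    have q2 := h.q2_odd mn cr c n2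
    obtain ⟨x, x1, x2⟩ := SetLike.not_le_iff_exists.mp cr.nz
    obtain ⟨q, lq, q0, q1⟩ := h.not_sg cr.l (N := n - 2) x2 fun i _ _ => h.zs mn cr.l 0 i (by omega) x1
    exact ((h.dich1 lq (q0 ▸ h.lod cr.l cr.k n) q1).elim (fun S => h.n_false q2 mn c d S cr) fun S => h.s_false q2 mn c d S cr).elim
  by_cases k : ev a
  · obtain ⟨g, e1⟩ := h.vt (iff_of_true cr.k k)
    rw [(h.loc e).card_T, eqv_q.card e1]; omega
  · obtain ⟨g, e1⟩ := h.vt (iff_of_true cr.k (h.evn e k))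
    rw [(h.loc' e).card_T, eqv_q.card e1]; omega

end Gc

end Cfsg.Agent.H26.Gs
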