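import Mathlib
import Cfsg.Agent.H26.Gs5

/-!
# Goldschmidt's bound for amalgams of index `(3, 3)` in a finite group (namespace `Cfsg.Agent.H26.Gs`)

`sw_of`, `SW.map`, `gm_of`, `Gm.not_char`, `gold`.
-/

set_option linter.unusedSectionVars false

namespace Cfsg.Agent.H26.Gs
open Cfsg BG H24 H01 MulAction
open scoped commutatorElement

universe u
variable {G : Type u} [Group G] [Finite G] {P P' T : Subgroup G} {Ω : Type*} [MulAction G Ω] {adj : Ω → Ω → Prop}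
  {ev : Ω → Prop} {a b : Ω}

local notation "st" => stabilizer G
local notation "qv" a:max => OO (stabilizer G a)

theorem sw_of (h1 : H26.IsSyl 2 T P) (h2 : (OO P).relIndex P = 6) : SW P T := ⟨h1, h2, fun c => by
  have := h1.not_dvd
  rw [le_antisymm (H26.le_pCoreOf h1.le c h1.pg) h1.pCoreOf_le, h2] at this
  exact this (by decide)⟩

theorem SW.map {G' : Type u} [Group G'] [Finite G'] (h : SW P T) {f : G →* G'} (hf : Function.Injective f) :
    SW (P.map f) (T.map f) :=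
  sw_of (h.syl.map f) (by rw [H26.pCoreOf_map_inj hf, Subgroup.relIndex_map_map_of_injective _ _ hf, h.idx])

theorem Gm.not_char (h : Gm G adj ev) (e : adj a b) (c : ¬ H26.IsCharP 2 (st b)) : Nat.card ↥(st a ⊓ st b) ≤ 16 := by
  obtain ⟨x, x1, x2⟩ := SetLike.not_le_iff_exists.mp c
  have n := norm_cent (st_qv (G := G) b)
  have r : pResidualOf 2 (st b) ≤ C_(qv b) := by
    by_cases d : x ∈ st a
    · exact h.res_le (h.symm e) n x1.2 ⟨x1.1, d⟩ x2
    have := H26.pResidualOf_mono (p := 2) (h.gen1 (Y := st b ⊓ st a ⊔ C_(qv b)) (h.symm e) le_sup_left x1.1 d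
      (Subgroup.mem_sup_right x1.2))
    rw [H26.pResidualOf_sup_eq (h.loc (h.symm e)).syl.pg (inf_le_left.trans n)] at this
    exact this.trans (H26.pResidualOf_le _)
  obtain ⟨X, x3, x4, x5⟩ := h.core3 (B := qv b ⊓ qv a) e
    (norm_inf (inf_le_right.trans (st_qv b)) (inf_le_left.trans (st_qv a))) (st_qv a)
  rw [h.core e (x3.trans (inf_le_right.trans (oo_le _))) (x3.trans (inf_le_left.trans (oo_le _))) x4
    ((h.loc' e).syl.pResidualOf_sup.ge.trans (sup_le (le_norm_of_cent (r.trans (cent_anti (x3.trans inf_le_left))))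
      (inf_le_left.trans x4))), Subgroup.relIndex_bot_left, Subgroup.inf_relIndex_right] at x5
  have := Nat.pow_le_pow_left (h.idx_le (h.symm e) (h.loc' (h.symm e)).q_le) 3
  rw [(h.loc e).card_T]; omega

theorem gm_of (h1 : SW P (P ⊓ P')) (h2 : SW P' (P ⊓ P')) (hc : ∀ X ≤ P ⊓ P', P ≤ N_(X) → P' ≤ N_(X) → X = ⊥) :
    Gm G (cosetGraph P P').Adj fun a => a.isLeft := by
  refine ⟨fun e => e.symm, fun g e => H26.adj_smul e g, H26.exists_adj, H26.exists_smul_nbr, fun e => ?_, fun g a => ?_,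
    fun {a b} e => ?_, fun e => ?_, fun {a b X} e e0 e1 e2 e3 => ?_⟩
  · obtain ⟨x, ⟨rfl, rfl⟩ | ⟨rfl, rfl⟩⟩ := H26.adj_iff.mp e <;> simp
  · cases a <;> simp
  · obtain ⟨x, rfl | rfl⟩ := H26.vertex_cases a <;> obtain ⟨y, rfl | rfl⟩ := H26.vertex_cases b
    exacts [⟨y * x⁻¹, by simp [H26.smul_inl]⟩, absurd e (by simp), absurd e (by simp), ⟨y * x⁻¹, by simp [H26.smul_inr]⟩]
  · obtain ⟨x, ⟨a, b⟩ | ⟨a, b⟩⟩ := H26.edge_cases e <;> rw [a, b]
    · exact cj_inf x P P' ▸ h1.cj x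
    · exact cj_inf x P' P ▸ inf_comm P P' ▸ h2.cj x
  · obtain ⟨x, ⟨a, b⟩ | ⟨a, b⟩⟩ := H26.edge_cases e <;> rw [a] at e0 e2 <;> rw [b] at e1 e3
    · exact cj_eq_bot_iff.mp (hc (cj x⁻¹ X) (le_cj_iff.mp (cj_inf x P P' ▸ le_inf e0 e1)) (cj_norm x⁻¹ X ▸ cj_le_iff.mp e2)
        (cj_norm x⁻¹ X ▸ cj_le_iff.mp e3))
    · exact cj_eq_bot_iff.mp (hc (cj x⁻¹ X) (le_cj_iff.mp (cj_inf x P P' ▸ le_inf e1 e0))
        (cj_norm x⁻¹ X ▸ cj_le_iff.mp e3) (cj_norm x⁻¹ X ▸ cj_le_iff.mp e2))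

theorem gold_c (h1 : SW P T) (h2 : SW P' T) (hT : P ⊓ P' = T) (hc : ∀ X ≤ T, P ≤ N_(X) → P' ≤ N_(X) → X = ⊥)
    (c1 : H26.IsCharP 2 P) (c2 : H26.IsCharP 2 P') (n1 : ¬ P ≤ C_(ΩZ T)) (n2 : P' ≤ C_(ΩZ T)) : Nat.card T ≤ 128 := by
  subst hT
  have h : Gc G (cosetGraph P P').Adj fun a => a.isLeft := by
    refine ⟨gm_of h1 h2 hc, fun a => ?_, fun e k => ?_, fun e k => ?_⟩
    · obtain ⟨x, rfl | rfl⟩ := H26.vertex_cases a
      exacts [H26.stab_inl x ▸ c1.cj x, H26.stab_inr x ▸ c2.cj x]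
    all_goals
      obtain ⟨x, ⟨rfl, rfl⟩ | ⟨rfl, rfl⟩⟩ := H26.adj_iff.mp e
      swap; · simp at k
      rw [H26.stab_inl, H26.stab_inr]
      change _ at k
    · change ¬ cj x P ≤ C_(ΩZ (cj x P ⊓ cj x P'))
      rwa [← cj_inf, oz_cj, ← cj_cent, cj_le_cj_iff]
    · change cj x P' ≤ C_(ΩZ (cj x P ⊓ cj x P'))
      rwa [← cj_inf, oz_cj, ← cj_cent, cj_le_cj_iff]
  have := h.main (H26.adj_base 1)
  rwa [H26.stab_inl, H26.stab_inr, H26.cj_one, H26.cj_one] at this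

theorem gold (h1 : SW P T) (h2 : SW P' T) (hc : ∀ X ≤ T, P ≤ N_(X) → P' ≤ N_(X) → X = ⊥) : Nat.card T ≤ 128 := by
  rcases h1.max (le_inf h1.le h2.le) inf_le_left with hT | e
  swap
  · obtain rfl : P = P' := (h2.max h1.le (inf_eq_left.mp e)).resolve_left fun e => h1.nn (e.le.trans (le_norm _))
    rw [h1.card_T, hc _ h1.q_le (norm_oo (le_norm P)) (norm_oo (le_norm P)), Subgroup.card_bot]; omega
  by_cases c : H26.IsCharP 2 P ∧ H26.IsCharP 2 P'
  swap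
  · subst hT
    have h := gm_of h1 h2 hc
    rcases not_and_or.mp c with c | c
    · have := h.not_char (H26.adj_base 1).symm (by rwa [H26.stab_inl, H26.cj_one])
      rw [H26.stab_inl, H26.stab_inr, H26.cj_one, H26.cj_one, inf_comm] at this; omega
    · have := h.not_char (H26.adj_base 1) (by rwa [H26.stab_inr, H26.cj_one])
      rw [H26.stab_inl, H26.stab_inr, H26.cj_one, H26.cj_one] at this; omega
  by_cases n1 : P ≤ C_(ΩZ T) <;> by_cases n2 : P' ≤ C_(ΩZ T)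
  · refine (oz_ne_bot h1.syl.pg (fun e => ?_) (hc _ (oz_le _) (le_norm_of_cent n1) (le_norm_of_cent n2))).elim
    have := h1.card_T
    rw [e, Subgroup.card_bot] at this; omega
  · exact gold_c h2 h1 (inf_comm P P' ▸ hT) (fun X a b c => hc X a c b) c.2 c.1 n2 n1
  · exact gold_c h1 h2 hT hc c.1 c.2 n1 n2
  · have := (ap_of ⟨c.1, h1.syl, h1.idx, n1⟩ ⟨c.2, h2.syl, h2.idx, n2⟩ hc).card_q
    rw [h1.card_T]; omega

end Cfsg.Agent.H26.Gs
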