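import Mathlib
import Cfsg.Agent.H26.NC
import Cfsg.Agent.H03.Qd
import Cfsg.Agent.H01.KS103a
import Cfsg.Agent.H01.BG12b

/-!
# Pushing up inside a maximal `p`-local subgroup

`MaxLoc p H`, `noChar_of_maxLoc`, `PF.maxLoc` (`O_p(H)` is abelian and complemented), `exists_qa_hom`,
`PF.maxLoc_dprod` (`H = Qd(q) × C`), `QA.iso_S4`, `pu_of_prime_index`.
-/

namespace H26
open Cfsg H17 H01 Matrix BG
open scoped commutatorElement Pointwise BG MatrixGroups

variable {G : Type*} [Group G] {p : ℕ} {H S T M L V C : Subgroup G}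

/-- every nontrivial normal `p`-subgroup of `H` has normalizer `H` -/
def MaxLoc (p : ℕ) (H : Subgroup G) : Prop := ∀ R ≤ H, IsPGroup p R → R ≠ ⊥ → H ≤ N_(R) → N_(R) ≤ H

theorem noChar_of_maxLoc (hm : MaxLoc p H) {S : Subgroup H} (hS : IsPGroup p S) (hN : ¬ N_(S.map H.subtype) ≤ H) :
    NoChar S := fun X h0 h1 h2 => by
  have i := H.subtype_injective
  let e := S.equivMapOfInjective H.subtype i
  have c : (X.map e.toMonoidHom).Characteristic := Subgroup.characteristic_iff_map_le.mpr fun φ => by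
    rintro _ ⟨_, ⟨x, hx, rfl⟩, rfl⟩
    exact ⟨_, Subgroup.characteristic_iff_map_le.mp h1 (e.trans (φ.trans e.symm)) ⟨x, hx, rfl⟩, e.apply_symm_apply _⟩
  have a : (X.map e.toMonoidHom).map (Subgroup.subtype _) = (X.map S.subtype).map H.subtype := by
    rw [Subgroup.map_map, Subgroup.map_map]; rfl
  refine hN ((le_normalizer_map_characteristic le_rfl (X.map e.toMonoidHom)).trans (a ▸ hm _ (Subgroup.map_subtype_le _)
    ((hS.to_le (Subgroup.map_subtype_le X)).map _) (fun b => h0 ?_) (le_normalizer_map_subtype _)))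
  rwa [Subgroup.map_eq_bot_iff_of_injective _ i, Subgroup.map_eq_bot_iff_of_injective _ S.subtype_injective] at b

theorem bij_of_compl {G' : Type*} [Group G'] {K : Subgroup G} (h : K ⊔ L = H) (hn : L ≤ N_(K)) (hd : K ⊓ L = ⊥)
    (ρ : H →* G') (hs : Function.Surjective ρ) (hk : ∀ e : H, ρ e = 1 ↔ (e : G) ∈ K) : Nonempty (L ≃* G') := by
  have s : Sdprod K L H := ⟨h, hn, hd⟩
  refine ⟨MulEquiv.ofBijective (ρ.comp (Subgroup.inclusion s.le_right)) ⟨(injective_iff_map_eq_one _).mpr fun a b =>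
    Subtype.ext (hd.le (Subgroup.mem_inf.mpr ⟨(hk _).mp b, a.2⟩)), fun y => ?_⟩⟩
  obtain ⟨⟨_, hx⟩, rfl⟩ := hs y
  obtain ⟨k, a, l, b, rfl⟩ := s.mem.mp hx
  refine ⟨⟨l, b⟩, ?_⟩
  rw [← one_mul (ρ.comp _ _), ← (hk ⟨k, s.le_left a⟩).mpr a, MonoidHom.comp_apply, ← map_mul]; rfl

theorem exists_qa_hom {F : Type*} [Field F] (h : ActsAsSL2OnSection F ⊤ H V C) (s : Sdprod V L H)
    (hk : ∀ e ∈ H, (∀ u ∈ V, ⁅e, u⁆ ∈ C) ↔ e ∈ V) :
    ∃ Φ : H →* H03.QA F, Function.Surjective Φ ∧ ∀ e : H, Φ e = 1 ↔ (e : G) ∈ C := by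
  obtain ⟨h1, CV, ρ, ψ, a, b, c, d⟩ := h
  have key : ∀ e : H, ρ e = 1 ↔ (e : G) ∈ V := fun e => by
    rw [← hk e e.2]
    have key : ∀ u : V, ⁅(e : G), (u : G)⁆ ∈ C ↔ (ρ e : Matrix (Fin 2) (Fin 2) F) *ᵥ (ψ u).toAdd = (ψ u).toAdd := fun u => by
      obtain ⟨w, e1, e2⟩ := d e u
      rw [← e2, commutatorElement_def, ← e1, ← Subgroup.coe_inv, ← Subgroup.coe_mul, ← c, map_mul, map_inv, mul_inv_eq_one]
      exact Multiplicative.toAdd.injective.eq_iff.symm
    refine ⟨fun f u hu => (key ⟨u, hu⟩).mpr (by simp [f]), fun f => Subtype.ext (ext_iff_mulVec.mpr fun v => ?_)⟩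
    obtain ⟨u, hu⟩ := b (Multiplicative.ofAdd v)
    have := (key u).mp (f u u.2)
    rw [hu] at this
    simpa using this
  choose v hv l hl e using fun g : H => s.mem.mp g.2
  have uq : ∀ (g : H) (x : V), ∀ y ∈ L, x * y = (g : G) → (⟨v g, hv g⟩ : V) = x := fun g x y hy f => Subtype.ext (by
    have : (x : G)⁻¹ * v g = y * (l g)⁻¹ := by rw [inv_mul_eq_iff_eq_mul, ← mul_assoc, f, ← e g, mul_inv_cancel_right]
    exact (inv_mul_eq_one.mp (s.disj.le (Subgroup.mem_inf.mpr ⟨mul_mem (inv_mem x.2) (hv g),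
      this ▸ mul_mem hy (inv_mem (hl g))⟩))).symm)
  have rl : ∀ g : H, ρ ⟨l g, s.le_right (hl g)⟩ = ρ g := fun g => by
    rw [← one_mul (ρ _), ← (key ⟨v g, s.le_left (hv g)⟩).mpr (hv g), ← map_mul]
    exact congrArg ρ (Subtype.ext (e g))
  refine ⟨MonoidHom.mk' (fun g => ⟨(ψ ⟨v g, hv g⟩).toAdd, ρ g⟩) fun g k => H03.QA.ext ?_ (map_mul ρ g k), fun y => ?_,
    fun g => ⟨fun f => ?_, fun f => H03.QA.ext ?_ ((key g).mpr (CV f))⟩⟩
  · obtain ⟨w, e1, e2⟩ := d ⟨l g, s.le_right (hl g)⟩ ⟨v k, hv k⟩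
    show (ψ _).toAdd = (ψ _).toAdd + (ρ g : Matrix (Fin 2) (Fin 2) F) *ᵥ (ψ _).toAdd
    rw [← rl g, ← e2, ← toAdd_mul, ← map_mul, uq (g * k) (⟨v g, hv g⟩ * w) _ (mul_mem (hl g) (hl k))]
    rw [Subgroup.coe_mul, Subgroup.coe_mul, e1, ← e g, ← e k]; group
  · obtain ⟨g, hg⟩ := MonoidHom.range_eq_top.mp a y.s
    obtain ⟨u, hu⟩ := b (Multiplicative.ofAdd y.x)
    refine ⟨⟨u * l g, mul_mem (s.le_left u.2) (s.le_right (hl g))⟩, H03.QA.ext ?_ ?_⟩
    · show (ψ _).toAdd = _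
      rw [uq _ u _ (hl g) rfl, hu]; rfl
    · show ρ (⟨u, s.le_left u.2⟩ * ⟨l g, s.le_right (hl g)⟩) = _
      rw [map_mul, (key _).mpr u.2, one_mul, rl, hg]
  · have f1 := (key g).mp (congrArg H03.QA.s f)
    have f2 : (ψ _).toAdd = 0 := congrArg H03.QA.x f
    rw [uq g ⟨g, f1⟩ 1 (one_mem _) (mul_one _)] at f2
    exact (c _).mp f2
  · show (ψ _).toAdd = 0
    rw [uq g ⟨g, CV f⟩ 1 (one_mem _) (mul_one _), (c _).mpr f]; rfl

theorem QA.iso_S4 : Nonempty (H03.QA (ZMod 2) ≃* Equiv.Perm (Fin 4)) := by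
  have c : Nat.card (H03.QA (ZMod 2)) = 24 := by rw [H03.QA.card_QA, ZMod.card]; rfl
  have d := (H03.QA.V (F := ZMod 2)).card_mul_index
  rw [c, H03.QA.V, Subgroup.index_ker, MonoidHom.range_eq_top.mpr H03.QA.lin_surj, Subgroup.card_top,
    H09.card_SL_two, ZMod.card] at d
  obtain ⟨e⟩ := iso_S4_of (W := H03.QA.V (F := ZMod 2)) (M := ⊤) ⟨isMulCommutative_iff_le.mpr H03.QA.cent_V.ge,
    fun x hx => by
      rw [show x = ⟨x.x, 1⟩ from H03.QA.ext rfl hx, H03.QA.tr_pow]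
      exact H03.QA.ext (by rw [show ((2 : ℕ) : ZMod 2) = 0 from rfl, zero_smul]; rfl) rfl⟩
    (by rw [H03.QA.V]; omega) le_top Subgroup.le_normalizer_of_normal (inf_le_right.trans H03.QA.cent_V.le)
    (by rw [Subgroup.card_top, c])
  exact ⟨Subgroup.topEquiv.symm.trans e⟩

variable [hp : Fact p.Prime] [Finite G]

theorem PF.maxLoc (h : PF p H S T M) (hh : HH p S) (hE : ⁅T, pResidualOf p H⁆ ≤ T ⊓ C_(T)) (hm : MaxLoc p H)
    (hN : ¬ N_(S) ≤ H) : T ≤ C_(T) ∧ (∃ L, Sdprod T L H) ∧ Nat.card ↥(T ⊓ C_(T) ⊓ C_(H)) ≤ T.relIndex S := by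
  obtain ⟨g, hg, h1⟩ : ∃ g ∈ N_(S), ¬ cj(g, T ⊓ C_(T)) ≤ T := by
    by_contra a
    push Not at a
    have b : T ⊓ C_(T) ≤ ncl (T ⊓ C_(T)) N_(S) := le_ncl _ _
    have c : ncl (T ⊓ C_(T)) N_(S) ≤ T := ncl_le_iff.mpr a
    exact hN ((le_normalizer_ncl _ _).trans (hm _ (c.trans h.TH) (h.pT.to_le c) (fun d => h.not_V_le (b.trans (d.le.trans bot_le)))
      (h.le_of_res_le (Subgroup.le_normalizer.trans (le_normalizer_ncl _ _)) (le_normalizer_of_commutator_le
        ((Subgroup.commutator_mono c le_rfl).trans (hE.trans b))))))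
  have gH : g ∉ H := fun a => h1 ((cj_eq_of_mem_normalizer (h.nV a)).le.trans inf_le_left)
  have k := h.map hh (f := (MulAut.conj g).toMonoidHom) (MulAut.conj g).injective
  rw [cj_eq_of_mem_normalizer hg] at k
  rw [cj_inf, cj_centralizer] at h1
  have h2 := fun a => h1 (k.le_symm h a)
  have key : ∀ {H H' T T' M M' : Subgroup G}, PF p H S T M → PF p H' S T' M' → ¬ T' ⊓ C_(T') ≤ T →
      T' ⊓ C_(T') ⊓ T ≤ C_(S) ∧ ⁅T, T⁆ = ⁅T ⊓ T', T ⊓ T'⁆ := fun {H H' T T' M M'} h k h1 => by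
    have a := (k.le_V ((k.cdV hh).inf (h.cdT hh)) inf_le_left).resolve_left fun a => h1 (a.ge.trans inf_le_right)
    have b := (k.cdV hh).cent_inf (h.cdT hh)
    rw [k.S_inf_C, h.cent_T, inf_eq_left.mpr (Subgroup.le_centralizer_iff.mp a), sup_comm] at b
    have c := (h.cdV hh).dedekind (k.cdT hh) (inf_le_left : _ ≤ T)
    rw [← b, inf_eq_left.mpr h.TS] at c
    have n : T ≤ N_(⁅T ⊓ T', T ⊓ T'⁆) := le_normalizer_commutator (h.TS.trans (le_normalizer_inf (h.SH.trans h.nT)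
      (k.SH.trans k.nT))) (h.TS.trans (le_normalizer_inf (h.SH.trans h.nT) (k.SH.trans k.nT)))
    have z : ∀ X ≤ T, ⁅T ⊓ C_(T), X⁆ ≤ ⁅T ⊓ T', T ⊓ T'⁆ := fun X d =>
      (commutator_eq_bot_iff'.mpr (d.trans h.TV)).le.trans bot_le
    refine ⟨a, le_antisymm ((Subgroup.commutator_mono c.le le_rfl).trans (commutator_sup_le (inf_le_left.trans n)
      (inf_le_left.trans n) (z _ le_rfl) ((Subgroup.commutator_mono le_rfl c.le).trans (commutator_sup_le'
        (inf_le_left.trans n) (inf_le_left.trans n) ((Subgroup.commutator_comm _ _).le.trans (z _ inf_le_left)) le_rfl))))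
      (Subgroup.commutator_mono inf_le_left inf_le_left)⟩
  have ab : T ≤ C_(T) := Subgroup.commutator_eq_bot_iff_le_centralizer.mp (by_contra fun a => gH
    (hm _ ((commutator_le_of_le_normalizer Subgroup.le_normalizer).trans h.TH)
      (h.pT.to_le (commutator_le_of_le_normalizer Subgroup.le_normalizer)) a (le_normalizer_commutator h.nT h.nT)
      (cj_eq_iff.mp (by rw [cj_commutator, (key k h h2).2, (key h k h1).2, inf_comm]))))
  have ab' : cj(g, T) ≤ C_(cj(g, T)) := cj_centralizer g T ▸ cj_mono g ab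
  refine ⟨ab, ?_, ?_⟩
  · have el := k.elV hh
    have s := h.sup_T hh (k.cdV hh) h1
    rw [inf_eq_left.mpr ab'] at el s
    have := el.1
    obtain ⟨A, a, b, c⟩ := exists_complement_of_elementary hp.out el.2 (inf_le_left (b := T))
    exact gaschutz_sdprod (isMulCommutative_iff_le.mpr ab) h.nT h.SH
      (coprime_card_of_isPGroup h.pT ((Nat.coprime_primes hp.out hp.out).elim fun _ _ =>
        (hp.out.coprime_iff_not_dvd.mpr h.syl.not_dvd).symm)).symm (W := A)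
      ⟨by rw [← s, ← c, sup_comm _ T, ← sup_assoc, sup_eq_left.mpr (inf_le_right (a := cj(g, T)))],
        (a.trans (k.TS.trans h.SH)).trans h.nT, le_bot_iff.mp (le_trans (le_inf (le_inf (inf_le_right.trans a)
          inf_le_left) inf_le_right) b.le)⟩
  · have a : cj(g, T ⊓ C_(T) ⊓ C_(H)) ⊓ (T ⊓ C_(T) ⊓ C_(H)) = ⊥ := by_contra fun a => gH (by
      have b := hm _ (inf_le_right.trans (inf_le_left.trans (inf_le_left.trans h.TH)))
        (h.pT.to_le (inf_le_right.trans (inf_le_left.trans inf_le_left))) a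
        ((Subgroup.le_centralizer_iff.mp (inf_le_right.trans inf_le_right)).trans (centralizer_le_normalizer _))
      have c : cj(g, H) ≤ H := ((Subgroup.le_centralizer_iff.mp (inf_le_left.trans ((cj_mono g inf_le_right).trans
        (cj_centralizer g H).le))).trans (centralizer_le_normalizer _)).trans b
      exact hm T h.TH h.pT (fun d => h.not_V_le (inf_le_left.trans (d.le.trans bot_le))) h.nT
        (h.pCoreOf_eq ▸ normalizer_le_normalizer_pCoreOf H (mem_normalizer_of_cj_le c)))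
    rw [← card_cj g, ← h.idx2, ← Subgroup.relIndex_bot_left, ← a, Subgroup.inf_relIndex_left]
    refine Subgroup.relIndex_le_of_le_right ?_ relIndex_ne_zero
    rw [h.W_eq]
    exact (cj_mono g h.CW').trans (cj_eq_of_mem_normalizer (le_normalizer_center le_rfl hg)).le

theorem PF.maxLoc_dprod (h : PF p H S T M) (hh : HH p S) (hE : ⁅T, pResidualOf p H⁆ ≤ T ⊓ C_(T)) (hm : MaxLoc p H)
    (hN : ¬ N_(S) ≤ H) {F : Type*} [Field F] [Fintype F] (hF : Fintype.card F = T.relIndex S) (K : Subgroup SL(2, F))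
    [K.Normal] (h0 : K ≠ ⊥) (h1 : (Nat.card K).Coprime p) : ∃ G₀ C, Dprod G₀ C H ∧ IsElementaryAbelian p C ∧
      Nonempty (G₀ ≃* H03.QA F) ∧ Nat.card C ≤ T.relIndex S := by
  obtain ⟨ab, ⟨L, s⟩, c⟩ := h.maxLoc hh hE hm hN
  have k := h.toFF
  have k1 := h.K1_le hE
  have el := h.elV hh
  rw [inf_eq_left.mpr ab] at k k1 c el
  have hk : ∀ e ∈ H, (∀ u ∈ T, ⁅e, u⁆ ∈ T ⊓ C_(H)) ↔ e ∈ T := fun e he => ⟨fun a => k1 ⟨he, k.nC he, a⟩, fun a u hu => by
    rw [commutatorElement_eq_one_iff_mul_comm.mpr (ab a u hu).symm]; exact one_mem _⟩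
  obtain ⟨ρ, a, b⟩ := ActsAs.exists_hom (k.nat hF)
  obtain ⟨e⟩ := bij_of_compl s.sup s.norm s.disj ρ (MonoidHom.range_eq_top.mp a) fun e => (b e).trans (hk e e.2)
  obtain ⟨Φ, a, b⟩ := exists_qa_hom (k.nat hF) s hk
  have := (inferInstance : K.Normal).map e.symm.toMonoidHom e.symm.surjective
  set K' := (K.map e.symm.toMonoidHom).map L.subtype
  have KL : K' ≤ L := Subgroup.map_subtype_le _
  have nK : L ≤ N_(K') := le_normalizer_map_subtype _
  have cK : Nat.card K' = Nat.card K := by rw [card_map_subtype, card_map_inj e.symm.injective]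
  have d := coprime_abelian_dprod (KL.trans s.norm) (coprime_card_of_isPGroup h.pT (cK ▸ h1)) k.ab
  have nT : ∀ X ≤ T, L ≤ N_(X) → H ≤ N_(X) := fun X a b => s.sup.ge.trans (sup_le (k.V_le_N a) b)
  have e1 : T ⊓ C_(K') = T ⊓ C_(H) := by
    refine le_antisymm (le_inf inf_le_left (by_contra fun f => h0 ?_))
      (inf_le_inf_left _ (centralizer_anti (KL.trans s.le_right)))
    have f := (k.irrV inf_le_left (nT _ inf_le_left (le_normalizer_inf s.norm (le_normalizer_centralizer nK))) f).ge.trans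
      (sup_le inf_le_right (inf_le_right.trans (centralizer_anti (KL.trans s.le_right))))
    rw [← Subgroup.card_eq_one, ← cK, Subgroup.card_eq_one, ← le_bot_iff, ← s.disj]
    exact le_inf ((le_inf (KL.trans s.le_right) (Subgroup.le_centralizer_iff.mp f)).trans h.ch) KL
  rw [e1] at d
  have n1 : L ≤ N_(⁅T, K'⁆) := le_normalizer_commutator s.norm nK
  have dp : Dprod (⁅T, K'⁆ ⊔ L) (T ⊓ C_(H)) H := ⟨by rw [sup_right_comm, sup_comm _ (T ⊓ _), d.sup, s.sup],
    inf_le_right.trans (centralizer_anti (sup_le (d.le_right.trans h.TH) s.le_right)), le_bot_iff.mp fun x hx => by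
      obtain ⟨v, a, l, b, rfl⟩ := (mem_sup_norm n1).mp hx.1
      obtain rfl : l = 1 := s.disj.le (Subgroup.mem_inf.mpr ⟨(T.mul_mem_cancel_left (d.le_right a)).mp hx.2.1, b⟩)
      exact d.disj.le (Subgroup.mem_inf.mpr ⟨hx.2, mul_mem a (one_mem _)⟩)⟩
  exact ⟨_, _, dp, ⟨isMulCommutative_iff_le.mpr (inf_le_left.trans (ab.trans (centralizer_anti inf_le_left))),
    fun x hx => el.2 x hx.1⟩, bij_of_compl dp.symm.sup dp.symm.sdprod.norm dp.symm.disj Φ a b, c⟩

theorem pu_of_prime_index (hS : IsSyl p S ⊤) (h1 : Nat.card S = p) (h2 : S.index.Prime) (h3 : pCore p G = ⊥) :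
    PU p ⊤ S ⊥ S := by
  have := Fact.mk h2
  have a : ∀ B ≤ S, B = ⊥ ∨ B = S := fun B b => ((h1 ▸ hp.out).eq_one_or_self_of_dvd _ (Subgroup.card_dvd_of_le b)).imp
    Subgroup.card_eq_one.mp fun c => Subgroup.eq_of_le_of_card_ge b (Eq.ge c)
  have m : ∀ X, S ≤ X → X = S ∨ X = ⊤ := fun X b => ((h2.eq_one_or_self_of_dvd _
    (Subgroup.index_dvd_of_le b)).symm).imp (fun c => le_antisymm (Subgroup.relIndex_eq_one.mp
      (Nat.eq_of_mul_eq_mul_right h2.pos (by rw [one_mul]; nth_rw 1 [← c]; exact Subgroup.relIndex_mul_index b))) b)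
        Subgroup.index_eq_one.mp
  have n : S ≠ ⊥ := fun b => hp.out.ne_one (by rw [← h1, b, Subgroup.card_bot])
  have c : IsMulCommutative S := (isCyclic_of_prime_card h1).isMulCommutative
  have t : S ≠ ⊤ := fun b => h2.ne_one (by rw [b, Subgroup.index_top])
  refine ⟨hS, ⟨le_rfl, t.lt_top, fun X b d => ((m X b).resolve_right d.ne).le⟩, bot_le, fun b => n (le_bot_iff.mp b),
    le_top.trans Subgroup.le_normalizer_of_normal, fun g _ b => ((a _ inf_le_left).resolve_right fun d => ?_).le,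
    (Subgroup.commutator_self_eq_bot_iff.mpr c).le, fun s hs => ?_, fun B _ b _ => a B b⟩
  · have e : g ∈ N_(S) := cj_eq_iff.mp (Subgroup.eq_of_le_of_card_ge (d.ge.trans inf_le_right) (card_cj g S).le).symm
    have := normal_of_top_le ((m _ Subgroup.le_normalizer).resolve_left fun f => b (f ▸ e)).ge
    exact n (le_bot_iff.mp (h3 ▸ le_pCore hS.pg))
  · exact congrArg Subtype.val (h1 ▸ pow_card_eq_one' : (⟨s, hs⟩ : S) ^ p = 1)

end H26
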