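import Mathlib
import Cfsg.Agent.H22.Pump
import Cfsg.Agent.H22.Two
import Cfsg.Agent.H08.Simp2
import Cfsg.Agent.H08.RankOne
import Cfsg.Agent.H03.Focal

/-! 2-components with a unique involution: basic facts (`Om`, `St`). -/

set_option autoImplicit false
set_option linter.unusedSectionVars false

open BG Cfsg H22 Subgroup
open scoped commutatorElement

namespace Cfsg.Agent.H26.Qa

universe u
variable {G : Type u} [Group G] [Finite G] {n : ℕ} {H H' L L' P S T X : Subgroup G} {a b c g q t x y z : G}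

theorem syl_sub {M : Subgroup H} (hM : M.IsSubnormal) (hH' : H' ≤ H) (hP : IsSylowIn 2 P H') :
    IsSylowIn 2 (P ⊓ M.map H.subtype) (H' ⊓ M.map H.subtype) := by
  induction hM with
  | top =>
    rw [← MonoidHom.range_eq_map, range_subtype, inf_eq_left.2 hH', inf_eq_left.2 (hP.le.trans hH')]; exact hP
  | step A B hle _ hN ih =>
    have hm : A.map H.subtype ≤ B.map H.subtype := map_mono hle
    have hn : B.map H.subtype ≤ N_(A.map H.subtype) :=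
      map_le_normalizer_map _ ((normal_subgroupOf_iff_le_normalizer hle).1 hN)
    have := ih.inf_normal (K := H' ⊓ A.map H.subtype) (inf_le_inf_left _ hm)
      (norm_inf (norm_of_le inf_le_left) (inf_le_right.trans hn))
    rwa [show P ⊓ B.map H.subtype ⊓ (H' ⊓ A.map H.subtype) = P ⊓ A.map H.subtype from
      le_antisymm (le_inf (inf_le_left.trans inf_le_left) (inf_le_right.trans inf_le_right))
        (le_inf (inf_le_inf_left _ hm) (inf_le_inf_right _ hP.le))] at this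

theorem quat_cen {m : ℕ} (x : QuaternionGroup (2 ^ (m + 1))) (h : ∀ q, q * x = x * q) : x * x = 1 := by
  cases x with
  | a i =>
    have := h (.xa 0)
    simp only [QuaternionGroup.xa_mul_a, QuaternionGroup.a_mul_xa, QuaternionGroup.xa.injEq] at this
    rw [QuaternionGroup.a_mul_a, QuaternionGroup.one_def]
    congr 1
    linear_combination this
  | xa i =>
    exfalso
    have := h (.a 1)
    simp only [QuaternionGroup.xa_mul_a, QuaternionGroup.a_mul_xa, QuaternionGroup.xa.injEq] at this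
    have h2 : ((2 : ℕ) : ZMod (2 * 2 ^ (m + 1))) = 0 := by push_cast; linear_combination -this
    rw [ZMod.natCast_eq_zero_iff] at h2
    have := Nat.le_of_dvd two_pos h2
    have : 0 < 2 ^ m := by positivity
    rw [pow_succ] at *; omega

structure Om (n : ℕ) (L : Subgroup G) (z : G) : Prop where
  mem : z ∈ L
  sq : z * z = 1
  ne : z ≠ 1
  uq : ∀ x ∈ L, x * x = 1 → x = 1 ∨ x = z
  pc : PC 2 L C_[z]
  cd : ∀ P, IsSylowIn 2 P L → Nat.card P = 2 ^ n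

instance : Fact (Nat.Prime 2) := ⟨Nat.prime_two⟩

theorem Om.cj (h : Om n L z) (g : G) : Om n (cj g L) (g * z * g⁻¹) where
  mem := conj_mem_cj g h.mem
  sq := by rw [show g * z * g⁻¹ * (g * z * g⁻¹) = g * (z * z) * g⁻¹ by group, h.sq]; group
  ne := fun e => h.ne (by simpa using e)
  uq := fun x hx e => by
    obtain ⟨y, hy, rfl⟩ := mem_cj'.1 hx
    rcases h.uq y hy (by
      rw [show g * y * g⁻¹ * (g * y * g⁻¹) = g * (y * y) * g⁻¹ by group] at e; simpa using e) with rfl | rfl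
    · left; group
    · right; rfl
  pc := cj_cent1 g z ▸ h.pc.cj g
  cd := fun P hP => by
    have := h.cd (BG.cj g⁻¹ P) (by have := hP.cj g⁻¹; rwa [cj_cj, inv_mul_cancel, cj_of_mem (one_mem L)] at this)
    rwa [(conjg_cj g⁻¹ P).card_eq] at this

theorem fix (h : g ∈ C_[z]) : g * z * g⁻¹ = z := by rw [mem_cent1.1 h]; group

theorem Om.cj' (h : Om n L z) (hg : g ∈ C_[z]) : Om n (BG.cj g L) z := by
  have := h.cj g; rwa [fix hg] at this

theorem Om.le (h : Om n L z) : L ≤ C_[z] := h.pc.1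

theorem Om.lay (h : Om n L z) : pLay 2 C_[z] ≤ N_(L) := by
  have := map_le_normalizer_map (C_[z]).subtype (pLayer_le_normalizer h.pc.2)
  rwa [map_subgroupOf_eq_of_le h.le] at this

theorem Om.le_lay (h : Om n L z) : L ≤ pLay 2 C_[z] := h.pc.le_pLay

theorem Om.norm (h : Om n L z) (h' : Om n L' z) : L' ≤ N_(L) := h'.le_lay.trans h.lay

theorem lay_conj (hx : x ∈ pLay 2 C_[z]) (hg : g ∈ C_[z]) : g * x * g⁻¹ ∈ pLay 2 C_[z] := by
  obtain ⟨y, hy, rfl⟩ := hx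
  exact ⟨⟨g, hg⟩ * y * ⟨g, hg⟩⁻¹, pLayer_normal.conj_mem y hy _, rfl⟩

/-- the core of `C(z)` -/
abbrev OC (z : G) : Subgroup G := piCoreOf {2}ᶜ C_[z]

theorem oc_odd (z : G) : ¬ 2 ∣ Nat.card (OC z) := pcore_not_dvd Nat.prime_two _

theorem oc_norm (z : G) : C_[z] ≤ N_(OC z) := le_norm_pcore _ _

theorem oc_le (z : G) : OC z ≤ C_[z] := pcore_le _ _

theorem Om.comm_le (h : Om n L z) (h' : Om n L' z) (ne : L ≠ L') : ⁅L, L'⁆ ≤ OC z := by
  rcases h.pc.le_or_comm h'.le (h'.norm h) with e | e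
  · exact absurd (eq_of_subgroupOf_eq h.le h'.le (pcomp_eq_of_le h.pc.2 h'.pc.2 (subgroupOf_mono _ e))) ne
  · exact e

theorem eq_one_of (hT : IsPGroup 2 T) (h1 : x ∈ T) (h2 : x ∈ OC z) : x = 1 :=
  eq_one_of_mem_of_disj (pg_inf_eq_bot Nat.prime_two hT (oc_odd z)) h1 h2

theorem Om.comm (h : Om n L z) (h' : Om n L' z) (ne : L ≠ L') (hT : IsPGroup 2 T) (x1 : x ∈ T) (x2 : x ∈ L)
    (y1 : y ∈ T) (y2 : y ∈ L') : x * y = y * x := by
  have := eq_one_of hT (mul_mem (mul_mem (mul_mem x1 y1) (inv_mem x1)) (inv_mem y1))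
    (h.comm_le h' ne (commutator_mem_commutator x2 y2))
  rwa [← commutatorElement_def, commutatorElement_eq_one_iff_mul_comm] at this

theorem Om.syl (h : Om n L z) (hH : H ≤ C_[z]) (hP : IsSylowIn 2 P H) : IsSylowIn 2 (P ⊓ L) (H ⊓ L) := by
  have := syl_sub h.pc.2.1 hH hP
  rwa [map_subgroupOf_eq_of_le h.le] at this

theorem Om.cyc (h : Om n L z) (hX : IsPGroup 2 X) (hl : X ≤ L) (x1 : x ∈ X) (x2 : x * x ≠ 1) (x3 : X ≤ C_[x]) :
    IsCyclic X := by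
  rcases H08.cyclic_or_quaternion hX (fun a b ha hb => by
    have k : ∀ a : X, orderOf a = 2 → (a : G) = z := fun a ha => by
      have ha' : orderOf (a : G) = 2 := by rw [Subgroup.orderOf_coe]; exact ha
      exact (h.uq a (hl a.2) (mul_self_of_two ha')).resolve_left (ne_one_of_two ha')
    exact Subtype.ext ((k a ha).trans (k b hb).symm)) with e | ⟨m, ⟨e⟩⟩
  · exact e
  · exfalso
    have := quat_cen (e ⟨x, x1⟩) fun q => by
      obtain ⟨q, rfl⟩ := e.surjective q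
      rw [← map_mul, ← map_mul]; congr 1; exact Subtype.ext (mem_cent1.1 (x3 q.2))
    rw [← map_mul, map_eq_one_iff _ e.injective] at this
    exact x2 (congrArg Subtype.val this)

theorem Om.pw (h : Om n L z) (hT : IsPGroup 2 T) (x1 : x ∈ T) (x2 : x ∈ L) (x3 : x ≠ 1) : ∃ i : ℕ, x ^ i = z := by
  obtain ⟨k, hk⟩ := hT ⟨x, x1⟩
  have hk' : x ^ 2 ^ k = 1 := congrArg Subtype.val hk
  clear hk
  induction k with
  | zero => exact absurd (by simpa using hk') x3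
  | succ k ih =>
    rcases h.uq (x ^ 2 ^ k) (pow_mem x2 _) (by rw [← pow_add, ← two_mul, ← pow_succ']; exact hk') with e | e
    · exact ih e
    · exact ⟨_, e⟩

structure St (n : ℕ) (L : Subgroup G) (z : G) (S : Subgroup G) : Prop extends Om n L z where
  sy : IsSylowIn 2 S C_[z]

namespace St
variable (h : St n L z S)
include h

theorem pg : IsPGroup 2 S := h.sy.pg Nat.prime_two
theorem cz (hx : x ∈ S) : x * z = z * x := mem_cent1.1 (h.sy.le hx)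
theorem fx (hx : x ∈ S) : x * z * x⁻¹ = z := fix (h.sy.le hx)
theorem cj (hg : g ∈ S) : St n (cj g L) z S := ⟨h.toOm.cj' (h.sy.le hg), h.sy⟩
theorem sq' (x : G) : z * (z * x) = x := by rw [← mul_assoc, h.sq, one_mul]
theorem iv : z⁻¹ = z := inv_eq_of_mul_eq_one_right h.sq
theorem syl : IsSylowIn 2 (S ⊓ L) L := by
  have := h.toOm.syl le_rfl h.sy; rwa [inf_eq_right.2 h.le] at this
theorem card : Nat.card ↥(S ⊓ L) = 2 ^ n := h.cd _ h.syl
theorem zm : z ∈ S := by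
  have : zpowers z ≤ S := h.sy.le_of_norm_pg Nat.prime_two
    (elemAb_zpowers (p := 2) (by rw [pow_two, h.sq])).pg (zpowers_le_cent1 z)
    (le_norm_of_cent (by rw [cent_zpowers]; exact h.sy.le))
  exact this (mem_zpowers z)
theorem com (h' : St n L' z S) (ne : L ≠ L') (x1 : x ∈ S) (x2 : x ∈ L) (y1 : y ∈ S) (y2 : y ∈ L') : x * y = y * x :=
  h.toOm.comm h'.toOm ne h.pg x1 x2 y1 y2
theorem nc : ¬ IsCyclic ↥(S ⊓ L) := fun e => by
  obtain ⟨P, hP⟩ := h.syl.exists_sylow Nat.prime_two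
  refine h.pc.not_sol (H08.sol_of_cyclic_sylow P ?_)
  rw [← hP] at e
  exact isCyclic_of_surjective _ ((P : Subgroup L).equivMapOfInjective _ L.subtype_injective).symm.surjective
theorem cen (x1 : x ∈ S) (x2 : x ∈ L) (hc : ∀ q ∈ S, q ∈ L → q * x = x * q) : x * x = 1 := by
  by_contra e
  exact h.nc (h.cyc (pg_le h.pg inf_le_left) inf_le_right ⟨x1, x2⟩ e fun q hq => mem_cent1.2 (hc q hq.1 hq.2))
theorem cy (x1 : x ∈ S) (x2 : x ∈ L) (x3 : x * x ≠ 1) : IsCyclic ↥(S ⊓ L ⊓ C_[x]) :=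
  h.cyc (pg_le h.pg (inf_le_left.trans inf_le_left)) (inf_le_left.trans inf_le_right) ⟨⟨x1, x2⟩, mem_cent1_self x⟩ x3
    inf_le_right
theorem int (h' : St n L' z S) (ne : L ≠ L') (x1 : x ∈ S) (x2 : x ∈ L) (x3 : x ∈ L') : x = 1 ∨ x = z :=
  h.uq x x2 (h.cen x1 x2 fun _ q1 q2 => h.com h' ne q1 q2 x1 x3)
theorem pw (x1 : x ∈ S) (x2 : x ∈ L) (x3 : x ≠ 1) : ∃ i : ℕ, x ^ i = z := h.toOm.pw h.pg x1 x2 x3
theorem ord4 (e : a * a = z) : orderOf a = 4 := by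
  have : orderOf a = 2 ^ (1 + 1) := orderOf_eq_prime_pow (by rw [pow_one, pow_two, e]; exact h.ne)
    (by rw [show 2 ^ (1 + 1) = 2 + 2 by norm_num, pow_add, pow_two, e, h.sq])
  simpa using this
theorem nesq (e : a * a = z) : a * a ≠ 1 := e ▸ h.ne
theorem inv4 (e : a * a = z) : a⁻¹ = a * z := by
  rw [← e]; apply inv_eq_of_mul_eq_one_right; rw [← mul_assoc, e, h.sq]
theorem ne4 (e : a * a = z) : a⁻¹ ≠ a := fun e' => h.ne (by rw [← e]; nth_rewrite 1 [← e']; group)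
theorem mem4 (e : a * a = z) (hx : x ∈ zpowers a) (e' : x * x ≠ 1) : x = a ∨ x = a⁻¹ := by
  classical
  obtain ⟨k, hk, rfl⟩ := Finset.mem_image.1 (mem_zpowers_iff_mem_range_orderOf.1 hx)
  rw [h.ord4 e, Finset.mem_range] at hk
  interval_cases k
  · simp at e'
  · left; simp
  · exact absurd (by rw [pow_two, e, h.sq]) e'
  · right; rw [h.inv4 e, ← e]; simp [pow_succ, mul_assoc]
theorem in4 (e : a * a = z) (a1 : a ∈ S) (a2 : a ∈ L) (c1 : c ∈ S) (c2 : c ∈ L) (c3 : c * a = a * c) (c4 : c * c ≠ 1) :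
    a ∈ zpowers c := by
  have : zpowers a ≤ zpowers c := le_of_card_dvd_of_cyclic (h.cy a1 a2 (h.nesq e))
    (zpowers_le.2 ⟨⟨a1, a2⟩, mem_cent1_self a⟩) (zpowers_le.2 ⟨⟨c1, c2⟩, mem_cent1.2 c3⟩) (by
      rw [Nat.card_zpowers, Nat.card_zpowers, h.ord4 e]
      obtain ⟨k, hk⟩ := (IsPGroup.iff_orderOf.1 h.pg) ⟨c, c1⟩
      rw [← Subgroup.orderOf_coe] at hk
      change orderOf c = _ at hk
      rw [hk]
      rcases k with _ | _ | k
      · exact absurd (by rw [orderOf_eq_one_iff.1 hk, one_mul]) c4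
      · exact absurd (by rw [← pow_two, show 2 = orderOf c by simpa using hk.symm, pow_orderOf_eq_one]) c4
      · exact ⟨2 ^ k, by ring⟩)
  exact this (mem_zpowers a)
theorem exinv (e : a * a = z) (a1 : a ∈ S) (a2 : a ∈ L) : ∃ b ∈ S, b ∈ L ∧ b * a * b⁻¹ = a⁻¹ := by
  have lt : S ⊓ L ⊓ C_[a] < S ⊓ L := lt_of_le_of_ne inf_le_left fun e' => h.nc (e' ▸ h.cy a1 a2 (h.nesq e))
  obtain ⟨b, ⟨b1, b2⟩, b3⟩ := SetLike.exists_of_lt (nil_lt_norm (pg_nil Nat.prime_two (pg_le h.pg inf_le_left)) lt)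
  have b4 : b ∈ N_(zpowers a) := norm_le_norm_of_cyclic (h.cy a1 a2 (h.nesq e))
    (zpowers_le.2 ⟨⟨a1, a2⟩, mem_cent1_self a⟩) b2
  refine ⟨b, b1.1, b1.2, (h.mem4 e (conj_mem_of_norm b4 (mem_zpowers a)) ?_).resolve_left fun e' => b3 ⟨b1, ?_⟩⟩
  · rw [show b * a * b⁻¹ * (b * a * b⁻¹) = b * (a * a) * b⁻¹ by group, e, h.fx b1.1]; exact h.ne
  · exact mem_cent1.2 (mul_inv_eq_iff_eq_mul.1 e')
theorem ivsq (e : a * a = z) (a1 : a ∈ S) (a2 : a ∈ L) (b1 : b ∈ S) (b2 : b ∈ L) (b3 : b * a * b⁻¹ = a⁻¹) : b * b = z := by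
  have k : b * b * a = a * (b * b) := by
    have : b * b * a * (b * b)⁻¹ = a := by
      rw [show b * b * a * (b * b)⁻¹ = b * (b * a * b⁻¹) * b⁻¹ by group, b3,
        show b * a⁻¹ * b⁻¹ = (b * a * b⁻¹)⁻¹ by group, b3, inv_inv]
    exact mul_inv_eq_iff_eq_mul.1 this
  have nb : b * a ≠ a * b := fun e' => h.ne4 e (by rw [← b3, e']; group)
  by_cases e2 : b * b * (b * b) = 1
  · rcases h.uq _ (mul_mem b2 b2) e2 with e3 | e3
    · rcases h.uq _ b2 e3 with rfl | rfl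
      · simp at nb
      · exact absurd (h.cz a1).symm nb
    · exact e3
  · obtain ⟨i, hi⟩ := h.in4 e a1 a2 (mul_mem b1 b1) (mul_mem b2 b2) k e2
    refine absurd ?_ nb
    rw [← hi]; exact ((Commute.refl b).mul_right (Commute.refl b)).zpow_right i
theorem ivall (e : a * a = z) (a1 : a ∈ S) (a2 : a ∈ L) (b1 : b ∈ S) (b2 : b ∈ L) (b3 : b * a * b⁻¹ = a⁻¹)
    (c1 : c ∈ S) (c2 : c ∈ L) (c3 : c * a = a * c) : b * c * b⁻¹ = c⁻¹ := by
  have k := h.ivsq e a1 a2 (mul_mem b1 c1) (mul_mem b2 c2) (by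
    rw [show b * c * a * (b * c)⁻¹ = b * (c * a) * c⁻¹ * b⁻¹ by group, c3, ← b3]; group)
  rw [← h.ivsq e a1 a2 b1 b2 b3] at k
  have : c * b * c = b := by
    have := congrArg (b⁻¹ * ·) k; simpa [mul_assoc] using this
  calc b * c * b⁻¹ = c⁻¹ * (c * b * c) * b⁻¹ := by group
    _ = c⁻¹ := by rw [this]; group

/-- an element of order 4 whose span is normal in `N_S(L)` -/
theorem good : ∃ a ∈ S, a ∈ L ∧ a * a = z ∧ ∀ x ∈ S, x ∈ N_(L) → x * a * x⁻¹ = a ∨ x * a * x⁻¹ = a⁻¹ := by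
  let X := S ⊓ N_(L)
  have zX : z ∈ X := ⟨h.zm, le_norm L h.mem⟩
  let Z : Subgroup X := (zpowers z).subgroupOf X
  have : Z.Normal := (normal_subgroupOf_iff_le_normalizer (zpowers_le.2 zX)).2
    (le_norm_of_cent (by rw [cent_zpowers]; exact inf_le_left.trans h.sy.le))
  let f := QuotientGroup.mk' Z
  have hX : IsPGroup 2 X := pg_le h.pg inf_le_left
  have hq : IsPGroup 2 (X ⧸ Z) := hX.to_quotient Z
  have hn : (L.subgroupOf X).Normal := by
    refine ⟨fun k hk g => ?_⟩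
    exact mem_subgroupOf.2 (conj_mem_of_norm (K := L) g.2.2 hk)
  have hn' : ((L.subgroupOf X).map f).Normal := hn.map f (QuotientGroup.mk'_surjective Z)
  have ne : (L.subgroupOf X).map f ≠ ⊥ := fun e => h.nc (cyclic_of_le (B := zpowers z) inferInstance fun q hq => by
    have : f ⟨q, hq.1, le_norm L hq.2⟩ ∈ (L.subgroupOf X).map f := mem_map_of_mem f hq.2
    rw [e, mem_bot] at this
    exact mem_subgroupOf.1 ((QuotientGroup.eq_one_iff (N := Z) ⟨q, hq.1, le_norm L hq.2⟩).1 this))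
  obtain ⟨_, ⟨⟨k, hk, rfl⟩, h2⟩, h3⟩ := exists_mem_ne_one (pg_fix_ne_bot (A := ⊤) Nat.prime_two (hq.to_subgroup _)
    (hq.to_subgroup _) (by rw [normalizer_eq_top]) ne)
  have key : ∀ x ∈ S, x ∈ N_(L) → x * k * x⁻¹ = k ∨ x * k * x⁻¹ = k * z := fun x x1 x2 => by
    have := mem_cent.1 h2 (f ⟨x, x1, x2⟩) (mem_top _)
    have e : f (k⁻¹ * (⟨x, x1, x2⟩ * k * (⟨x, x1, x2⟩ : X)⁻¹)) = 1 := by
      rw [map_mul, map_mul, map_mul, this]; simp
    rcases mem_zpowers_two h.sq (mem_subgroupOf.1 ((QuotientGroup.eq_one_iff (N := Z) _).1 e)) with e | e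
    · left; exact (inv_mul_eq_one.1 e).symm
    · right; exact inv_mul_eq_iff_eq_mul.1 e
  have k1 : (k : G) ∈ S := k.2.1
  have k2 : (k : G) ∈ L := hk
  have kk : (k : G) * k = z := by
    refine (h.uq _ (mul_mem k2 k2) (h.cen (mul_mem k1 k1) (mul_mem k2 k2) fun q q1 q2 => ?_)).resolve_left fun e => h3 ?_
    · refine mul_inv_eq_iff_eq_mul.1 ?_
      rw [show q * (k * k) * q⁻¹ = q * k * q⁻¹ * (q * k * q⁻¹) by group]
      rcases key q q1 (le_norm L q2) with e | e <;> rw [e]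
      rw [mul_assoc, ← mul_assoc z, ← h.cz k1, mul_assoc, h.sq, mul_one]
    · refine (QuotientGroup.eq_one_iff (N := Z) k).2 (mem_subgroupOf.2 ?_)
      rcases h.uq _ k2 e with e | e
      · exact (show (k : G) ∈ zpowers z from e ▸ one_mem _)
      · exact (show (k : G) ∈ zpowers z from e ▸ mem_zpowers z)
  exact ⟨k, k1, k2, kk, fun x x1 x2 => by rw [h.inv4 kk]; exact key x x1 x2⟩
end St

/-- `a` has order 4 and `⟨a⟩ ⊴ S ∩ L` -/
structure Gd (L : Subgroup G) (z : G) (S : Subgroup G) (a : G) : Prop where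
  s : a ∈ S
  l : a ∈ L
  sq : a * a = z
  nm : ∀ q ∈ S, q ∈ L → q * a * q⁻¹ = a ∨ q * a * q⁻¹ = a⁻¹

theorem St.good' (h : St n L z S) : ∃ a, Gd L z S a :=
  let ⟨a, a1, a2, a3, a4⟩ := h.good; ⟨a, a1, a2, a3, fun q q1 q2 => a4 q q1 (le_norm L q2)⟩

theorem St.idx (h : St n L z S) (g : Gd L z S a) : (S ⊓ L ⊓ C_[a]).relIndex (S ⊓ L) = 2 := by
  obtain ⟨b, b1, b2, b3⟩ := h.exinv g.sq g.s g.l
  rw [relIndex, index_eq_two_iff]
  refine ⟨⟨b, b1, b2⟩, fun q => ?_⟩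
  simp only [mem_subgroupOf, mem_inf, coe_mul, mem_cent1]
  have n4 := h.ne4 g.sq
  rcases g.nm q q.2.1 q.2.2 with e | e
  · refine Or.inr ⟨⟨q.2, mul_inv_eq_iff_eq_mul.1 e⟩, fun e' => n4 ?_⟩
    have := mul_inv_eq_iff_eq_mul.2 e'.2
    rwa [show q * b * a * (q * b)⁻¹ = q * (b * a * b⁻¹) * (q : G)⁻¹ by group, b3,
      show q * a⁻¹ * (q : G)⁻¹ = (q * a * (q : G)⁻¹)⁻¹ by group, e] at this
  · refine Or.inl ⟨⟨⟨mul_mem q.2.1 b1, mul_mem q.2.2 b2⟩, mul_inv_eq_iff_eq_mul.1 ?_⟩, fun e' => n4 ?_⟩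
    · rw [show q * b * a * (q * b)⁻¹ = q * (b * a * b⁻¹) * (q : G)⁻¹ by group, b3,
        show q * a⁻¹ * (q : G)⁻¹ = (q * a * (q : G)⁻¹)⁻¹ by group, e, inv_inv]
    · rw [← e, e'.2]; group

theorem St.cardC (h : St n L z S) (g : Gd L z S a) : Nat.card ↥(S ⊓ L ⊓ C_[a]) * 2 = 2 ^ n := by
  rw [← h.card, ← h.idx g, card_mul_relIndex inf_le_left]

theorem St.gd_of (h : St n L z S) (a1 : a ∈ S) (a2 : a ∈ L) (e : a * a = z)
    (hc : 2 ^ n ≤ Nat.card ↥(S ⊓ L ⊓ C_[a]) * 2) : Gd L z S a := by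
  refine ⟨a1, a2, e, fun q q1 q2 => ?_⟩
  have i : (S ⊓ L ⊓ C_[a]).relIndex (S ⊓ L) ≤ 2 := by
    rw [← h.card, ← card_mul_relIndex (inf_le_left : S ⊓ L ⊓ C_[a] ≤ S ⊓ L)] at hc
    exact Nat.le_of_mul_le_mul_left hc (card_pos _)
  have i0 := relIndex_ne_zero (S ⊓ L ⊓ C_[a]) (S ⊓ L)
  have hn : ((S ⊓ L ⊓ C_[a]).subgroupOf (S ⊓ L)).Normal := by
    rcases (show (S ⊓ L ⊓ C_[a]).relIndex (S ⊓ L) = 1 ∨ (S ⊓ L ⊓ C_[a]).relIndex (S ⊓ L) = 2 by omega) with i | i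
    · rw [index_eq_one.1 i]; infer_instance
    · exact normal_of_index_eq_two i
  have b4 : q ∈ N_(zpowers a) := norm_le_norm_of_cyclic (h.cy a1 a2 (h.nesq e))
    (zpowers_le.2 ⟨⟨a1, a2⟩, mem_cent1_self a⟩) ((normal_subgroupOf_iff_le_normalizer inf_le_left).1 hn ⟨q1, q2⟩)
  refine h.mem4 e (conj_mem_of_norm b4 (mem_zpowers a)) ?_
  rw [show q * a * q⁻¹ * (q * a * q⁻¹) = q * (a * a) * q⁻¹ by group, e, h.fx q1]; exact h.ne

theorem St.four (h : St n L z S) (e : a * a = z) (a1 : a ∈ S) (a2 : a ∈ L) (c1 : c ∈ S) (c2 : c ∈ L)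
    (c3 : c * a = a * c) (c4 : c * c = z) : c = a ∨ c = a⁻¹ :=
  h.mem4 e (h.in4 c4 c1 c2 a1 a2 c3.symm (h.nesq e)) (h.nesq c4)

/-- all elements of order 4 of `L` generate conjugate subgroups -/
theorem St.fuse (h : St n L z S) (g : Gd L z S a) (x2 : x ∈ L) (e : x * x = z) :
    ∃ j ∈ L, j * x * j⁻¹ = a ∨ j * x * j⁻¹ = a⁻¹ := by
  let Z : Subgroup L := (zpowers z).subgroupOf L
  have : Z.Normal := (normal_subgroupOf_iff_le_normalizer (zpowers_le.2 h.mem)).2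
    (le_norm_of_cent (by rw [cent_zpowers]; exact h.le))
  let f := QuotientGroup.mk' Z
  have fs := QuotientGroup.mk'_surjective Z
  have zk : f.ker ≤ (S ⊓ L ⊓ C_[a]).subgroupOf L := by
    rw [QuotientGroup.ker_mk']
    exact subgroupOf_mono _ (zpowers_le.2 ⟨⟨h.zm, h.mem⟩, mem_cent1.2 (h.cz g.s).symm⟩)
  have zk' : f.ker ≤ (S ⊓ L).subgroupOf L := zk.trans (subgroupOf_mono _ inf_le_left)
  by_contra hc
  obtain ⟨M, M1, M2, -⟩ := H03.thompson_transfer (P := ((S ⊓ L).subgroupOf L).map f)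
    (Q := ((S ⊓ L ⊓ C_[a]).subgroupOf L).map f)
    (by rw [index_map_eq _ fs zk']; exact h.syl.not_dvd' Nat.prime_two)
    (by rw [relIndex_map_map, sup_eq_left.2 zk, sup_eq_left.2 zk', relIndex_subgroupOf inf_le_right, h.idx g])
    (f ⟨x, x2⟩) (two_of_mul_self (by
      rw [← map_mul]
      exact (QuotientGroup.eq_one_iff (N := Z) _).2 (mem_subgroupOf.2
        (show x * x ∈ zpowers z from e ▸ mem_zpowers _))) fun e' => by
        rcases mem_zpowers_two h.sq (mem_subgroupOf.1 ((QuotientGroup.eq_one_iff (N := Z) ⟨x, x2⟩).1 e')) with e' | e'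
        · exact h.ne (by rw [← e, show x = 1 from e', one_mul])
        · exact h.ne (by rw [← e, show x = z from e', h.sq]))
    fun j hj => by
      obtain ⟨j, rfl⟩ := fs j
      rw [← map_inv, ← map_mul, ← map_mul, ← mem_comap, comap_map_eq, sup_eq_left.2 zk] at hj
      refine hc ⟨j, j.2, h.four g.sq g.s g.l hj.1.1 hj.1.2 (mem_cent1.1 hj.2) ?_⟩
      rw [show j * x * (j : G)⁻¹ * (j * x * (j : G)⁻¹) = j * (x * x) * (j : G)⁻¹ by group, e, fix (h.le j.2)]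
  have := pcomp_pGen_eq h.pc.2
  have pf : ⁅(⊤ : Subgroup (L ⧸ Z)), (⊤ : Subgroup (L ⧸ Z))⁆ = ⊤ := by
    have := perfect_subgroupOf h.pc.perfect (le_refl L)
    rw [subgroupOf_self] at this
    rw [← map_top_of_surjective f fs, ← map_commutator, this]
  have hc : Nat.card ((L ⧸ Z) ⧸ M) = 2 := M2
  have : IsCyclic ((L ⧸ Z) ⧸ M) := isCyclic_of_prime_card hc
  have : Group.IsSolvable ((L ⧸ Z) ⧸ M) := by
    let _ : CommGroup ((L ⧸ Z) ⧸ M) := IsCyclic.commGroup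
    infer_instance
  have := map_eq_bot_of_perfect (QuotientGroup.mk' M) pf
  rw [Subgroup.map_eq_bot_iff, QuotientGroup.ker_mk', top_le_iff] at this
  rw [this, index_top] at M2; omega

theorem lift (hP : IsPGroup 2 P) (hS : IsSylowIn 2 S C_[z]) (hr : g ∈ C_[z])
    (h : ∀ p ∈ P, ∃ p' ∈ S, g * p * g⁻¹ * p'⁻¹ ∈ OC z) :
    ∃ r ∈ C_[z], ∀ p ∈ P, ∀ p' ∈ S, g * p * g⁻¹ * p'⁻¹ ∈ OC z → r * p * r⁻¹ = p' := by
  have le : cj g P ≤ OC z ⊔ S := fun x hx => by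
    obtain ⟨p, hp, rfl⟩ := mem_cj'.1 hx
    obtain ⟨p', h1, h2⟩ := h p hp
    simpa using mul_mem (mem_sup_left h2 : _ ∈ OC z ⊔ S) (mem_sup_right h1)
  obtain ⟨m, m1, m2⟩ := sylow_Jsub Nat.prime_two (hS.sub le_sup_right (sup_le (oc_le z) hS.le))
    (hP.map _ : IsPGroup 2 (cj g P)) le
  obtain ⟨o, o1, s, s1, rfl⟩ := (mem_sup_norm (hS.le.trans (oc_norm z))).1 m1
  have o2 : s⁻¹ * o * s ∈ OC z := conj_mem_of_norm' (oc_norm z (hS.le s1)) o1
  refine ⟨s⁻¹ * o * s * g, mul_mem (oc_le z o2) hr, fun p hp p' h1 h2 => ?_⟩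
  have k : s⁻¹ * o * s * g * p * (s⁻¹ * o * s * g)⁻¹ ∈ S := by
    have := mul_mem (mul_mem (inv_mem s1) (m2 (conj_mem_cj _ (conj_mem_cj g hp)))) s1
    convert this using 1; group
  refine mul_inv_eq_one.1 (eq_one_of (hS.pg Nat.prime_two) (mul_mem k (inv_mem h1)) (z := z) ?_)
  have := mul_mem (mul_mem o2 h2) (conj_mem_of_norm (oc_norm z (hS.le h1)) (inv_mem o2))
  convert this using 1; group

theorem mvne (hg : g ∉ N_(L)) : L ≠ cj g L := fun e => hg (cj_eq_self_iff.1 e.symm)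

/-- Lemma A: a conjugate of `y ∈ S ∩ L` by `g ∈ S` moving `L` commutes with `S ∩ L` -/
theorem St.mvcom (h : St n L z S) (y1 : y ∈ S) (y2 : y ∈ L) (g1 : g ∈ S) (g2 : g ∉ N_(L)) (q1 : q ∈ S) (q2 : q ∈ L) :
    q * (g * y * g⁻¹) = g * y * g⁻¹ * q :=
  h.com (h.cj g1) (mvne g2) q1 q2 (mul_mem (mul_mem g1 y1) (inv_mem g1)) (conj_mem_cj g y2)

theorem St.mvpw (h : St n L z S) (y1 : y ∈ S) (y2 : y ∈ L) (g1 : g ∈ S) (g2 : g ∉ N_(L)) {i : ℕ}
    (hi : (y⁻¹ * (g * y * g⁻¹)) ^ i ∈ L) : y ^ i * y ^ i = 1 ∧ (y⁻¹ * (g * y * g⁻¹)) ^ i = 1 := by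
  have c : Commute y (g * y * g⁻¹) := h.mvcom y1 y2 g1 g2 y1 y2
  rw [c.inv_left.mul_pow, conj_pow, inv_pow] at hi ⊢
  have m : g * y ^ i * g⁻¹ ∈ L := by simpa using mul_mem (pow_mem y2 i) hi
  rcases h.int (h.cj g1) (mvne g2) (mul_mem (mul_mem g1 (pow_mem y1 i)) (inv_mem g1)) m
    (conj_mem_cj g (pow_mem y2 i)) with e | e
  · have : y ^ i = 1 := by simpa using e
    simp [this]
  · have : y ^ i = z := by rw [← h.fx g1] at e; simpa using e
    rw [this, h.fx g1, h.sq]; simp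

/-- Lemma E -/
theorem St.gdE (h : St n L z S) (h' : Om n L' z) (ne : L ≠ L') (sy : IsSylowIn 2 T (C_[z] ⊓ C_[t])) (hT : T ≤ S)
    (x1 : x ∈ S) (x2 : x ∈ L) (e : x * x = z) (c1 : c ∈ S) (c2 : c ∈ L') (ht : t = x * c) : Gd L z S x := by
  obtain ⟨a, g⟩ := h.good'
  obtain ⟨j, j1, j2⟩ := h.fuse g x2 e
  have xc : x * c = c * x := h.toOm.comm h' ne h.pg x1 x2 c1 c2
  have cn : zpowers c ≤ N_(L ⊓ C_[x]) := norm_inf (zpowers_le.2 (h.toOm.norm h' c2))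
    (le_norm_of_cent (zpowers_le.2 ?_) |>.trans (norm_le_norm_cent (zpowers x)) |>.trans_eq (by rw [cent_zpowers]))
  swap
  · rw [cent_zpowers]; exact mem_cent1.2 xc.symm
  obtain ⟨P, P1, P2⟩ := sylow_superset (H := L ⊓ C_[x] ⊔ zpowers c) Nat.prime_two (pg_le h.pg (zpowers_le.2 c1)) le_sup_right
  have P3 := P1.inf_normal le_sup_left (sup_le (le_norm _) cn)
  have d1 : Nat.card (BG.cj j⁻¹ (S ⊓ L ⊓ C_[a])) ∣ Nat.card ↥(P ⊓ (L ⊓ C_[x])) :=
    P3.card_dvd ((isPi_singleton Nat.prime_two).2 ((pg_le h.pg (inf_le_left.trans inf_le_left)).map _)) fun w hw => by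
      obtain ⟨q, hq, rfl⟩ := mem_cj'.1 hw
      refine mem_inf.2 ⟨mul_mem (mul_mem (inv_mem j1) (show q ∈ L from hq.1.2)) (inv_mem (inv_mem j1)), mem_cent1.2 ?_⟩
      have k : q * (j * x * j⁻¹) = j * x * j⁻¹ * q := by
        have : Commute q a := mem_cent1.1 hq.2
        rcases j2 with e | e <;> rw [e]
        exacts [this, this.inv_right]
      calc _ = j⁻¹ * (q * (j * x * j⁻¹)) * j := by group
        _ = _ := by rw [k]; group
  have d2 : Nat.card ↥(P ⊓ (L ⊓ C_[x])) ∣ Nat.card ↥(T ⊓ L) :=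
    (h.toOm.syl inf_le_left sy).card_dvd ((isPi_singleton Nat.prime_two).2 (pg_le (P1.pg Nat.prime_two) inf_le_left)) fun w hw => by
      refine ⟨⟨h.le hw.2.1, mem_cent1.2 ?_⟩, hw.2.1⟩
      rw [ht, ← mul_assoc, mem_cent1.1 hw.2.2, mul_assoc,
        h.toOm.comm h' ne (P1.pg Nat.prime_two) hw.1 hw.2.1 (P2 (mem_zpowers c)) c2, mul_assoc]
  have d3 : T ⊓ L ≤ S ⊓ L ⊓ C_[x] := fun w hw => by
    refine ⟨⟨hT hw.1, hw.2⟩, mem_cent1.2 ?_⟩
    have k := mem_cent1.1 (sy.le hw.1).2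
    rw [ht, ← mul_assoc, mul_assoc x, ← h.toOm.comm h' ne h.pg (hT hw.1) hw.2 c1 c2, ← mul_assoc] at k
    exact mul_right_cancel k
  refine h.gd_of x1 x2 e ?_
  rw [← h.cardC g, ← (conjg_cj j⁻¹ (S ⊓ L ⊓ C_[a])).card_eq]
  exact Nat.mul_le_mul_right _ (Nat.le_of_dvd (card_pos _) ((d1.trans d2).trans (card_dvd_of_le d3)))

/-- two commuting involutions with compatible Sylow subgroups -/
structure Pr (n : ℕ) (J K : Subgroup G) (z t : G) (S T : Subgroup G) : Prop where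
  hJ : St n J z S
  hK : St n K t T
  ne : z ≠ t
  zt : z * t = t * z
  sy : IsSylowIn 2 (S ⊓ T) (C_[z] ⊓ C_[t])

namespace Pr
variable {J K : Subgroup G} (h : Pr n J K z t S T)
include h
theorem symm : Pr n K J t z T S := ⟨h.hK, h.hJ, h.ne.symm, h.zt.symm, by rw [inf_comm, inf_comm C_[t]]; exact h.sy⟩
theorem toT (x1 : x ∈ S) (x2 : x * t = t * x) : x ∈ T := by
  have := h.sy.eq_of_pg Nat.prime_two (X := S ⊓ C_[t]) (pg_le h.hJ.pg inf_le_left)
    (inf_le_inf_left _ h.hK.sy.le) (inf_le_inf_right _ h.hJ.sy.le)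
  exact (this.le ⟨x1, mem_cent1.2 x2⟩).2
theorem toS (x1 : x ∈ T) (x2 : x * z = z * x) : x ∈ S := h.symm.toT x1 x2
theorem zT : z ∈ T := h.toT h.hJ.zm h.zt
theorem tS : t ∈ S := h.symm.zT
/-- Lemma E for `J` -/
theorem gdE (h' : Om n L' z) (ne : J ≠ L') (x1 : x ∈ S) (x2 : x ∈ J) (e : x * x = z) (c1 : c ∈ S) (c2 : c ∈ L')
    (ht : t = x * c) : Gd J z S x := h.hJ.gdE h' ne h.sy inf_le_left x1 x2 e c1 c2 ht
end Pr

theorem exists_pr {J K : Subgroup G} (hJ : Om n J z) (hK : Om n K t) (ne : z ≠ t) (zt : z * t = t * z)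
    (hX : IsPGroup 2 X) (hl : X ≤ C_[z] ⊓ C_[t]) : ∃ S T, Pr n J K z t S T ∧ X ≤ S ⊓ T := by
  obtain ⟨P, P1, P2⟩ := sylow_superset Nat.prime_two hX hl
  obtain ⟨S, S1, S2⟩ := sylow_superset Nat.prime_two (P1.pg Nat.prime_two) (P1.le.trans inf_le_left)
  obtain ⟨T, T1, T2⟩ := sylow_superset Nat.prime_two (P1.pg Nat.prime_two) (P1.le.trans inf_le_right)
  have := P1.eq_of_pg Nat.prime_two (X := S ⊓ T) (pg_le (S1.pg Nat.prime_two) inf_le_left) (le_inf S2 T2)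
    (inf_le_inf S1.le T1.le)
  exact ⟨S, T, ⟨⟨hJ, S1⟩, ⟨hK, T1⟩, ne, zt, this ▸ P1⟩, this ▸ P2⟩

/-- a counterexample to (i) -/
structure Cf (n : ℕ) (J K : Subgroup G) (z t y : G) (S T : Subgroup G) : Prop extends Pr n J K z t S T where
  yS : y ∈ S
  yT : y ∈ T
  yK : y ∈ K
  y1 : y * y ≠ 1
  mv : y ∉ N_(J)

theorem Cf.zN {J K : Subgroup G} (h : Cf n J K z t y S T) : z ∈ N_(K) := by
  by_contra e
  have := (h.hK.mvpw h.yT h.yK h.zT e (i := 1) (by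
    rw [← h.hJ.cz h.yS]; simpa using one_mem K)).1
  exact h.y1 (by simpa using this)

end Cfsg.Agent.H26.Qa
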