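import Cfsg.Agent.H26.Qa1

/-! 2-components with a unique involution: the symmetric configuration is impossible. -/

set_option autoImplicit false
set_option linter.unusedSectionVars false

open BG Cfsg H22 Subgroup
open scoped commutatorElement

namespace Cfsg.Agent.H26.Qa

universe u
variable {G : Type u} [Group G] [Finite G] {n : ℕ} {J K L L' P S T X : Subgroup G} {a b c f g j q t u x y z : G}

theorem cmem (hg : g ∈ S) (hx : x ∈ S) : g * x * g⁻¹ ∈ S := mul_mem (mul_mem hg hx) (inv_mem hg)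

theorem inv_cj (h : b * a * b⁻¹ = a⁻¹) : b⁻¹ * a * b = a⁻¹ := by
  have := congrArg (fun x => b⁻¹ * x⁻¹ * b) h
  simpa [mul_assoc] using this.symm

theorem St.gd3 (h : St n L z S) (hn : 2 ^ n ≤ 8) (a1 : a ∈ S) (a2 : a ∈ L) (e : a * a = z) : Gd L z S a := by
  refine h.gd_of a1 a2 e (hn.trans ?_)
  have := card_le_of_le (show zpowers a ≤ S ⊓ L ⊓ C_[a] from zpowers_le.2 ⟨⟨a1, a2⟩, mem_cent1_self a⟩)
  rw [Nat.card_zpowers, h.ord4 e] at this; omega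

theorem St.exj (h : St n L z S) (hn : 2 ^ n ≤ 8) (a1 : a ∈ S) (a2 : a ∈ L) (e : a * a = z) :
    ∃ j ∈ L, ∃ b ∈ S, b ∈ L ∧ b * a * b⁻¹ = a⁻¹ ∧ j * a * j⁻¹ = b ∧ ∃ c ∈ S, c ∈ L ∧ c * a * c⁻¹ = a⁻¹ ∧ j * c * j⁻¹ = a := by
  have nm : ∀ a, Gd L z S a → S ⊓ L ≤ L ⊓ N_(zpowers a) := fun a g q hq => ⟨hq.2, by
    refine cj_eq_self_iff.1 ?_
    rw [cj_zpowers]
    rcases g.nm q hq.1 hq.2 with e | e <;> rw [e]
    exact zpowers_inv⟩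
  have ga := h.gd3 hn a1 a2 e
  obtain ⟨b, b1, b2, b3, j, j1, j2⟩ : ∃ b ∈ S, b ∈ L ∧ b * a * b⁻¹ = a⁻¹ ∧ ∃ j ∈ L, j * a * j⁻¹ = b := by
    obtain ⟨b, b1, b2, b3⟩ := h.exinv e a1 a2
    obtain ⟨j, j1, j2 | j2⟩ := h.fuse (h.gd3 hn b1 b2 (h.ivsq e a1 a2 b1 b2 b3)) a2 e
    · exact ⟨b, b1, b2, b3, j, j1, j2⟩
    · exact ⟨b⁻¹, inv_mem b1, inv_mem b2, by rw [inv_inv]; exact inv_cj b3, j, j1, j2⟩
  have gb := h.gd3 hn b1 b2 (h.ivsq e a1 a2 b1 b2 b3)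
  have s1 : IsSylowIn 2 (S ⊓ L) (L ⊓ N_(zpowers a)) := h.syl.sub (nm a ga) inf_le_left
  have s2 : IsSylowIn 2 (BG.cj j⁻¹ (S ⊓ L)) (L ⊓ N_(zpowers a)) := by
    have := (h.syl.sub (nm b gb) inf_le_left).cj j⁻¹
    rwa [show BG.cj j⁻¹ (L ⊓ N_(zpowers b)) = L ⊓ N_(zpowers a) by
      rw [cj_inf, cj_of_mem (inv_mem j1), cj_norm, cj_zpowers, ← j2, show j⁻¹ * (j * a * j⁻¹) * j⁻¹⁻¹ = a by group]] at this
  obtain ⟨m, m1, m2⟩ := sylow_trans Nat.prime_two s1 s2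
  have nj : j * m ∈ N_(S ⊓ L) := by
    refine cj_eq_self_iff.1 ?_
    rw [← cj_cj, ← m2, cj_cj, mul_inv_cancel, cj_of_mem (one_mem _)]
  have jm : j * m ∈ L := mul_mem j1 m1.1
  have iv : ∀ x ∈ S, x ∈ L → x * x = z → x ∉ zpowers a → x * a * x⁻¹ = a⁻¹ := fun x x1 x2 x3 x4 =>
    (ga.nm x x1 x2).resolve_left fun e' => x4 (by
      rcases h.four e a1 a2 x1 x2 (mul_inv_eq_iff_eq_mul.1 e') x3 with e | e <;> simp [e])
  have nn : j * m ∉ N_(zpowers a) := fun k => by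
    have : b ∈ zpowers a := by
      have := conj_mem_of_norm (mul_mem k (inv_mem m1.2)) (mem_zpowers a)
      rwa [mul_inv_cancel_right, j2] at this
    obtain ⟨i, rfl⟩ := this
    exact h.ne4 e (by rw [← b3]; group)
  have zp : ∀ x ∈ zpowers a, x * x = z → zpowers x = zpowers a := fun x x1 x2 => by
    rcases h.mem4 e x1 (h.nesq x2) with e | e <;> rw [e]
    exact zpowers_inv
  have q1 := conj_mem_of_norm nj (⟨a1, a2⟩ : a ∈ S ⊓ L)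
  have q2 := conj_mem_of_norm' nj (⟨a1, a2⟩ : a ∈ S ⊓ L)
  have p1 : j * m * a * (j * m)⁻¹ * (j * m * a * (j * m)⁻¹) = z := by
    rw [← fix (h.le jm), ← e]; group
  have p2 : (j * m)⁻¹ * a * (j * m) * ((j * m)⁻¹ * a * (j * m)) = z := by
    rw [← fix (h.le (inv_mem jm)), ← e]; group
  refine ⟨j * m, jm, _, q1.1, q1.2, iv _ q1.1 q1.2 p1 fun k => nn ?_, rfl, _, q2.1, q2.2,
    iv _ q2.1 q2.2 p2 fun k => nn ?_, by group⟩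
  · rw [← cj_eq_self_iff, cj_zpowers]; exact zp _ k p1
  · rw [← inv_mem_iff, ← cj_eq_self_iff, cj_zpowers, inv_inv]; exact zp _ k p2

theorem Om.dg (h : Om n L z) (h' : Om n L' z) (ne : L ≠ L') (j1 : j ∈ L) (x1 : x ∈ L) (g1 : g ∈ L') (y1 : y ∈ L') :
    j * g * (x * y) * (j * g)⁻¹ * (j * x * j⁻¹ * (g * y * g⁻¹))⁻¹ ∈ OC z := by
  have o1 := h'.comm_le h ne.symm (commutator_mem_commutator g1 x1)
  have o2 := h.comm_le h' ne (commutator_mem_commutator j1 (cmem g1 y1))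
  have := mul_mem (conj_mem_of_norm (oc_norm z (h.le j1)) o1) (conj_mem_of_norm (oc_norm z (h.le (cmem j1 x1))) o2)
  convert this using 1; simp only [commutatorElement_def]; group

theorem lift2 {p p' q' : G} (hS : IsSylowIn 2 S C_[z]) (hr : g ∈ C_[z]) (p1 : p ∈ S) (p2 : p' ∈ S) (q1 : q ∈ S) (q2 : q' ∈ S)
    (h1 : g * p * g⁻¹ * p'⁻¹ ∈ OC z) (h2 : g * q * g⁻¹ * q'⁻¹ ∈ OC z) :
    ∃ r ∈ C_[z], r * p * r⁻¹ = p' ∧ r * q * r⁻¹ = q' := by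
  have k : ∀ p ∈ S, ∀ p' ∈ S, g * p * g⁻¹ * p'⁻¹ ∈ OC z → p ∈ S ⊓ cj g⁻¹ (OC z ⊔ S) := fun p p1 p' p2 h =>
    ⟨p1, mem_cj'.2 ⟨_, mul_mem (mem_sup_left h) (mem_sup_right p2), by group⟩⟩
  obtain ⟨r, r1, r2⟩ := lift (P := S ⊓ cj g⁻¹ (OC z ⊔ S)) (pg_le (hS.pg Nat.prime_two) inf_le_left) hS hr fun p hp => by
    obtain ⟨w, hw, e⟩ := mem_cj'.1 hp.2
    obtain ⟨o, o1, s, s1, rfl⟩ := (mem_sup_norm (hS.le.trans (oc_norm z))).1 hw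
    exact ⟨s, s1, by rw [e]; convert o1 using 1; group⟩
  exact ⟨r, r1, r2 p (k p p1 p' p2 h1) p' p2 h1, r2 q (k q q1 q' q2 h2) q' q2 h2⟩

theorem St.lemF (h : St n L z S) (e : a * a = z) (a1 : a ∈ S) (a2 : a ∈ L) (b1 : b ∈ S) (b2 : b ∈ L) (b3 : b * a * b⁻¹ = a⁻¹)
    (t1 : t ∈ S) (t2 : t ∈ N_(L)) (t3 : t * t = 1) (t4 : t * a = a * t) : t * b * t⁻¹ = b ∨ t * b * t⁻¹ = b * z := by
  have c1 : b⁻¹ * (t * b * t⁻¹) ∈ S := mul_mem (inv_mem b1) (cmem t1 b1)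
  have c2 : b⁻¹ * (t * b * t⁻¹) ∈ L := mul_mem (inv_mem b2) (conj_mem_of_norm t2 b2)
  have t5 : t * a * t⁻¹ = a := mul_inv_eq_iff_eq_mul.2 t4
  have t6 : t⁻¹ * a * t = a := by rw [mul_assoc, ← t4]; group
  have sq : b⁻¹ * (t * b * t⁻¹) * (b⁻¹ * (t * b * t⁻¹)) = 1 := by
    by_contra c4
    obtain ⟨i, hi⟩ := h.in4 e a1 a2 c1 c2 (mul_inv_eq_iff_eq_mul.1 (by
      rw [show b⁻¹ * (t * b * t⁻¹) * a * (b⁻¹ * (t * b * t⁻¹))⁻¹ = b⁻¹ * (t * (b * (t⁻¹ * a * t) * b⁻¹) * t⁻¹) * b by group,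
        t6, b3, show t * a⁻¹ * t⁻¹ = (t * a * t⁻¹)⁻¹ by group, t5, ← b3]; group)) c4
    have k : t * (b⁻¹ * (t * b * t⁻¹)) * t⁻¹ = (b⁻¹ * (t * b * t⁻¹))⁻¹ := by
      rw [show t * (b⁻¹ * (t * b * t⁻¹)) * t⁻¹ = t * b⁻¹ * t⁻¹ * (t * t) * b * (t * t)⁻¹ by group, t3]; group
    apply h.ne4 e
    dsimp only at hi
    rw [← t5]; nth_rewrite 2 [← hi]
    rw [← conj_zpow, k, inv_zpow, hi, t5]
  rcases h.uq _ c2 sq with e | e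
  · left; exact (inv_mul_eq_one.1 e).symm
  · right; exact inv_mul_eq_iff_eq_mul.1 e

/-- the symmetric configuration -/
structure Sy (n : ℕ) (J K : Subgroup G) (z t a y : G) (S T : Subgroup G) : Prop extends Pr n J K z t S T where
  aS : a ∈ S
  aT : a ∈ T
  aJ : a ∈ J
  a2 : a * a = z
  am : a ∉ N_(K)
  yS : y ∈ S
  yT : y ∈ T
  yK : y ∈ K
  y2 : y * y = t
  ym : y ∉ N_(J)

theorem Pr.tJ (h : Pr n J K z t S T) : t ∉ J := fun m => (h.hJ.uq t m h.hK.sq).elim h.hK.ne fun e => h.ne e.symm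

namespace Sy
variable (h : Sy n J K z t a y S T)
include h
theorem symm : Sy n K J t z y a T S := ⟨h.toPr.symm, h.yT, h.yS, h.yK, h.y2, h.ym, h.aT, h.aS, h.aJ, h.a2, h.am⟩
theorem zN : z ∈ N_(K) := Cf.zN ⟨h.toPr, h.yS, h.yT, h.yK, h.hK.nesq h.y2, h.ym⟩
theorem tN : t ∈ N_(J) := h.symm.zN

theorem alpha (u1 : u ∈ T) (u2 : u ∈ K) (u4 : z * u * z⁻¹ = u * t) (hf : f = u * (a * u * a⁻¹)) :
    f ∈ S ∧ f ∈ T ∧ f ∉ N_(J) ∧ f * a * f⁻¹ = a * t := by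
  have c : u * (a * u * a⁻¹) = a * u * a⁻¹ * u := h.hK.mvcom u1 u2 h.aT h.am u1 u2
  have fT : f ∈ T := hf ▸ mul_mem u1 (cmem h.aT u1)
  have k : a * f * a⁻¹ = f * t := by
    rw [hf, show a * (u * (a * u * a⁻¹)) * a⁻¹ = a * u * a⁻¹ * (a * a * u * (a * a)⁻¹) by group, h.a2, u4, ← mul_assoc, ← c]
  have k2 : f * a * f⁻¹ = a * t := by
    have k3 : a * f = f * t * a := by rw [← k]; group
    calc f * a * f⁻¹ = f * t * (t * a) * f⁻¹ := by rw [mul_assoc f t, ← mul_assoc t, h.hK.sq, one_mul]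
      _ = (f * t * f⁻¹) * (f * t * a) * f⁻¹ := by group
      _ = t * a := by rw [← k3, h.hK.fx fT]; group
      _ = a * t := (h.hK.cz h.aT).symm
  refine ⟨h.toS fT (mul_inv_eq_iff_eq_mul.1 ?_), fT, fun m => h.tJ ?_, k2⟩
  · rw [← h.a2, show f * (a * a) * f⁻¹ = f * a * f⁻¹ * (f * a * f⁻¹) by group, k2, mul_assoc, ← mul_assoc t,
      ← h.hK.cz h.aT, mul_assoc, h.hK.sq, mul_one]
  · simpa [k2] using mul_mem (inv_mem h.aJ) (conj_mem_of_norm m h.aJ)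

theorem alpha2 (u1 : u ∈ T) (u2 : u ∈ K) (u4 : z * u * z⁻¹ = u * t) (b1 : b ∈ S) (b2 : b ∈ J) (b3 : b * a * b⁻¹ = a⁻¹) :
    t * b * t⁻¹ = b * z := by
  obtain ⟨f1, -, f3, f4⟩ := h.alpha u1 u2 u4 rfl
  refine (h.hJ.lemF h.a2 h.aS h.aJ b1 b2 b3 h.tS h.tN h.hK.sq (h.hK.cz h.aT).symm).resolve_left fun e => h.hJ.ne4 h.a2 ?_
  have k := h.hJ.mvcom h.aS h.aJ f1 f3 b1 b2
  rw [f4, mul_assoc a t, mul_inv_eq_iff_eq_mul.1 e, ← mul_assoc, ← mul_assoc] at k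
  rw [← b3, mul_right_cancel k]; group

theorem alpha3 (u1 : u ∈ T) (u2 : u ∈ K) (u4 : z * u * z⁻¹ = u * t) : Gd J z S a := by
  obtain ⟨f1, -, f3, f4⟩ := h.alpha u1 u2 u4 rfl
  have g := h.gdE (h.hJ.cj f1).toOm (mvne f3) (inv_mem h.aS) (inv_mem h.aJ) (by rw [← mul_inv_rev, h.a2, h.hJ.iv])
    (cmem f1 h.aS) (conj_mem_cj _ h.aJ) (by rw [f4]; group)
  refine ⟨h.aS, h.aJ, h.a2, fun q q1 q2 => ?_⟩
  have := g.nm q q1 q2
  rw [show q * a⁻¹ * q⁻¹ = (q * a * q⁻¹)⁻¹ by group, inv_inj, inv_inj] at this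
  exact this

theorem yc (ht : t * x = x * t) : y⁻¹ * x * y = y * x * y⁻¹ := by
  calc _ = y * ((y * y)⁻¹ * (x * (y * y))) * y⁻¹ := by group
    _ = _ := by rw [h.y2, ← ht]; group

theorem beta (u1 : u ∈ T) (u2 : u ∈ K) (u3 : u * y * u⁻¹ = y⁻¹)
    (hb : ∀ b ∈ S, b ∈ J → b * a * b⁻¹ = a⁻¹ → t * b = b * t) : z * u * z⁻¹ ≠ u := fun e => by
  have mv : ∀ b ∈ S, b ∈ J → b * a * b⁻¹ = a⁻¹ → b ∈ T ∧ b ∉ N_(K) := fun b b1 b2 b3 => by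
    have bT := h.toT b1 (hb b b1 b2 b3).symm
    refine ⟨bT, fun m => ?_⟩
    have k : y⁻¹ * (b * y * b⁻¹) = y * b * y⁻¹ * b⁻¹ := by rw [← h.yc (hb b b1 b2 b3)]; group
    have c1 := h.hJ.mvcom b1 b2 h.yS h.ym b1 b2
    have c2 := h.hJ.mvcom b1 b2 h.yS h.ym h.aS h.aJ
    have bb := h.hJ.ivsq h.a2 h.aS h.aJ b1 b2 b3
    have k2 : a * (y * b * y⁻¹ * b⁻¹) * a⁻¹ = y * b * y⁻¹ * b⁻¹ * z := by
      rw [← mul_assoc, c2, ← h.a2, ← b3, show y * b * y⁻¹ * a * b⁻¹ * (b * a * b⁻¹) = y * b * y⁻¹ * (a * a) * b⁻¹ by group,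
        mul_assoc, mul_assoc _ b⁻¹, h.a2, h.hJ.cz (inv_mem b1)]
    rcases h.hK.uq _ (k ▸ mul_mem (inv_mem h.yK) (conj_mem_of_norm m h.yK)) (by
      rw [show y * b * y⁻¹ * b⁻¹ * (y * b * y⁻¹ * b⁻¹) = y * b * y⁻¹ * b⁻¹ * (y * b * y⁻¹ * b) * (b * b)⁻¹ by group, ← c1,
        show y * b * y⁻¹ * b⁻¹ * (b * (y * b * y⁻¹)) = y * (b * b) * y⁻¹ by group, bb, h.hJ.fx h.yS]; group) with e | e
    · rw [e] at k2; exact h.hJ.ne (by simpa using k2.symm)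
    · rw [e, h.hK.fx h.aT] at k2; exact h.hJ.ne (by simpa using k2.symm)
  obtain ⟨b, b1, b2, b3⟩ := h.hJ.exinv h.a2 h.aS h.aJ
  have b4 : a * b * a * (a * b)⁻¹ = a⁻¹ := by rw [show a * b * a * (a * b)⁻¹ = a * (b * a * b⁻¹) * a⁻¹ by group, b3]; group
  obtain ⟨m1, m2⟩ := mv b b1 b2 b3
  obtain ⟨m3, m4⟩ := mv _ (mul_mem h.aS b1) (mul_mem h.aJ b2) b4
  have c1 : Commute u (a * y * a⁻¹) := h.hK.mvcom h.yT h.yK h.aT h.am u1 u2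
  have c2 : Commute u (b * y * b⁻¹) := h.hK.mvcom h.yT h.yK m1 m2 u1 u2
  have c3 : Commute u (a * b * y * (a * b)⁻¹) := h.hK.mvcom h.yT h.yK m3 m4 u1 u2
  have c4 : Commute u z := (mul_inv_eq_iff_eq_mul.1 e).symm
  have c5 := h.hJ.mvcom h.aS h.aJ h.yS h.ym b1 b2
  have k : y = b * y * b⁻¹ * z * (a * b * y * (a * b)⁻¹)⁻¹ * (a * y * a⁻¹) := by
    have k0 : b⁻¹ * a * b = a⁻¹ := inv_cj b3
    have k1 : b⁻¹ * z * a * b = a := by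
      rw [h.hJ.cz (inv_mem b1), show z * b⁻¹ * a * b = z * (b⁻¹ * a * b) by group, k0, ← h.a2]; group
    calc y = b * (y * a * y⁻¹) * b⁻¹ * y * a⁻¹ := by rw [c5]; group
      _ = b * y * (b⁻¹ * z * a * b) * y⁻¹ * b⁻¹ * y * a⁻¹ := by rw [k1]; group
      _ = _ := by group
  have c6 : Commute u y := by rw [k]; exact ((c2.mul_right c4).mul_right c3.inv_right).mul_right c1
  exact h.hK.ne4 h.y2 (by rw [← u3, c6.eq]; group)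

theorem uz (u1 : u ∈ T) (u2 : u ∈ K) (u3 : u * y * u⁻¹ = y⁻¹) : z * u * z⁻¹ = u * t := by
  by_cases hb : ∀ b ∈ S, b ∈ J → b * a * b⁻¹ = a⁻¹ → t * b = b * t
  · exact (h.hK.lemF h.y2 h.yT h.yK u1 u2 u3 h.zT h.zN h.hJ.sq (h.hJ.cz h.yS).symm).resolve_left (h.beta u1 u2 u3 hb)
  · push Not at hb
    obtain ⟨b, b1, b2, b3, b4⟩ := hb
    exact h.symm.alpha2 b1 b2 ((h.hJ.lemF h.a2 h.aS h.aJ b1 b2 b3 h.tS h.tN h.hK.sq (h.hK.cz h.aT).symm).resolve_left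
      fun e => b4 (mul_inv_eq_iff_eq_mul.1 e)) u1 u2 u3

theorem gd : Gd J z S a :=
  let ⟨_, u1, u2, u3⟩ := h.hK.exinv h.y2 h.yT h.yK; h.alpha3 u1 u2 (h.uz u1 u2 u3)

theorem rel : y * (a * y * a⁻¹) = z := by
  obtain ⟨u, u1, u2, u3⟩ := h.hK.exinv h.y2 h.yT h.yK
  obtain ⟨b, b1, b2, b3⟩ := h.hJ.exinv h.a2 h.aS h.aJ
  obtain ⟨v, v1, -, v3, v4⟩ : ∃ v ∈ T, v ∈ S ∧ v ∉ N_(K) ∧ v * y * v⁻¹ = y * z :=
    ⟨_, h.symm.alpha b1 b2 (h.symm.uz b1 b2 b3) rfl⟩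
  have k : a * v * y * (a * v)⁻¹ = a * y * a⁻¹ * z := by
    rw [← h.hJ.fx h.aS, show a * v * y * (a * v)⁻¹ = a * (v * y * v⁻¹) * a⁻¹ by group, v4]; group
  have c1 : Commute u (a * y * a⁻¹) := h.hK.mvcom h.yT h.yK h.aT h.am u1 u2
  have c0 : y * (a * y * a⁻¹) = a * y * a⁻¹ * y := h.hK.mvcom h.yT h.yK h.aT h.am h.yT h.yK
  have av : a * v ∈ N_(K) := by
    by_contra m
    have c2 : Commute u (a * v * y * (a * v)⁻¹) := h.hK.mvcom h.yT h.yK (mul_mem h.aT v1) m u1 u2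
    have c3 := c1.inv_right.mul_right c2
    rw [k, inv_mul_cancel_left] at c3
    have := h.uz u1 u2 u3
    rw [← c3.eq, mul_inv_cancel_right] at this
    exact h.hK.ne (by simpa using this)
  have m1 := conj_mem_of_norm av h.yK
  rw [k] at m1
  have m2 : y * z ∈ BG.cj a K := mem_cj'.2 ⟨_, conj_mem_of_norm' h.zN m1, by
    rw [← h.a2]; group⟩
  rcases h.hK.int (h.hK.cj h.aT) (mvne h.am) (mul_mem h.yT (mul_mem (cmem h.aT h.yT) h.zT)) (mul_mem h.yK m1)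
    (by rw [← mul_assoc, c0, mul_assoc]; exact mul_mem (conj_mem_cj a h.yK) m2) with e | e
  · rw [← h.hJ.iv]; exact eq_inv_of_mul_eq_one_left (by rw [mul_assoc]; exact e)
  · rw [← h.y2, mul_right_inj] at e
    refine absurd (h.hJ.mvpw h.aS h.aJ (inv_mem h.yS) (fun m => h.ym (inv_mem_iff.1 m)) (i := 1) ?_).1
      (by simpa using h.hJ.nesq h.a2)
    have : a⁻¹ * (y⁻¹ * a * y⁻¹⁻¹) = a⁻¹ * z⁻¹ * a := by
      calc _ = a⁻¹ * (a * y * a⁻¹ * z)⁻¹ * a * y := by rw [e]; group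
        _ = _ := by group
    rw [pow_one, this]
    exact conj_mem_of_norm' (le_norm J h.aJ) (inv_mem h.hJ.mem)

theorem n3 : 2 ^ n ≤ 8 := by
  have : S ⊓ J ⊓ C_[a] ≤ zpowers a := fun c hc => by
    have c1 : Commute c a := mem_cent1.1 hc.2
    have c2 : Commute c (y * a * y⁻¹) := h.hJ.mvcom h.aS h.aJ h.yS h.ym hc.1.1 hc.1.2
    have cT : c ∈ T := h.toT hc.1.1 (by rw [← h.symm.rel]; exact c1.mul_right c2)
    by_cases c4 : c * c = 1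
    · rcases h.hJ.uq c hc.1.2 c4 with e | e <;> rw [e]
      exacts [one_mem _, h.a2 ▸ mul_mem (mem_zpowers a) (mem_zpowers a)]
    have cm : c ∉ N_(K) := fun m => h.am (zpowers_le.2 m (h.hJ.in4 h.a2 h.aS h.aJ hc.1.1 hc.1.2 c1 c4))
    have c3 : Commute y (c * y * c⁻¹) := h.hK.mvcom h.yT h.yK cT cm h.yT h.yK
    have f2 : (y⁻¹ * (c * y * c⁻¹)) ^ 2 = 1 := by
      rw [c3.inv_left.mul_pow, conj_pow, inv_pow, pow_two, h.y2, h.hK.fx cT, inv_mul_cancel]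
    have := (h.hJ.mvpw hc.1.1 hc.1.2 (inv_mem h.yS) (fun m => h.ym (inv_mem_iff.1 m)) (i := 2) (by
      rw [show (c⁻¹ * (y⁻¹ * c * y⁻¹⁻¹)) ^ 2 = c⁻¹ * (y⁻¹ * (c * y * c⁻¹)) ^ 2 * c by simp only [pow_two]; group, f2]
      simpa using one_mem J)).1
    rcases h.hJ.four h.a2 h.aS h.aJ hc.1.1 hc.1.2 c1
      ((h.hJ.uq _ (mul_mem hc.1.2 hc.1.2) (by simpa [pow_two] using this)).resolve_left c4) with e | e <;> simp [e]
  have := card_le_of_le this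
  rw [Nat.card_zpowers, h.hJ.ord4 h.a2] at this
  rw [← h.hJ.cardC h.gd]; omega

theorem false : False := by
  obtain ⟨j, j1, u, u1, u2, u3, u4, v, v1, v2, v3, v4⟩ := h.hK.exj h.n3 h.yT h.yK h.y2
  obtain ⟨f, hf⟩ : ∃ f, f = u * (a * u * a⁻¹) := ⟨_, rfl⟩
  obtain ⟨f1, f2, f3, f4⟩ := h.alpha u1 u2 (h.uz u1 u2 u3) hf
  obtain ⟨-, g2, g3, -⟩ := h.alpha v1 v2 (h.uz v1 v2 v3) rfl
  have dg := fun x (hx : x ∈ K) => h.hK.toOm.dg (h.hK.cj h.aT).toOm (mvne h.am) j1 hx (conj_mem_cj a j1) (conj_mem_cj a hx)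
  have cc : ∀ a j x : G, a * j * a⁻¹ * (a * x * a⁻¹) * (a * j * a⁻¹)⁻¹ = a * (j * x * j⁻¹) * a⁻¹ := fun _ _ _ => by group
  simp only [cc] at dg
  obtain ⟨r, r1, r2, r3⟩ := lift2 h.hK.sy (mul_mem (h.hK.le j1) ((h.hK.cj h.aT).le (conj_mem_cj a j1))) h.zT f2 g2 h.zT
    (by have := dg y h.yK; rwa [h.rel, u4, ← hf] at this) (by have := dg v v2; rwa [v4, h.rel] at this)
  have O1 := h.hJ.toOm.cj r
  have O2 := (h.hJ.cj h.yS).toOm.cj r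
  rw [r2] at O1 O2
  have tl : t ∈ pLay 2 C_[f] := by
    have := mul_mem (O1.le_lay (conj_mem_cj r h.aJ)) (O2.le_lay (conj_mem_cj r (conj_mem_cj y h.aJ)))
    rwa [show r * a * r⁻¹ * (r * (y * a * y⁻¹) * r⁻¹) = r * (a * (y * a * y⁻¹)) * r⁻¹ by group, h.symm.rel, fix r1] at this
  have ff : f * f = 1 := O1.sq
  have da : a * (f * a * f⁻¹) = z * t := by rw [f4, ← mul_assoc, h.a2]
  have key : ∀ b ∈ S, b ∈ J → b * b = z → z * (b * (f * b * f⁻¹)) ∈ pLay 2 C_[f] := fun b b1 b2 b3 => by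
    obtain ⟨i, i1, i2⟩ := h.hJ.fuse (h.hJ.gd3 h.n3 b1 b2 b3) h.aJ h.a2
    have d1 := h.hJ.toOm.dg (h.hJ.cj f1).toOm (mvne f3) i1 h.aJ (conj_mem_cj f i1) (conj_mem_cj f h.aJ)
    have : i * a * i⁻¹ * (f * (i * a * i⁻¹) * f⁻¹) = b * (f * b * f⁻¹) := by
      rcases i2 with e | e <;> rw [e]
      rw [h.hJ.inv4 b3, show f * (b * z) * f⁻¹ = f * b * f⁻¹ * (f * z * f⁻¹) by group, h.hJ.fx f1, h.hJ.cz (cmem f1 b1),
        mul_assoc, h.hJ.sq']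
    rw [cc, this, da] at d1
    obtain ⟨w, w1, w2, w3⟩ := lift2 h.hJ.sy (mul_mem (h.hJ.le i1) ((h.hJ.cj f1).le (conj_mem_cj f i1)))
      (mul_mem h.hJ.zm h.tS) (mul_mem b1 (cmem f1 b1)) f1 f1 d1 (by
        have := h.hJ.comm_le (h.hJ.cj f1).toOm (mvne f3) (commutator_mem_commutator i1 (conj_mem_cj f i1))
        convert this using 1
        rw [commutatorElement_def, show i * (f * i * f⁻¹) * f * (i * (f * i * f⁻¹))⁻¹ * f⁻¹ =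
          i * f * i * (f * f) * f⁻¹ * i⁻¹ * f * (f * f)⁻¹ * i⁻¹ * f⁻¹ by group, ff]; group)
    have := lay_conj tl (mem_cent1.2 (mul_inv_eq_iff_eq_mul.1 w3))
    rwa [show w * t * w⁻¹ = (w * z * w⁻¹)⁻¹ * (w * (z * t) * w⁻¹) by group, w2, fix w1, h.hJ.iv] at this
  obtain ⟨b, b1, b2, b3⟩ := h.hJ.exinv h.a2 h.aS h.aJ
  have b4 : a * b * a * (a * b)⁻¹ = a⁻¹ := by rw [show a * b * a * (a * b)⁻¹ = a * (b * a * b⁻¹) * a⁻¹ by group, b3]; group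
  have ab := h.hJ.ivsq h.a2 h.aS h.aJ (mul_mem h.aS b1) (mul_mem h.aJ b2) b4
  have zl := mul_mem (mul_mem (key a h.aS h.aJ h.a2) (key b b1 b2 (h.hJ.ivsq h.a2 h.aS h.aJ b1 b2 b3)))
    (key _ (mul_mem h.aS b1) (mul_mem h.aJ b2) ab)
  have e1 : z * (a * (f * a * f⁻¹)) * (z * (b * (f * b * f⁻¹))) = a * b * (f * (a * b) * f⁻¹) := by
    rw [← h.hJ.cz (mul_mem h.aS (cmem f1 h.aS)), mul_assoc, h.hJ.sq', mul_assoc, ← mul_assoc (f * a * f⁻¹),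
      ← h.hJ.mvcom h.aS h.aJ f1 f3 b1 b2]; group
  have e2 : a * b * (f * (a * b) * f⁻¹) * (z * (a * b * (f * (a * b) * f⁻¹))) = z := by
    have m := mul_mem h.aS b1
    rw [← mul_assoc, h.hJ.cz (mul_mem m (cmem f1 m)), mul_assoc, mul_assoc (a * b), ← mul_assoc (f * (a * b) * f⁻¹),
      ← h.hJ.mvcom m (mul_mem h.aJ b2) f1 f3 m (mul_mem h.aJ b2),
      show a * b * (a * b * (f * (a * b) * f⁻¹) * (f * (a * b) * f⁻¹)) = a * b * (a * b) * (f * (a * b * (a * b)) * f⁻¹) by group,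
      ab, h.hJ.fx f1, h.hJ.sq, mul_one]
  rw [e1, e2] at zl
  have := cj_eq_self_iff.2 (O1.lay zl)
  rw [cj_cj, cj_eq_cj_iff, ← r3] at this
  exact g3 (by convert this using 1; group)
end Sy

end Cfsg.Agent.H26.Qa
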