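import Cfsg.Agent.H26.Qa2
import Cfsg.Agent.H25.QaD
import Cfsg.Agent.H02.QaA
import Cfsg.Agent.H20.QaII

/-! 2-components with a unique involution: the normalizer theorem. -/

set_option autoImplicit false
set_option linter.unusedSectionVars false

open BG Cfsg H22 Subgroup
open scoped commutatorElement

namespace Cfsg.Agent.H26.Qa

universe u
variable {G : Type u} [Group G] [Finite G] {n : ℕ} {J K S T : Subgroup G} {a t y z : G}

theorem Cf.pw (h : Cf n J K z t y S T) : ∃ i : ℕ, (y * y) ^ i = t :=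
  h.hK.pw (mul_mem h.yT h.yT) (mul_mem h.yK h.yK) h.y1

theorem Cf.tN (h : Cf n J K z t y S T) : t ∈ N_(J) := by
  by_contra mv
  obtain ⟨a, g⟩ := h.hJ.good'
  have dT : a * (t * a * t⁻¹) ∈ T := h.toT (mul_mem g.s (cmem h.tS g.s)) (mul_inv_eq_iff_eq_mul.1 (by
    rw [show t * (a * (t * a * t⁻¹)) * t⁻¹ = t * a * t⁻¹ * (t * t * a * (t * t)⁻¹) by group, h.hK.sq,
      h.hJ.mvcom g.s g.l h.tS mv g.s g.l]; group)).symm
  have c := eq_one_of h.hK.pg (mul_mem (mul_mem (mul_mem dT h.yT) (inv_mem dT)) (inv_mem h.yT))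
    (H25.QaD.diag h.hJ.toOm h.hK.toOm h.zt mv h.zN h.hJ.pg g.s g.l g.sq h.tS h.yK)
  have yt : y * t = t * y := h.hK.cz h.yT
  have y2 : y * y ∉ N_(J) := fun m => by
    obtain ⟨i, hi⟩ := h.pw
    exact mv (hi ▸ pow_mem m i)
  have m : y * t ∉ N_(J) := fun m => y2 (by
    have := mul_mem m m
    rwa [mul_assoc, ← mul_assoc t, ← yt, mul_assoc, h.hK.sq, mul_one] at this)
  refine h.hJ.nesq g.sq (h.hJ.cen g.s g.l fun q q1 q2 => ?_)
  have c1 : Commute q (y * a * y⁻¹) := h.hJ.mvcom g.s g.l h.yS h.mv q1 q2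
  have c2 : Commute q (y * t * a * (y * t)⁻¹) := h.hJ.mvcom g.s g.l (mul_mem h.yS h.tS) m q1 q2
  have c3 : Commute q (t * a * t⁻¹) := h.hJ.mvcom g.s g.l h.tS mv q1 q2
  have := (c1.mul_right c2).mul_right c3.inv_right
  rwa [show y * a * y⁻¹ * (y * t * a * (y * t)⁻¹) * (t * a * t⁻¹)⁻¹ =
    (a * (t * a * t⁻¹) * y * (a * (t * a * t⁻¹))⁻¹ * y⁻¹)⁻¹ * a by group, c, inv_one, one_mul] at this

theorem Cf.case2 (h : Cf n J K z t y S T) (y2 : y * y ∈ N_(J)) : ∃ a, Gd J z S a ∧ y * y * a = a * (y * y) := by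
  obtain ⟨a, a1, a2, a3, a4⟩ := h.hJ.good
  rcases a4 _ (mul_mem h.yS h.yS) y2 with e | e
  · exact ⟨a, ⟨a1, a2, a3, fun q q1 q2 => a4 q q1 (le_norm J q2)⟩, mul_inv_eq_iff_eq_mul.1 e⟩
  obtain ⟨w, hw⟩ : ∃ w, w = a * (y * a * y⁻¹) := ⟨_, rfl⟩
  have wS : w ∈ S := hw ▸ mul_mem a1 (cmem h.yS a1)
  have k1 : y * w * y⁻¹ = w * z := by
    rw [hw, show y * (a * (y * a * y⁻¹)) * y⁻¹ = y * a * y⁻¹ * (y * y * a * (y * y)⁻¹) by group, e, h.hJ.inv4 a3,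
      h.hJ.mvcom a1 a2 h.yS h.mv a1 a2]; group
  have k2 : Commute (y * y) w := mul_inv_eq_iff_eq_mul.1 (by
    rw [show y * y * w * (y * y)⁻¹ = y * (y * w * y⁻¹) * y⁻¹ by group, k1,
      show y * (w * z) * y⁻¹ = y * w * y⁻¹ * (y * z * y⁻¹) by group, k1, h.hJ.fx h.yS, mul_assoc, h.hJ.sq, mul_one])
  have wT : w ∈ T := h.toT wS (by obtain ⟨i, hi⟩ := h.pw; rw [← hi]; exact (k2.pow_left i).symm)
  have k3 : y⁻¹ * (w * y * w⁻¹) = z := by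
    have : w * y = y * w * z := by
      calc w * y = (w * z) * (z * y) := by rw [mul_assoc, h.hJ.sq']
        _ = y * w * (y⁻¹ * z * y) := by rw [← k1]; group
        _ = _ := by rw [h.hJ.cz (inv_mem h.yS), inv_mul_cancel_right]
    rw [this, mul_assoc, ← h.hJ.cz (inv_mem wS)]; group
  have wm : w ∉ N_(K) := fun m => h.toPr.symm.tJ (k3 ▸ mul_mem (inv_mem h.yK) (conj_mem_of_norm m h.yK))
  have yy : y * y = t := (h.hK.uq _ (mul_mem h.yK h.yK) (by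
    simpa [pow_two] using (h.hK.mvpw h.yT h.yK wT wm (i := 2) (by rw [k3, pow_two, h.hJ.sq]; exact one_mem K)).1)).resolve_left h.y1
  obtain ⟨u, u1, u2, u3⟩ := h.hK.exinv yy h.yT h.yK
  have uz : u * z * u⁻¹ = z * t := by
    rw [← k3, show u * (y⁻¹ * (w * y * w⁻¹)) * u⁻¹ = (u * y * u⁻¹)⁻¹ * (u * (w * y * w⁻¹)) * u⁻¹ by group, u3,
      h.hK.mvcom h.yT h.yK wT wm u1 u2, k3, h.zt, ← yy, ← k3]; group
  rw [yy] at e ⊢
  have at' : a * t * a⁻¹ = z * t := by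
    rw [← a3, show a * t * a⁻¹ = a * (t * a * t⁻¹)⁻¹ * t by group, e]; group
  have g1 : a * u * a * z * (a * u * a)⁻¹ = t := by
    rw [show a * u * a * z * (a * u * a)⁻¹ = a * (u * (a * z * a⁻¹) * u⁻¹) * a⁻¹ by group, h.hJ.fx a1, uz,
      show a * (z * t) * a⁻¹ = a * z * a⁻¹ * (a * t * a⁻¹) by group, h.hJ.fx a1, at', h.hJ.sq']
  have g2 : a * u * a * t * (a * u * a)⁻¹ = z := by
    rw [show a * u * a * t * (a * u * a)⁻¹ = a * (u * (a * t * a⁻¹) * u⁻¹) * a⁻¹ by group, at',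
      show u * (z * t) * u⁻¹ = u * z * u⁻¹ * (u * t * u⁻¹) by group, uz, h.hK.fx u1, mul_assoc z, h.hK.sq, mul_one, h.hJ.fx a1]
  obtain ⟨c, c1, c2⟩ := sylow_trans Nat.prime_two (A := cj (a * u * a) (S ⊓ T)) (by
    have := h.sy.cj (a * u * a)
    rwa [cj_inf _ C_[z], cj_cent1, cj_cent1, g1, g2, inf_comm C_[t]] at this) h.sy
  obtain ⟨g, g3, g4, g5⟩ : ∃ g : G, g * z * g⁻¹ = t ∧ g * t * g⁻¹ = z ∧ ∀ x ∈ S ⊓ T, g * x * g⁻¹ ∈ S ⊓ T :=
    ⟨c * (a * u * a), by rw [← fix c1.2, ← g1]; group, by rw [← fix c1.1, ← g2]; group, fun x hx => by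
      rw [c2, cj_cj]; exact conj_mem_cj _ hx⟩
  have O1 := h.hK.toOm.cj g
  have O2 := (h.hK.cj wT).toOm.cj g
  rw [g4] at O1 O2
  have ne : cj g K ≠ cj g (cj w K) := fun e => wm (by
    rw [cj_cj, eq_comm, cj_eq_cj_iff] at e; simpa using e)
  have p1 := g5 y⁻¹ (inv_mem ⟨h.yS, h.yT⟩)
  have p2 := g5 (w * y * w⁻¹) ⟨cmem wS h.yS, cmem wT h.yT⟩
  have q1 := conj_mem_cj g (inv_mem h.yK)
  have q2 := conj_mem_cj g (conj_mem_cj w h.yK)
  have ht : t = g * y⁻¹ * g⁻¹ * (g * (w * y * w⁻¹) * g⁻¹) := by rw [← g3, ← k3]; group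
  by_cases e1 : J = cj g K
  · exact ⟨_, h.gdE O2 (e1 ▸ ne) p1.1 (e1 ▸ q1) (by rw [← g4, ← h.hK.iv, ← yy]; group) p2.1 q2 ht, (h.hK.cz p1.2).symm⟩
  by_cases e2 : J = cj g (cj w K)
  · exact ⟨_, h.gdE O1 e1 p2.1 (e2 ▸ q2) (by rw [← g4, ← h.hK.fx wT, ← yy]; group) p1.1 q1
      (ht.trans (O1.comm O2 ne h.hJ.pg p1.1 q1 p2.1 q2)), (h.hK.cz p2.2).symm⟩
  have r1 : Commute a _ := h.hJ.toOm.comm O1 e1 h.hJ.pg a1 a2 p1.1 q1
  have r2 : Commute a _ := h.hJ.toOm.comm O2 e2 h.hJ.pg a1 a2 p2.1 q2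
  have := r1.mul_right r2
  rw [← ht] at this
  exact absurd (by rw [← e, ← this.eq]; group) (h.hJ.ne4 a3)

theorem Cf.false (h : Cf n J K z t y S T) (y2 : y * y ∈ N_(J)) : False := by
  obtain ⟨a, g, ya⟩ := h.case2 y2
  have am := H02.QaA.case1a h y2 g ya
  have aT : a ∈ T := h.toT g.s (by obtain ⟨i, hi⟩ := h.pw; rw [← hi]; exact (Commute.pow_left ya i).symm)
  have c := h.hJ.mvcom g.s g.l (inv_mem h.yS) (fun m => h.mv (inv_mem_iff.1 m)) (inv_mem g.s) (inv_mem g.l)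
  have := (h.hK.mvpw h.yT h.yK aT am (i := 2) (by
    rw [show (y⁻¹ * (a * y * a⁻¹)) ^ 2 = y⁻¹ * a * y⁻¹⁻¹ * (a⁻¹ * (y⁻¹ * a * y⁻¹⁻¹)) * a⁻¹ by simp only [pow_two]; group, c,
      show y⁻¹ * a * y⁻¹⁻¹ * (y⁻¹ * a * y⁻¹⁻¹ * a⁻¹) * a⁻¹ = y⁻¹ * (a * a) * y⁻¹⁻¹ * (a * a)⁻¹ by group, g.sq,
      h.hJ.fx (inv_mem h.yS), mul_inv_cancel]
    exact one_mem K)).1
  exact Sy.false ⟨h.toPr, g.s, aT, g.l, g.sq, am, h.yS, h.yT, h.yK,
    (h.hK.uq _ (mul_mem h.yK h.yK) (by simpa [pow_two] using this)).resolve_left h.y1, h.mv⟩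

theorem part1 (hJ : Om n J z) (hK : Om n K t) (y1 : y ∈ K) (y2 : IsPGroup 2 (zpowers y)) (y3 : y * y ≠ 1)
    (y4 : y * z = z * y) : y ∈ N_(J) := by
  by_cases ne : z = t
  · subst ne; exact hJ.norm hK y1
  obtain ⟨i, hi⟩ := hK.pw y2 (mem_zpowers y) y1 fun e => y3 (by rw [e, one_mul])
  obtain ⟨S, T, h, hy⟩ := exists_pr hJ hK ne (by rw [← hi]; exact (Commute.pow_left y4 i).symm) y2
    (zpowers_le.2 ⟨mem_cent1.2 y4, hK.le y1⟩)
  have hy' := hy (mem_zpowers y)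
  obtain ⟨k, hk⟩ := y2 ⟨y, mem_zpowers y⟩
  have hk' : y ^ 2 ^ k = 1 := congrArg Subtype.val hk
  clear hk hy hi y2 y4
  induction k generalizing y with
  | zero => exact absurd (by rw [show y = 1 by simpa using hk', one_mul]) y3
  | succ k ih =>
    by_contra mv
    have cf : Cf n J K z t y S T := ⟨h, hy'.1, hy'.2, y1, y3, mv⟩
    refine cf.false ?_
    by_cases e : y * y * (y * y) = 1
    · rw [(hK.uq _ (mul_mem y1 y1) e).resolve_left y3]; exact cf.tN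
    · exact ih (mul_mem y1 y1) e (mul_mem hy' hy') (by rw [← pow_two, ← pow_mul, ← pow_succ']; exact hk')

theorem part2 (hJ : Om n J z) (hK : Om n K t) (zN : z ∈ N_(K)) : t ∈ N_(J) :=
  H20.Qa.part2 part1 H25.QaD.diag hJ hK zN

theorem card_syl {P : Subgroup G} (hP : IsSylowIn 2 P J) :
    Nat.card P = 2 ^ (Nat.card (J ⧸ oddCore J)).factorization 2 := by
  obtain ⟨Q, hQ⟩ := hP.exists_sylow Nat.prime_two
  rw [← hQ, card_map_of_injective J.subtype_injective, Q.card_eq_multiplicity,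
    card_eq_card_quotient_mul_card_subgroup (oddCore J), Nat.factorization_mul Nat.card_pos.ne' Nat.card_pos.ne',
    Finsupp.add_apply, Nat.factorization_eq_zero_of_not_dvd (n := Nat.card (oddCore J)) ?_, add_zero]
  exact (Nat.Prime.coprime_iff_not_dvd Nat.prime_two).1 (H02.pPrimeCore_coprime _ _).symm

theorem om_of (hz : z ∈ J ∧ orderOf z = 2 ∧ ∀ t ∈ J, orderOf t = 2 → t = z)
    (hJ : J ≤ centralizer ({z} : Set G) ∧ IsPComponent 2 (J.subgroupOf (centralizer ({z} : Set G)))) :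
    Om ((Nat.card (J ⧸ oddCore J)).factorization 2) J z :=
  ⟨hz.1, mul_self_of_two hz.2.1, ne_one_of_two hz.2.1, fun x hx e => (em (x = 1)).imp_right fun m =>
    hz.2.2 x hx (two_of_mul_self e m), hJ, fun _ => card_syl⟩

end Cfsg.Agent.H26.Qa
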