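import Mathlib
import Cfsg.Agent.H16.Su6A

/-! The stabiliser of a non-degenerate point is maximal in `SU_4(q)`. -/

namespace Cfsg.Agent.H26

open Module H10 H10.Form H12.Xf H12.Fr

section
variable {F V : Type*} [Field F] [AddCommGroup V] [Module F V] {φ : Form F V} {q : ℕ} [φ.Nondeg] [FiniteDimensional F V]
  {M : Subgroup φ.Isom} {g : φ.Isom}

omit [φ.Nondeg] in
theorem sp1 {W : Submodule F V} (h : finrank F W = 1) {b : V} (hb : b ∈ W) (b0 : b ≠ 0) : W = F ∙ b :=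
  (Submodule.eq_of_le_of_finrank_eq ((Submodule.span_singleton_le_iff_mem _ _).2 hb)
    (by rw [finrank_span_singleton b0, h])).symm

theorem an1 {W : Submodule F V} (hW : φ.NondegOn W) (h : finrank F W = 1) {b : V} (hb : b ∈ W) (h0 : φ.Q b = 0) : b = 0 := by
  by_contra b0
  refine b0 (hW b hb fun y hy => ?_)
  obtain ⟨c, rfl⟩ := Submodule.mem_span_singleton.1 (sp1 h hb b0 ▸ hy)
  simp [φ.B_self_eq_zero h0]

theorem nd_le3 (hq : φ.IsUnitary q) {U : Submodule F V} (hU : φ.NondegOn U) (h4 : 3 ≤ finrank F U)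
    (h1' : finrank F (φ.perp U) = 1) (hM : φ.E ⊓ φ.stab U ≤ M) (hg : g ∈ M) (h1 : g ∉ φ.stab U) : φ.E ≤ M := by
  have hφ := hq.herm
  have hA : ∀ x ∈ U, ∀ w ∈ U, ∀ s, φ.Q x = 0 → φ.B x w = 0 → φ.T s = φ.Q w → φ.siegel x w s ∈ M :=
    fun x hx w hw s h3 h4 h5 => hM ⟨φ.siegel_mem_E h3 h4 h5, siegel_mem_stab h3 h4 h5 hx (Or.inl hw)⟩
  have tf : ∀ p ∈ U, φ.Q p = 0 → TF M p := fun p hp h0 t ht => hA p hp 0 (zero_mem _) t h0 (by simp) (by simpa)
  obtain ⟨x, hx, x1, x2⟩ : ∃ x, φ.Q x = 0 ∧ TF M x ∧ x ∉ U := by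
    by_contra! G
    have G' : ∀ w ∈ U, φ.Q w = 0 → g.1 w ∈ U := fun w hw s => G _ (by simpa) ((tf w hw s).map s hg)
    obtain ⟨u, hu, u0, u1⟩ := hq.exists_singular (W := U) (by omega)
    exact h1 (φ.mem_stab_of_le (span_iso hφ (A := U.comap (g.1 : V →ₗ[F] V)) hU hu u0 u1 (G' u hu u1) fun w hw s _ => G' w hw s))
  obtain ⟨a, ha, b, hb, rfl⟩ := spl hU x
  have b0 : b ≠ 0 := by rintro rfl; exact x2 (by simpa)
  have aQ : φ.Q a ≠ 0 := fun e => b0 (an1 hU.perp h1' hb (by rwa [φ.Q_add_of_orth (hb a ha), e, zero_add] at hx))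
  have a0 : a ≠ 0 := by rintro rfl; simp at aQ
  obtain ⟨p, hp, p0, hQ⟩ := hq.exists_singular (W := U ⊓ φ.perp (F ∙ a)) (by
    have := finrank_le_inf_perp (φ := φ) U (F ∙ a)
    have := finrank_span_singleton_le (F := F) a; omega)
  have pa : φ.B a p = 0 := φ.mem_perp_singleton.1 hp.2
  have pn : a ∉ F ∙ p := fun e => by
    obtain ⟨c, rfl⟩ := Submodule.mem_span_singleton.1 e
    exact aQ (φ.Q_smul_of_sing hQ c)
  replace hp := hp.1
  have hX := tf p hp hQ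
  have h5 : ∀ y ∈ U, φ.B p y = 0 → y ∈ sgSub M hQ hX := fun y hy h5 =>
    mem_sgSub_of h5 fun c s hs => hA p hp _ (U.smul_mem c hy) s hQ (by simp [h5]) hs
  obtain ⟨w, w1, w2⟩ := φ.exists_sep' pn
  obtain ⟨y, hy, y', hy', rfl⟩ := spl hU w
  have h6 : a + b ∈ sgSub M hQ hX := mem_sg_tv hq hx (by simp [pa, φ.B_symm_zero (hb p hp)]) x1
    (h5 y hy (by simpa [hy' p hp] using w1 p (Submodule.mem_span_singleton_self p)))
    (by
      have : φ.B a y = 1 := by simpa [hy' a ha] using w2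
      simp [this, φ.B_symm_zero (hb y hy)])
  obtain ⟨f, hf, hyp⟩ := hyp_in hU hp p0 hQ
  have h8 : φ.perp U ≤ sgSub M hQ hX := by
    rw [sp1 h1' hb b0, Submodule.span_singleton_le_iff_mem]
    exact (add_mem_cancel_left (h5 a ha (φ.B_symm_zero pa))).1 h6
  obtain ⟨t, t0, ht⟩ := hq.exists_skew
  refine (full_of_le_sgSub (hp := hQ) (hX := hX) fun v hv => ?_).E_le hQ (tf f hf hyp.Qf t ht) ?_
  · obtain ⟨c, hc, d, hd, rfl⟩ := spl hU v
    exact add_mem (h5 c hc (by simpa [hd p hp] using φ.mem_perp_singleton.1 hv)) (h8 hd)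
  · simp [tv_apply hφ hyp.Qf ht, hyp.Bee, hyp.Bef, hyp.Bfe, t0, hφ.ε_eq]

theorem not_E_le_nd (hq : φ.IsUnitary q) {W : Submodule F V} (hW : φ.NondegOn W) (h1 : finrank F W = 1)
    (hn : 3 ≤ finrank F V) : ¬ φ.E ≤ φ.stab W := fun H => by
  have hφ := hq.herm
  have h2 := φ.finrank_perp W
  obtain ⟨u, hu, u0, u1⟩ := hq.exists_singular (W := φ.perp W) (by omega)
  obtain ⟨t, t0, ht⟩ := hq.exists_skew
  have := span_iso hφ (A := φ.perp W) φ.nondegOn_top trivial u0 u1 hu fun p _ hp _ w hw => by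
    by_contra e
    have k := (H (φ.siegel_mem_E hp (w := 0) (s := t) (by simp) (by simpa)) w).1 hw
    rw [tv_apply hφ hp ht, W.sub_mem_iff_right hw, W.smul_mem_iff (mul_ne_zero t0 (mt φ.B_symm_zero e))] at k
    exact e (by simp [an1 hW h1 k hp])
  have := Submodule.finrank_mono this
  rw [finrank_top] at this; omega

theorem dec_ne2 {κ : Type*} {D : κ → Submodule F V} {k : ℕ} {a b : κ} (hq : φ.IsUnitary q) (od : φ.ODec D)
    (rk : ∀ i, finrank F (D i) = k) (k0 : 2 ≤ k) (r : a ≠ b) : ¬ φ.E ≤ φ.dstab D := fun H => by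
  have hφ := hq.herm
  have nb : ∀ i, D i ≠ ⊥ := fun i r => by have := rk i; rw [r, finrank_bot] at this; omega
  obtain ⟨u, hu, u1⟩ := hq.exists_Q_eq (od.nondeg a) (nb a) (c := 1) (map_one _)
  obtain ⟨w, hw, w1⟩ := hq.exists_Q_eq (od.nondeg b) (nb b) (c := -1) (by simp)
  have uw := od.orth a b r hw
  have hp : φ.Q (u + w) = 0 := by rw [φ.Q_add_of_orth (uw u hu), u1, w1, add_neg_cancel]
  obtain ⟨t, t0, ht⟩ := hq.exists_skew
  obtain ⟨σ, hσ⟩ := H (φ.siegel_mem_E hp (w := 0) (s := t) (by simp) (by simpa))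
  obtain ⟨x, hx, x0, x1⟩ := φ.exists_orth (D a) ⊥ [u] (by simp; have := rk a; omega)
  have dj : ∀ i, a ≠ i → ∀ y ∈ D a, y ∈ D i → y = 0 := fun i s y h1 h2 =>
    od.nondeg a y h1 fun z hz => φ.B_symm_zero (od.orth a i s h2 z hz)
  have e : a = σ a := by
    by_contra s
    have := (hσ a).le (Submodule.mem_map_of_mem hx)
    rw [LinearEquiv.coe_coe, tv_apply hφ hp ht] at this
    exact x0 (dj _ s x hx (by simpa [x1 u (by simp), φ.B_symm_zero (uw x hx)] using this))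
  have := (hσ a).le (Submodule.mem_map_of_mem hu)
  rw [LinearEquiv.coe_coe, tv_apply hφ hp ht, ← e, (D a).sub_mem_iff_right hu, (D a).smul_mem_iff (by
    simpa [φ.B_symm_zero (uw u hu), ← hφ.Q_eq, u1] using t0), add_mem_cancel_left hu] at this
  simp [dj b r w this hw] at w1
end

open Cfsg Cfsg.Geo

theorem su4_2 {F : Type*} [Field F] [Fintype F] {q : ℕ} (hF : Fintype.card F = q ^ 2) :
    ∀ W : Submodule F (Fin 4 → F), W ≠ ⊥ → Cfsg.Geo.IsNondegenerateOn (Cfsg.hermForm 4 F q) W → 2 * Module.finrank F W < 4 → Cfsg.Geo.IsMaximalIn (Cfsg.GU 4 F q ⊓ Cfsg.Geo.specialLinear (Fin 4) F) (Cfsg.Geo.subspaceStabilizer W ⊓ (Cfsg.GU 4 F q ⊓ Cfsg.Geo.specialLinear (Fin 4) F)) := by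
  intro W hW0 hW hdim
  have hF' : Nat.card F = q ^ 2 := by rw [Nat.card_eq_fintype_card, hF]
  have h0 := H10.stdU_isUnitary hF' 4
  have h1 := H10.nondegOn_herm hF' hW
  have h2 := (H10.stdU hF' 4).finrank_perp W
  have h5 : finrank F W = 1 := by have := Submodule.finrank_eq_zero.not.2 hW0; omega
  simp only [Module.finrank_fintype_fun_eq_card, Fintype.card_fin] at h2
  rw [H10.SU_eq_E hF' (by omega)]
  have h3 : (subspaceStabilizer W).comap (stdU hF' 4).toGL = (stdU hF' 4).stab ((stdU hF' 4).perp W) := by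
    rw [comap_subspaceStabilizer, (stdU hF' 4).stab_perp W]
  refine isMaximalIn_map _ ?_ fun M hM g hg _ hg' => ?_
  · rw [comap_subspaceStabilizer]
    exact not_E_le_nd h0 h1 h5 (by simp)
  · rw [h3] at hM
    exact nd_le3 h0 h1.perp (by omega) (by rw [perp_perp, h5]) hM hg (fun h4 => hg' (h3.ge h4))

theorem su4_4 {F : Type*} [Field F] [Fintype F] {q : ℕ} (hF : Fintype.card F = q ^ 2) :
    3 ≤ q → ∀ D : Fin 2 → Submodule F (Fin 4 → F), Cfsg.Geo.IsNondegenerateMDecomposition (Cfsg.hermForm 4 F q) 2 D → Cfsg.Geo.IsMaximalIn (Cfsg.GU 4 F q ⊓ Cfsg.Geo.specialLinear (Fin 4) F) (Cfsg.Geo.decompositionStabilizer D ⊓ (Cfsg.GU 4 F q ⊓ Cfsg.Geo.specialLinear (Fin 4) F)) := by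
  intro h3 D hD
  have hF' : Nat.card F = q ^ 2 := by rw [Nat.card_eq_fintype_card, hF]
  have h0 := stdU_isUnitary hF' 4
  have od : (stdU hF' 4).ODec D := oDec_of (fun _ _ => .inr rfl) (fun x y => (stdU hF' 4).B_eq_zero_comm) hD
  rw [SU_eq_E hF' (by omega)]
  refine isMaximalIn_map _ ?_ fun M hM g hg hg1 hg2 => ?_ <;> rw [comap_decompositionStabilizer] at *
  · exact dec_ne2 h0 od hD.decomp.finrank_eq le_rfl (a := 0) (b := 1) (by simp)
  · exact H16.Su6.dec_le2 h0 (by simp) od hD.decomp.finrank_eq le_rfl (by omega) hM hg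
      fun r => hg2 ((comap_decompositionStabilizer D).ge r)

end Cfsg.Agent.H26
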