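import Mathlib
import Cfsg.Agent.L.Jt0
import Cfsg.Agent.H26.JE

/-! Part L of the 3-local statements for groups of Janko-four type. -/

set_option autoImplicit false
open Cfsg BG Subgroup H01.XS H01.XF Cfsg.Agent.H06.J Cfsg.Agent.H23.K
open H01.XT hiding Hy QS

namespace H26.TL
universe u

theorem l : L.Jt.LStmt.{u} := by
  intro G _ _ z Q V _ _ _ Γ _ _ f π ν T d M β q s K Y B A δ c c2
  have l := s.md.lx
  have g := s.gm
  have d1 : d ≠ 1 := fun e => by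
    have : Subsingleton V := ⟨fun u v => by
      have a := g.hf u
      have b := g.hf v
      rw [e, g.one, g.one] at a b
      exact (show u = 0 from lc a).trans (show v = 0 from lc b).symm⟩
    have h := g.card
    rw [Nat.card_of_subsingleton (0 : V)] at h
    omega
  have qz : ∀ x ∈ Q, x ∈ C_[δ] → x = 1 ∨ x = z := fun x i j => H26.JE.cq s c.δz c.δd i j
  have z2 : orderOf z = 2 := orderOf_eq_prime ((pow_two z).trans l.zz) l.z1
  have zA : z ∈ A := (c2.e3.ge (show z ∈ s.md.pull B from ⟨l.aes.mem, s.md.zz ▸ zero_mem B⟩)).1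
  have zδ : z ∈ C_[δ] := mem_cent1.2 (mem_cent1.1 c.δz).symm
  refine ⟨qz, fun m i => ?_, fun a i j => by_contra fun n => d1 ?_, (c2.mN δ c.δz).2 (c.δd.symm ▸ c.pj.Bω),
    fun x i => (c2.mN x (l.le i)).2 fun v o => by rw [(s.ker _ (l.le i)).2 i, g.one]; exact o,
    orderOf_eq_prime c.δ3 fun e => d1 ?_, z2, ?_, ?_, fun x i x1 xz y j y1 yz => ?_⟩
  · obtain ⟨a, k, e⟩ := H26.JE.su s c.δz c.δd c.δ3 m i
    exact ⟨a, k.1, k.2, e⟩
  · have a1 := g.nM _ n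
    have a2 := congrArg π (mem_cent1.1 j)
    rw [H26.JE.mul s _ i _ c.δz, H26.JE.mul s _ c.δz _ i, c.δd, a1] at a2
    simpa using a2
  · rw [← c.δd, e]; exact (s.ker _ (one_mem _)).2 (one_mem _)
  · have a1 := H26.JE.cnt s (U := C_[z]) le_rfl
    have e2 : ((C_[z]).subgroupOf C_[z]).map f = ⊤ := eq_top_iff.2 fun y _ => by
      obtain ⟨x, j, rfl⟩ := s.sur y
      exact ⟨⟨x, j⟩, j, s.pf _⟩
    rw [inf_eq_left.2 l.le, e2, s.card, Subgroup.card_top, g.cΓ] at a1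
    rw [← a1]; norm_num
  · have a1 := H26.JE.cnt s (U := A ⊓ C_[δ]) (inf_le_left.trans c.Az)
    have e1 : Q ⊓ (A ⊓ C_[δ]) = zpowers z := le_antisymm (fun x i => by
      rcases qz x i.1 i.2.2 with e | e <;> rw [e]
      exacts [one_mem _, mem_zpowers _]) (zpowers_le.2 ⟨l.aes.mem, zA, zδ⟩)
    have e2 : ((A ⊓ C_[δ]).subgroupOf C_[z]).map f = Y := Subgroup.ext fun y => ⟨by
      rintro ⟨x, i, rfl⟩
      rw [s.pf]; exact c.AY _ i.1, fun i => by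
      obtain ⟨x, j, j', rfl⟩ := c2.YA y i
      exact ⟨⟨x, c.Az j⟩, ⟨j, j'⟩, s.pf _⟩⟩
    rw [e1, e2, Nat.card_zpowers, z2, c.hk.hx.cY] at a1
    exact a1.symm
  · have n1 : ∀ x ∈ A ⊓ C_[δ], x ≠ 1 → x ≠ z → π x ≠ 1 := fun x i a b e =>
      (qz x ((s.ker _ (c.Az i.1)).1 e) i.2).elim a b
    obtain ⟨k, kK, ek⟩ := c.hk.hx.tr _ (c.AY x i.1) _ (c.AY y j.1) (n1 x i x1 xz) (n1 y j y1 yz)
    obtain ⟨a, o, rfl⟩ := H26.JE.su s c.δz c.δd c.δ3 k (c.hk.KM kK)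
    have xz' := c.Az i.1
    have yz' := c.Az j.1
    have m : a * x * a⁻¹ ∈ C_[z] := mul_mem (mul_mem o.1 xz') (inv_mem o.1)
    refine ⟨a, (c2.mN a o.1).2 (c.pj.KB _ kK), o.1, o.2, ?_⟩
    rcases qz (a * x * a⁻¹ * y⁻¹) ((s.ker _ (mul_mem m (inv_mem yz'))).1 (by
      rw [H26.JE.mul s _ m _ (inv_mem yz'), H26.JE.inv s _ yz', H26.JE.mul s _ (mul_mem o.1 xz') _ (inv_mem o.1),
        H26.JE.mul s _ o.1 _ xz', H26.JE.inv s _ o.1, ek, mul_inv_cancel]))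
      (mul_mem (mul_mem (mul_mem o.2 i.2) (inv_mem o.2)) (inv_mem j.2)) with e | e
    · exact .inl (mul_inv_eq_one.1 e)
    · exact .inr ((mul_inv_eq_iff_eq_mul.1 e).trans (mem_cent1.1 yz').symm)

end H26.TL
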