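import Mathlib
import Cfsg.Agent.H05.Tu0
import Cfsg.Agent.H19.Blich
import Cfsg.Agent.H07.Ito

/-! Part Z of S4504: normal `p'`-subgroups are central. -/

set_option autoImplicit false
open H05 Cfsg
open scoped commutatorElement

namespace H26.Tu

universe u

theorem irr_or {p : ℕ} [hp : Fact p.Prime] {L : Type u} [Group L] [Finite L] (h2 : ¬ p ^ 2 ∣ Nat.card L)
    {χ : L → ℂ} (hχ : IsCharacter L χ) (hf : ∀ g, χ g = χ 1 → g = 1) (hd : 2 * charDegree χ + 1 = p) :
    IsIrrCharacter L χ ∨ ∀ x y : L, x ^ p = 1 → y ^ p = 1 → Commute x y := by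
  classical
  have := Fintype.ofFinite L
  by_cases hi : IsIrrCharacter L χ
  · exact Or.inl hi
  refine Or.inr fun x y hx hy => ?_
  obtain ⟨m, hm, e⟩ := hχ.exists_nat_coeff
  refine commutatorElement_eq_one_iff_commute.1 (hf _ ?_)
  rw [e]
  simp only [Finset.sum_apply, Pi.smul_apply]
  refine Finset.sum_congr rfl fun ζ _ => ?_
  by_cases h0 : m ζ = 0
  · simp [h0]
  have h0' : classInner χ ζ ≠ 0 := by simpa [hm] using h0
  have h3 := hχ.charDegree_le_of_constituent ζ.2 h0'
  have h5 : charDegree (ζ : L → ℂ) ≠ charDegree χ := fun h => hi (by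
    rw [hχ.eq_of_constituent_of_degree_eq ζ.2 h0' (by rw [← hχ.charDegree_eq, ← h, ζ.2.charDegree_eq])]
    exact ζ.2)
  congr 1
  obtain ⟨ψ, hψ, e'⟩ := ζ.2.exists_quotient (charKer (ζ : L → ℂ)) fun _ => ζ.2.isCharacter.mem_charKer.1
  have h4 := H19.commute_of_small_deg (p := p) (G := L ⧸ charKer (ζ : L → ℂ))
    (fun h => h2 (h.trans (Subgroup.card_quotient_dvd_card _))) hψ.isCharacter (fun g hg => by
      obtain ⟨g, rfl⟩ := QuotientGroup.mk_surjective g
      exact (QuotientGroup.eq_one_iff g).2 (ζ.2.isCharacter.mem_charKer.2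
        ((congrFun e' g).trans (hg.trans (congrFun e' 1).symm))))
    (by rw [show charDegree ψ = charDegree (ζ : L → ℂ) by rw [charDegree, charDegree, congrFun e' 1]; rfl]; omega)
    (x := x) (y := y) (by rw [← QuotientGroup.mk_pow, hx]; rfl) (by rw [← QuotientGroup.mk_pow, hy]; rfl)
  exact ζ.2.isCharacter.mem_charKer.1 ((QuotientGroup.eq_one_iff _).1 (commutatorElement_eq_one_iff_commute.2 h4))

theorem cent {p : ℕ} [hp : Fact p.Prime] {G : Type u} [Group G] [Finite G] (h2 : ¬ p ^ 2 ∣ Nat.card G)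
    {χ : G → ℂ} (hχ : IsCharacter G χ) (hf : ∀ g, χ g = χ 1 → g = 1) (hd : 2 * charDegree χ + 1 = p)
    {N : Subgroup G} [N.Normal] (hN : ¬ p ∣ Nat.card N) {y : G} (hy : y ^ p = 1) {a : G} (ha : a ∈ N) :
    y * a = a * y := by
  by_cases h1 : y = 1
  · simp [h1]
  have ho : orderOf y = p := orderOf_eq_prime hy h1
  have hc : Nat.card (Subgroup.zpowers y) = p := by rw [Nat.card_zpowers, ho]
  have hP : IsPGroup p (Subgroup.zpowers y) := IsPGroup.of_card (n := 1) (by rw [hc, pow_one])
  have hs : IsPSolvable p (Subgroup.zpowers y ⊔ N : Subgroup G) :=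
    H24.PS.sup (H := Subgroup.zpowers y) (N := N) (by rw [Subgroup.normalizer_eq_top]; exact le_top)
      (H24.PS.of_pgroup hP) (H24.PS.of_coprime (Nat.coprime_comm.1 ((Nat.Prime.coprime_iff_not_dvd hp.out).2 hN)))
  set U : Subgroup G := Subgroup.zpowers y ⊔ N with hU
  have hyU : y ∈ U := (le_sup_left : Subgroup.zpowers y ≤ U) (Subgroup.mem_zpowers y)
  have haU : a ∈ U := (le_sup_right : N ≤ U) ha
  have hY : IsPGroup p (Subgroup.zpowers (⟨y, hyU⟩ : U)) := IsPGroup.of_card (n := 1) (by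
    rw [Nat.card_zpowers, pow_one, ← Subgroup.orderOf_coe, ho])
  obtain ⟨P, hP'⟩ := hY.exists_le_sylow
  have hn : (P : Subgroup U).Normal := by
    by_contra h
    have := (H07.ito_small (hχ.restrict U) (fun g hg => Subtype.ext (hf g hg)) hs
      (by rw [charDegree_restrict]; have := hp.out.two_le; omega) P h).1
    rw [charDegree_restrict] at this
    have := hp.out.two_le
    omega
  have hM : (N.subgroupOf U).Normal := inferInstance
  have hdis : Disjoint (P : Subgroup U) (N.subgroupOf U) := by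
    rw [Subgroup.disjoint_def]
    intro g hg hg'
    obtain ⟨k, hk⟩ := P.2 ⟨g, hg⟩
    have e1 : orderOf (g : G) ∣ p ^ k := orderOf_dvd_of_pow_eq_one (by
      have := congrArg (fun t : (P : Subgroup U) => ((t : U) : G)) hk
      simpa using this)
    have e2 : orderOf (g : G) ∣ Nat.card N := N.orderOf_dvd_natCard (Subgroup.mem_subgroupOf.1 hg')
    have e3 : orderOf (g : G) = 1 := Nat.eq_one_of_dvd_coprimes
      (Nat.Coprime.pow_left k ((Nat.Prime.coprime_iff_not_dvd hp.out).2 hN)) e1 e2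
    exact Subtype.ext (orderOf_eq_one_iff.1 e3)
  have := Subgroup.commute_of_normal_of_disjoint _ _ hn hM hdis ⟨y, hyU⟩ ⟨a, haU⟩
    (hP' (Subgroup.mem_zpowers _)) (Subgroup.mem_subgroupOf.2 ha)
  exact congrArg Subtype.val this.eq

theorem z : H05.Tu.ZStmt.{u} := by
  intro G _ _ p hp x hx h5 hnn n ρ hρ hn N hN hpN a ha
  have hχ : IsCharacter G ρ.character := ⟨n, ρ, rfl⟩
  have hf : ∀ g, ρ.character g = ρ.character 1 → g = 1 := fun g hg =>
    hρ (((character_eq_one_iff_mem_ker ρ g).1 hg).trans (map_one ρ).symm)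
  have hd : 2 * charDegree ρ.character + 1 = p := by
    rw [charDegree_character]; simpa using hn
  have hdiv : p ∣ Nat.card G := hx.o ▸ orderOf_dvd_natCard x
  set L : Subgroup G := Subgroup.closure {g : G | g ^ p = 1} with hL
  rcases irr_or (L := L) (p := p) (fun h => hx.sq (h.trans L.card_subgroup_dvd_card)) (hχ.restrict L)
    (fun g hg => Subtype.ext (hf g hg)) (by rwa [charDegree_restrict]) with h | h
  · have h1 : L ≤ Subgroup.centralizer ({a} : Set G) := (Subgroup.closure_le _).2 fun y hy =>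
      Subgroup.mem_centralizer_singleton_iff.2 (cent hx.sq hχ hf hd hpN hy ha)
    have h2 := H07.mem_charCenter_of_cent hχ h (x := a) fun c hc => Subgroup.mem_centralizer_singleton_iff.1 (h1 hc)
    rwa [H06.charCenter_eq_center (eq_bot_iff.2 fun g hg => hf g (hχ.mem_charKer.1 hg))] at h2
  · obtain ⟨P⟩ : Nonempty (Sylow p G) := inferInstance
    have hP := H19.card_sylow_eq_prime hdiv hx.sq P
    refine (hnn _ (H19.normal_of_commute P hP fun b c hb hc => ?_) hP).elim
    exact congrArg Subtype.val (h ⟨b, Subgroup.subset_closure hb⟩ ⟨c, Subgroup.subset_closure hc⟩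
      (Subtype.ext hb) (Subtype.ext hc)).eq

end H26.Tu
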