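import Cfsg.Agent.H23.Y0
import Cfsg.Agent.H26.KX
import Cfsg.Agent.H28.YC

/-! Part Pa of S5569. -/

set_option autoImplicit false
open Cfsg BG Subgroup H01.XS H01.XF Cfsg.Agent.H06.J Cfsg.Agent.H23.K Cfsg.Agent.H23.Y

namespace H26.YPa
universe u

theorem half {V : Type u} [AddCommGroup V] [Finite V] (B : AddSubgroup V) (φ : V →+ ZMod 2) {b : V} (i : b ∈ B) (n : φ b ≠ 0) :
    Nat.card ↥(φ.ker ⊓ B) * 2 = Nat.card B := by
  have a := (φ.ker.addSubgroupOf B).card_mul_index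
  have e : B.map φ = ⊤ := eq_top_iff.2 fun x _ => by
    rcases (by decide : ∀ x y : ZMod 2, y ≠ 0 → x = 0 ∨ x = y) x _ n with rfl | rfl
    exacts [zero_mem _, ⟨b, i, rfl⟩]
  have b1 : (φ.ker.addSubgroupOf B).index = 2 := by
    have := AddSubgroup.relIndex_ker B φ
    rw [e, AddSubgroup.card_top, Nat.card_zmod] at this; exact this
  rw [b1, ← AddSubgroup.inf_addSubgroupOf_right,
    Nat.card_congr (AddSubgroup.addSubgroupOfEquivOfLe (inf_le_right : φ.ker ⊓ B ≤ B)).toEquiv] at a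
  exact a

def HL : Prop := All.{u} fun {_ _ _ _ _ _ _ _ _ _ _ _ _ _ _ T _ _ β _} _ _ Y B _ _ =>
  (∀ y ∈ Y, y ≠ 1 → {v | T y v = v}.ncard = 256) → ∀ y ∈ Y, y ≠ 1 → ∀ v, T y v = v → v ∉ B →
    ∀ b ∈ B, β v b = 0 → ∃ y1 ∈ Y, ∃ u, b = (v + T y1 v) + (u + T y u)

theorem pa0 (hl : HL.{u}) : PaStmt.{u} := by
  intro G _ _ z Q V _ _ _ Γ _ _ f π ν T d M β q s K Y B A δ x c2 h256 t tz t2 tY tQ tA
  have l := s.md.lx
  have g := s.gm
  have p := x.pj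
  have F := g.toQF
  have βB := H26.KX.iso g p
  have mB : ∀ {W : AddSubgroup V} {x : G}, x ∈ s.md.pull W ↔ x ∈ Q ∧ ν x ∈ W := Iff.rfl
  have PA : s.md.pull B ≤ A := c2.e3.ge.trans inf_le_left
  have ab : ∀ {a b : G}, a ∈ A → b ∈ A → a * b = b * a := fun i j => cm2 x.A2 i j
  have y1 : π t ≠ 1 := fun e => tQ ((s.ker _ tz).1 e)
  have yy := x.hk.hx.Y2 _ tY
  obtain ⟨c, cA, cδ, cy⟩ := c2.YA _ tY
  have cz := x.Az cA
  have cc := x.A2 _ cA
  obtain ⟨r, rQ, tr⟩ : ∃ r ∈ Q, t = r * c := ⟨t * c, (s.ker _ (mul_mem tz cz)).1 (by rw [H26.JE.mul s _ tz _ cz, cy, yy]),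
    by rw [mul_assoc, cc, mul_one]⟩
  have fv : T (π t) (ν r) = ν r := by
    rw [← cy, s.act c cz r rQ, ← s.md.inv rQ]
    congr 1
    rw [inv_eq_of_mul_eq_one_right cc, eq_inv_iff_mul_eq_one]
    calc _ = r⁻¹ * (r * c * (r * c)) * r := by group
      _ = 1 := by rw [← tr, t2]; group
  have cr : c * r = r * c := mul_inv_eq_iff_eq_mul.1 (c2.cz c cz cδ r rQ (cy ▸ fv))
  have vB : ν r ∉ B := fun o => tA (tr ▸ mul_mem (PA ⟨rQ, o⟩) cA)
  have ct : ∀ {a : G}, a ∈ A → (a ∈ C_[t] ↔ a * r = r * a) := fun {a} i => by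
    rw [mem_cent1, tr, ← mul_assoc, mul_assoc r, ← ab i cA, ← mul_assoc, mul_left_inj]
  have πC : ∀ a ∈ A ⊓ C_[t], π a = 1 ∨ π a = π t := fun a i => by
    by_contra! n
    refine vB (x.pi.two _ (x.AY a i.1) _ tY n.1 y1 n.2 _ ?_ fv)
    rw [s.act a (x.Az i.1) r rQ, (ct i.1).1 i.2, mul_inv_cancel_right]
  have eW : s.md.pull B ⊓ C_[t] = s.md.pull ((β (ν r)).ker ⊓ B) := Subgroup.ext fun w =>
    ⟨fun i => ⟨i.1.1, (s.b r rQ w i.1.1).2 ((ct (PA i.1)).1 i.2).symm, i.1.2⟩,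
     fun i => ⟨⟨i.1, i.2.2⟩, (ct (PA ⟨i.1, i.2.2⟩)).2 ((s.b r rQ w i.1).1 i.2.1).eq.symm⟩⟩
  obtain ⟨b0, b0B, b0n⟩ : ∃ b ∈ B, β (ν r) b ≠ 0 := by
    by_contra! n
    exact vB (F.perp βB (by rw [p.cB]; norm_num) n)
  have c32 : Nat.card ↥((β (ν r)).ker ⊓ B) = 32 := by
    have := half B (β (ν r)) b0B b0n
    rw [p.cB] at this; omega
  have c64 : Nat.card ↥(s.md.pull B ⊓ C_[t]) = 64 := by rw [eW, s.md.card_pull, c32]
  have cT : c ∈ A ⊓ C_[t] := ⟨cA, (ct cA).2 cr⟩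
  let φ : V →+ V := AddMonoidHom.id V + T (π t)
  have φa : ∀ u, φ u = u + T (π t) u := fun _ => rfl
  have c16 : Nat.card φ.range = 16 := by
    have a := φ.ker.card_mul_index
    rw [AddSubgroup.index_ker, F.card, show Nat.card φ.ker = 256 from
      (Nat.card_congr (Equiv.subtypeEquivRight fun u => ⟨fun e : u + T (π t) u = 0 => show T (π t) u = u by rw [← add_left_cancel_iff (a := u), e, s.md.two],
        fun e : T (π t) u = u => by show u + T (π t) u = 0; rw [e, s.md.two]⟩)).trans (h256 _ tY y1)] at a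
    omega
  have pf : ∀ u w, T (π t) w = w → β w (φ u) = 0 := fun u w e => by
    have := F.inv (g.qT (π t)) w u
    rw [e] at this
    rw [φa, map_add, this]; exact CharTwo.add_self_eq_zero _
  have cjn : ∀ c' ∈ C_[z], π c' = π t → ∀ k ∈ Q, k * c' * k⁻¹ * c'⁻¹ ∈ s.md.pull B ∧ ν (k * c' * k⁻¹ * c'⁻¹) = φ (ν k) :=
    fun c' i e k j => by
    have m := l.cE i (inv_mem j)
    have : ν (k * c' * k⁻¹ * c'⁻¹) = φ (ν k) := by
      rw [show k * c' * k⁻¹ * c'⁻¹ = k * (c' * k⁻¹ * c'⁻¹) by group, s.md.mul _ j _ m, ← s.act _ i _ (inv_mem j), e, s.md.inv j, φa]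
    exact ⟨⟨by rw [show k * c' * k⁻¹ * c'⁻¹ = k * (c' * k⁻¹ * c'⁻¹) by group]; exact mul_mem j m,
      this ▸ p.cm _ tY _⟩, this⟩
  refine ⟨?_, c64, ?_, fun a i n => ?_, c, cA, cδ, fun o => y1 (cy ▸ (s.ker _ cz).2 o.1), fun c' h => ?_⟩
  · have a1 := H26.JE.cnt s (U := A ⊓ C_[t]) (inf_le_left.trans x.Az)
    have e2 : ((A ⊓ C_[t]).subgroupOf C_[z]).map f = zpowers (π t) := le_antisymm (by
      rintro _ ⟨a, i, rfl⟩
      rw [s.pf]
      rcases πC a i with e | e <;> rw [e]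
      exacts [one_mem _, mem_zpowers _]) (zpowers_le.2 ⟨⟨c, cz⟩, cT, (s.pf _).trans cy⟩)
    rw [← inf_assoc, inf_comm Q, c2.e3, c64, e2, Nat.card_zpowers, orderOf_eq_prime (p := 2) (by rw [pow_two, yy]) y1] at a1
    exact a1.symm
  · intro w i
    have i' := eW.le i
    obtain ⟨y1', o, u, e⟩ := hl s K Y B A δ x h256 _ tY y1 _ fv vB _ i'.2.2 i'.2.1
    obtain ⟨k, j, rfl⟩ := s.md.sur u
    obtain ⟨a, aA, -, rfl⟩ := c2.YA _ o
    have az := x.Az aA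
    have QN : Q ≤ N_(A) := fun k j => (c2.mN k (l.le j)).2 fun v o => by rw [(s.ker _ (l.le j)).2 j, g.one]; exact o
    have ti : t⁻¹ = t := inv_eq_of_mul_eq_one_right t2
    obtain ⟨a1, a2⟩ := cjn t tz rfl k j
    have m1 : r⁻¹ * (a * r * a⁻¹) ∈ Q := mul_mem (inv_mem rQ) (l.cE az rQ)
    have n1 : ν (r⁻¹ * (a * r * a⁻¹)) = ν r + T (π a) (ν r) := by
      rw [s.md.mul _ (inv_mem rQ) _ (l.cE az rQ), s.md.inv rQ, s.act a az r rQ]
    have b1 : r⁻¹ * (a * r * a⁻¹) ∈ s.md.pull B := ⟨m1, n1 ▸ p.cm _ o _⟩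
    have e1 : a * t * a⁻¹ = t * (r⁻¹ * (a * r * a⁻¹)) := by
      rw [tr, mul_assoc r c, ab cA (PA b1)]
      calc _ = a * r * (c * a⁻¹) := by group
        _ = _ := by rw [ab cA (inv_mem aA)]; group
    have wt : k * t * k⁻¹ * t⁻¹ ∈ C_[t] := (eW.ge ⟨a1.1, by
      show β (ν r) _ = 0
      rw [a2]; exact pf _ _ fv, a1.2⟩).2
    generalize r⁻¹ * (a * r * a⁻¹) = w1 at *
    have e2 : k * t * k⁻¹ = t * (k * t * k⁻¹ * t⁻¹) := by rw [← mem_cent1.1 wt]; group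
    generalize k * t * k⁻¹ * t⁻¹ = w2 at *
    have e3 : a * k * t * (a * k)⁻¹ = t * (w1 * w2) := by
      calc _ = a * (k * t * k⁻¹) * a⁻¹ := by group
        _ = a * t * (w2 * a⁻¹) := by rw [e2]; group
        _ = a * t * a⁻¹ * w2 := by rw [ab (PA a1) (inv_mem aA)]; group
        _ = _ := by rw [e1]; group
    have aN : a * k ∈ N_(A) := mul_mem (le_normalizer aA) (QN j)
    rcases s.md.eq i.1.1 (mul_mem m1 a1.1) (by rw [s.md.mul _ m1 _ a1.1, n1, a2, φa, e]) with e4 | e4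
    · exact ⟨_, aN, e4 ▸ e3⟩
    · obtain ⟨n, nQ, rfl⟩ := s.md.sur b0
      have nA : n ∈ A := PA ⟨nQ, b0B⟩
      have e5 : n * r * n⁻¹ = z * r := (s.md.eq (l.cE (l.le nQ) rQ) rQ (s.md.cq nQ rQ)).resolve_left fun h =>
        b0n ((s.b r rQ n nQ).2 (mul_inv_eq_iff_eq_mul.1 h).symm)
      refine ⟨n * (a * k), mul_mem (QN nQ) aN, ?_⟩
      calc _ = n * (a * k * t * (a * k)⁻¹) * n⁻¹ := by group
        _ = n * r * (c * (w1 * w2) * n⁻¹) := by rw [e3, tr]; group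
        _ = n * r * n⁻¹ * c * (w1 * w2) := by rw [ab (mul_mem cA (PA (mul_mem b1 a1))) (inv_mem nA)]; group
        _ = z * t * (w1 * w2) := by rw [e5, tr]; group
        _ = _ := by rw [e4, ← mem_cent1.1 tz]; group
  · rcases πC a i with e | e
    · exact (n (c2.e3.le ⟨i.1, (s.ker _ (x.Az i.1)).1 e⟩)).elim
    · exact (s.ker _ (mul_mem tz (x.Az i.1))).1 (by rw [H26.JE.mul s _ tz _ (x.Az i.1), e, yy])
  · have zL : z ∈ s.md.pull B := mB.2 ⟨l.aes.mem, s.md.zz ▸ zero_mem B⟩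
    have zt : z ∈ A ⊓ C_[t] := ⟨PA zL, mem_cent1.2 (mem_cent1.1 tz).symm⟩
    have h1 : c' ∈ A ⊓ C_[t] := by rcases h with rfl | rfl; exacts [cT, mul_mem cT zt]
    have h2 : π c' = π t := by
      rcases h with rfl | rfl
      exacts [cy, by rw [H26.JE.mul s _ cz _ (x.Az zt.1), (s.ker _ (x.Az zt.1)).2 zL.1, mul_one, cy]]
    rw [← c16]
    refine le_trans ?_ (Set.ncard_image_le (f := fun w => ν (w * c'⁻¹)) (Set.toFinite _))
    refine Set.ncard_le_ncard (s := (φ.range : Set V)) ?_ (Set.toFinite _)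
    rintro _ ⟨u, rfl⟩
    obtain ⟨k, j, rfl⟩ := s.md.sur u
    obtain ⟨a1, a2⟩ := cjn c' (x.Az h1.1) h2 k j
    refine ⟨k * c' * k⁻¹, ⟨?_, k, j, rfl⟩, a2⟩
    have : k * c' * k⁻¹ * c'⁻¹ ∈ s.md.pull B ⊓ C_[t] := eW.ge ⟨a1.1, by
      show β (ν r) _ = 0
      rw [a2]; exact pf _ _ fv, a1.2⟩
    have := mul_mem this.2 h1.2
    rw [inv_mul_cancel_right] at this
    exact (mem_cent1.1 this).symm

theorem hl : HL.{u} := by
  intro G _ _ z Q V _ _ _ Γ _ _ f π ν T d M β q s K Y B A δ x h256 y yY y1 v fv vB b bB bv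
  have g := s.gm
  have p := x.pj
  have F := g.toQF
  have βB := H26.KX.iso g p
  obtain ⟨y2, o, n⟩ := H28.YC.cx g x.hk.hx x.hk.KM p x.pi h256 yY y1 fv vB
  obtain ⟨b0, b0B, b0n⟩ : ∃ b ∈ B, β v b ≠ 0 := by
    by_contra! n
    exact vB (F.perp βB (by rw [p.cB]; norm_num) n)
  have c32 : Nat.card ↥((β v).ker ⊓ B) = 32 := by
    have := half B (β v) b0B b0n
    rw [p.cB] at this; omega
  let φ : V →+ V := AddMonoidHom.id V + T y
  have c16 : Nat.card φ.range = 16 := by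
    have a := φ.ker.card_mul_index
    rw [AddSubgroup.index_ker, F.card, show Nat.card φ.ker = 256 from
      (Nat.card_congr (Equiv.subtypeEquivRight fun u => ⟨fun e : u + T y u = 0 => show T y u = u by
        rw [← add_left_cancel_iff (a := u), e, s.md.two],
        fun e : T y u = u => by show u + T y u = 0; rw [e, s.md.two]⟩)).trans (h256 _ yY y1)] at a
    omega
  have le : φ.range ≤ (β v).ker ⊓ B := by
    rintro _ ⟨u, rfl⟩
    refine ⟨?_, p.cm _ yY u⟩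
    have := F.inv (g.qT y) v u
    rw [fv] at this
    show β v (u + T y u) = 0
    rw [map_add, this]; exact CharTwo.add_self_eq_zero _
  have i2 : (φ.range.addSubgroupOf ((β v).ker ⊓ B)).index = 2 := by
    have a := (φ.range.addSubgroupOf ((β v).ker ⊓ B)).card_mul_index
    rw [Nat.card_congr (AddSubgroup.addSubgroupOfEquivOfLe le).toEquiv, c16, c32] at a
    omega
  have w2 : v + T y2 v ∈ (β v).ker ⊓ B := by
    refine ⟨?_, p.cm _ o v⟩
    have := F.pol v (T y2 v)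
    rw [p.qB _ (p.cm _ o v), g.qT, CharTwo.add_self_eq_zero, zero_add] at this
    show β v (v + T y2 v) = 0
    rw [map_add, F.alt, ← this, add_zero]
  by_cases h : b ∈ φ.range
  · obtain ⟨u, rfl⟩ := h
    exact ⟨1, one_mem _, u, by rw [g.one, s.md.two, zero_add]; rfl⟩
  · obtain ⟨u, e⟩ : (v + T y2 v) + b ∈ φ.range :=
      (AddSubgroup.add_mem_iff_of_index_two i2 (a := ⟨_, w2⟩) (b := ⟨b, bv, bB⟩)).2 (iff_of_false n h)
    refine ⟨y2, o, u, ?_⟩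
    rw [show u + T y u = _ from e, ← add_assoc, s.md.two, zero_add]

theorem pa : PaStmt.{u} := pa0 hl

end H26.YPa
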